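import Cfsg.Agent.H738.NearId
import Cfsg.Agent.H736.Near

/-!
# Near pairs generate `L₂(q)`
-/

set_option autoImplicit false

universe u

namespace Cfsg.Agent.H738

open Cfsg.Agent.H731 Cfsg.Agent.H737 Cfsg.Agent.H736.Hole

variable {G : Type u} [Group G] [Finite G] {D : Set G}

theorem EG_conjBy' (h : IsRootInvolutionSet D) (d g : G) :
    conjBy (EG D d) g = EG D (g * d * g⁻¹) := by
  apply le_antisymm
  · rintro _ ⟨a, ha, rfl⟩
    exact EG_conj h ha g
  · intro y hy
    have h1 := EG_conj h hy g⁻¹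
    have e1 : g⁻¹ * (g * d * g⁻¹) * g⁻¹⁻¹ = d := by group
    rw [e1] at h1
    refine ⟨g⁻¹ * y * g⁻¹⁻¹, h1, ?_⟩
    show g * (g⁻¹ * y * g⁻¹⁻¹) * g⁻¹ = y
    group

theorem braid_of_cube {a b : G} (ha : a * a = 1) (hb : b * b = 1) (h : (a * b) ^ 3 = 1) :
    a * b * a = b * a * b := by
  have h1 : a * b * a * (b * a * b) = 1 := by
    rw [← h, pow_succ, pow_two]; group
  calc a * b * a = a * b * a * (b * a * b) * (b * a * b)⁻¹ := by group
    _ = (b * a * b)⁻¹ := by rw [h1, one_mul]
    _ = b * a * b := by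
      rw [mul_inv_rev, mul_inv_rev, inv_eq_of_mul_eq_one_left ha, inv_eq_of_mul_eq_one_left hb,
        mul_assoc]

/-- `(E(v), E(e))` for a near pair is a rank one pair. -/
theorem near_rankOne (N : ND D) {v d z e : G} (p : Path D v d z e)
    (hq : 4 ≤ Nat.card (EG D v)) :
    Shear.RankOne ((EG D v).subgroupOf (EG D v ⊔ EG D e)) ((EG D e).subgroupOf (EG D v ⊔ EG D e)) := by
  set Y : Subgroup G := EG D v ⊔ EG D e with hY
  have hvY : EG D v ≤ Y := le_sup_left
  have heY : EG D e ≤ Y := le_sup_right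
  have hconj : ∀ (C : Subgroup G) (g : Y), conjBy (C.subgroupOf Y) g = (conjBy C (g : G)).subgroupOf Y := by
    intro C g
    ext x
    rw [mem_conjBy, Subgroup.mem_subgroupOf, Subgroup.mem_subgroupOf, mem_conjBy]
    rfl
  refine ⟨?_, ?_, ?_, ?_, ?_, ?_, ?_, ?_⟩
  · rw [Nat.card_congr (Subgroup.subgroupOfEquivOfLe hvY).toEquiv]; exact hq
  · rintro ⟨a, ha'⟩ ha
    exact Subtype.ext (EG_sq N.h N.hc p.hv ha)
  · rintro ⟨a, ha'⟩ ha
    exact Subtype.ext (EG_sq N.h N.hc p.he ha)
  · rw [Subgroup.eq_bot_iff_forall]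
    rintro ⟨a, ha'⟩ ⟨ha, hb⟩
    apply Subtype.ext
    show a = 1
    by_contra hne
    have h1 := N.mem_EC p.hv ha hne
    have h2 := N.mem_EC p.he hb hne
    have h3 := h2.2.symm.trans h1.2
    exact (SimR.refl D e |> fun _ => h3.not_opp p.he) (p.opp)
  · rintro ⟨a, ha'⟩ ha ha1 ⟨b, hb'⟩ hb hb1
    have ha2 : a ≠ 1 := fun h => ha1 (Subtype.ext h)
    have hb2 : b ≠ 1 := fun h => hb1 (Subtype.ext h)
    have q := p.sim N (N.mem_EC p.hv ha ha2) (mem_EC_self p.hd) (mem_EC_self p.hz)
      (N.mem_EC p.he hb hb2)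
    have h1 := (Opp.symm' N.h q.he q.hv q.opp).2
    have h2 : orderOf ((⟨a, ha'⟩ : Y) * ⟨b, hb'⟩) = orderOf (a * b) :=
      (Subgroup.orderOf_coe _).symm
    rw [h2]; exact h1
  · rw [← Subgroup.subgroupOf_sup hvY heY, ← hY]
    exact Subgroup.subgroupOf_self Y
  · exact ⟨⟨e, heY (N.self_mem p.he)⟩, N.self_mem p.he, fun h => ne_one_of_mem N.h p.he
      (congrArg Subtype.val h)⟩
  · rintro ⟨b, hb'⟩ hb hb1
    have hb2 : b ≠ 1 := fun h => hb1 (Subtype.ext h)
    have hbC : b ∈ EC D e := N.mem_EC p.he hb hb2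
    have q := p.sim N (mem_EC_self p.hv) (mem_EC_self p.hd) (mem_EC_self p.hz) hbC
    obtain ⟨y, hy, hyb⟩ := q.exists_three N
    have hyy := sq_of_mem N.h hy.1
    have hbb := sq_of_mem N.h hbC.1
    have hyE : y ∈ EG D v := Subgroup.subset_closure hy
    have hbr := braid_of_cube hyy hbb hyb
    have e1 : EG D y = EG D v := EG_eq hy.2
    have e2 : EG D b = EG D e := EG_eq hbC.2
    have hinv : (y * b * y)⁻¹ = y * b * y := by
      rw [mul_inv_rev, mul_inv_rev, inv_of_sq hyy, inv_of_sq hbb, mul_assoc]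
    have c1 : (y * b * y) * y * (y * b * y)⁻¹ = b := by
      rw [hinv]
      calc y * b * y * y * (y * b * y) = y * b * (y * y) * (y * b * y) := by group
        _ = y * b * (y * b * y) := by rw [hyy, mul_one]
        _ = y * b * (b * y * b) := by rw [hbr]
        _ = y * (b * b) * y * b := by group
        _ = b := by rw [hbb, mul_one, hyy, one_mul]
    have c2 : (y * b * y) * b * (y * b * y)⁻¹ = y := by
      have hw : y * b * y * (y * b * y) = 1 := by
        have := mul_inv_cancel (y * b * y)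
        rwa [hinv] at this
      calc y * b * y * b * (y * b * y)⁻¹
          = y * b * y * (y * b * y * y * (y * b * y)⁻¹) * (y * b * y)⁻¹ := by rw [c1]
        _ = (y * b * y * (y * b * y)) * y * ((y * b * y) * (y * b * y))⁻¹ := by group
        _ = y := by rw [hw, one_mul, inv_one, mul_one]
    refine ⟨⟨y, hvY hyE⟩, hyE, ?_, ?_, ?_, ?_⟩
    · intro h; exact ne_one_of_mem N.h hy.1 (congrArg Subtype.val h)
    · exact Subtype.ext hbr
    · rw [hconj]
      congr 1
      show conjBy (EG D v) (y * b * y) = EG D e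
      rw [← e1, EG_conjBy' N.h, c1, e2]
    · rw [hconj]
      congr 1
      show conjBy (EG D e) (y * b * y) = EG D v
      rw [← e2, EG_conjBy' N.h, c2, e1]

/-- **Near pairs generate `L₂(q)`.** -/
theorem near_psl2 (N : ND D) {v d z e : G} (p : Path D v d z e)
    (hq : 4 ≤ Nat.card (EG D v)) :
    ∃ (F : Type) (_ : Field F) (_ : Fintype F), CharP F 2 ∧
      Fintype.card F = Nat.card (EG D v) ∧
      Nonempty (↥(EG D v ⊔ EG D e) ≃* Matrix.ProjectiveSpecialLinearGroup (Fin 2) F) := by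
  obtain ⟨F, i1, i2, h1, h2, h3⟩ := (near_rankOne N p hq).ident
  refine ⟨F, i1, i2, h1, ?_, h3⟩
  rw [h2]
  exact Nat.card_congr (Subgroup.subgroupOfEquivOfLe le_sup_left).toEquiv

/-- A near pair (`X_v ∩ V_e ≠ ∅`) is the pair of ends of a path. -/
theorem path_of_near (N : ND D) {v d e : G} (he : e ∈ D) (hev : Opp e v) (c : Col D v d)
    (hde : orderOf (d * e) = 4) : Path D v d (d * (e * d * e)) e := by
  have hv := c.left
  have hd := c.right
  have hdd := sq_of_mem N.h hd
  have hee := sq_of_mem N.h he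
  have hnc : ¬ Commute d e := not_commute_of_order_four N.h hd he hde
  set z : G := d * (e * d * e) with hz
  have hzD : z ∈ D := mem_of_order_four N.h hd he hde
  have hcd : Commute d (e * d * e) := commute_of_order_four hdd hee hde
  have hcz : Commute d z := (Commute.refl d).mul_right hcd
  have hzs : z = e * (d * e * d) := comm_symm hdd hee hde
  have h4' : orderOf (e * d) = 4 := by rw [orderOf_mul_comm' hee hdd]; exact hde
  have hcez : Commute e z := by
    rw [hzs]; exact (Commute.refl e).mul_right (commute_of_order_four hee hdd h4')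
  have hzd : z * d ∈ D := by
    rw [← hcz.eq, hz, ← mul_assoc, hdd, one_mul]
    exact conj_mem' N.h hd he
  have hze : e * z ∈ D := by
    rw [hzs, ← mul_assoc, hee, one_mul]
    exact conj_mem' N.h he hd
  -- `z` is not in the class of `d` since `e` commutes with `z` only
  have hns1 : ¬ SimR D z d := by
    intro hs
    exact hnc ((sim_centralize N.h N.hc he hzD hd hs hcez).symm)
  have hns2 : ¬ SimR D e z := by
    intro hs
    exact hnc ((sim_centralize N.h N.hc hd hzD he hs.symm hcz))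
  exact ⟨N.col_symm c, N.col_of hd hzD hcz.symm hzd hns1, N.col_of hzD he hcez hze hns2, hev⟩

end Cfsg.Agent.H738
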