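import Cfsg.Agent.H738.RootEnd
import Cfsg.Agent.H738.NearPsl
import Cfsg.Agent.H739.FarC

/-!
# The Root Involution Theorem, given that there are no far pairs
-/

set_option autoImplicit false

universe u

namespace Cfsg.Agent.H738.Glue

open Cfsg.Agent.H731 Cfsg.Agent.H737 Cfsg.Agent.H736.Hole Cfsg.Agent.H739

variable {G : Type u} [Group G] [Finite G] {D : Set G}

theorem four_le_card (N : ND D) {d : G} (hd : d ∈ D) (h : 2 < Nat.card (EG D d)) :
    4 ≤ Nat.card (EG D d) := by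
  have hf : Fact (Nat.Prime 2) := ⟨Nat.prime_two⟩
  have hP : IsPGroup 2 (EG D d) := by
    rintro ⟨a, ha⟩
    exact ⟨1, Subtype.ext (by show a ^ 2 ^ 1 = 1; rw [pow_one, pow_two]; exact EG_sq N.h N.hc hd ha)⟩
  obtain ⟨n, hn⟩ := (IsPGroup.iff_card).1 hP
  rw [hn] at h ⊢
  rcases n with _ | _ | n
  · simp at h
  · simp at h
  · calc 4 = 2 ^ 2 := by norm_num
      _ ≤ 2 ^ (n + 1 + 1) := Nat.pow_le_pow_right (by norm_num) (by omega)

theorem near_of_no_far (hD : IsNondegenerateRootInvolutionSet D) (hcl : IsRootInvolutionClass D)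
    (hO : pCore 2 G = ⊥) (hZ : Subgroup.center G = ⊥)
    (hnf : ∀ d ∈ D, 4 ≤ Nat.card (EG D d) → ¬ HasFar D) : NearThm D := by
  intro d hd hq x hx hdx
  have N := Cfsg.Agent.H736.Hole.nd_of hD hcl hO hZ
  have H := lg_of hD hcl hO hZ
  have h4 := four_le_card N hd hq
  rcases H.hasFar_or with h1 | h1
  · exact absurd h1 (hnf d hd h4)
  obtain ⟨y, hy, hyx⟩ := h1 d hd x hx hdx
  have hyD : y ∈ D := hy.right
  have h := N.h
  -- `y x` has order four
  have hyd : Commute y d := hy.comm.symm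
  have hydD : y * d ∈ D := by rw [hyd.eq]; exact hy.1.2.2.2
  have hc : Col D d y := N.col_of hd hyD hyd hydD hy.2
  have hnc : ¬ Commute y x := by
    intro hcom
    exact hc.2.1.2.2 |> fun _ => (N.col_symm hc).2.1.2.2 x hx hcom.symm
      (Opp.symm' h hd hx hdx)
  have h5 : orderOf (y * x) = 4 := (order_four_of h hyD hx hnc hyx).1
  exact near_psl2 N (path_of_near N hx (Opp.symm' h hd hx hdx) hc h5) h4

end Cfsg.Agent.H738.Glue
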