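import Cfsg.Agent.H738.Ident2
import Cfsg.Agent.H731.SL2Pair
import Cfsg.Agent.LieClassical.FieldTransfer
import Cfsg.Agent.LieClassical.SLTwoUnipotent

/-!
# `k`-root subgroups from `⟨E(d), E(x)⟩ ≅ L₂(q)`

* `psl2Pair_of_equiv`: different subgroups `A, B` of order `q` with `⟨A, B⟩ ≅ L₂(q)`, `q` even, form
  a pair of root groups of `SL₂(F)` for every field `F` with `q` elements.
* `kroot_of`: conjugates of a subgroup `A` form a class of `F`-root subgroups, if any two of them
  commute or generate `L₂(q)` or satisfy the commutator case.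
* `kroot_degenerate`: the degenerate case of the Root Involution Theorem.
-/

set_option autoImplicit false

universe u

namespace Cfsg.Agent.H738

open Cfsg.Agent.H731
open Cfsg.Agent.LieClassical.SLTwoUnipotent Cfsg.Agent.LieClassical.FieldTransfer

/-- The upper unitriangular groups. -/
theorem upper_eq (F : Type*) [Field F] : upperUnipotentSL2 F = upperUnipSL F := by
  ext g
  rw [mem_upper_iff, mem_upperUnipSL_iff]
  constructor
  · rintro ⟨c, rfl⟩
    exact ⟨rfl, rfl, rfl⟩
  · rintro ⟨h1, h2, h3⟩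
    refine ⟨(g : Matrix (Fin 2) (Fin 2) F) 0 1, ?_⟩
    apply sl2_ext
    · exact h1
    · rfl
    · exact h2
    · exact h3

/-- A subgroup of `SL₂(q)` of order `q` is conjugate to the upper unitriangular group. -/
theorem exists_conj_upper {F : Type*} [Field F] [Fintype F] [CharP F 2]
    {A : Subgroup (Matrix.SpecialLinearGroup (Fin 2) F)} (hA : Nat.card A = Fintype.card F) :
    ∃ g : Matrix.SpecialLinearGroup (Fin 2) F, A = conjBy (upperUnipotentSL2 F) g := by
  have hfact : Fact (Nat.Prime 2) := ⟨Nat.prime_two⟩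
  obtain ⟨n, -, hn⟩ := FiniteField.card F 2
  have hP : IsPGroup 2 A := IsPGroup.of_card (n := n) (by rw [hA, hn])
  obtain ⟨S, hS⟩ := hP.exists_le_sylow
  obtain ⟨g, hg⟩ := exists_smul_upperUnipSylowSL_eq (F := F) 2 S
  have hcS : Nat.card S = Nat.card A := by
    have h1 : Nat.card S = Nat.card (upperUnipSylowSL F 2) := by
      rw [Sylow.card_eq_multiplicity, Sylow.card_eq_multiplicity]
    have h2 : Nat.card (upperUnipSylowSL F 2) = Nat.card (upperUnipSL F) := rfl
    rw [h1, h2, card_upperUnipSL, hA, Nat.card_eq_fintype_card]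
  have hAS : A = (S : Subgroup (Matrix.SpecialLinearGroup (Fin 2) F)) :=
    Subgroup.eq_of_le_of_card_ge hS hcS.le
  refine ⟨g, ?_⟩
  rw [hAS, ← hg]
  ext y
  rw [mem_conjBy, upper_eq]
  exact mem_smul_upperUnipSylowSL_iff 2

/-- **Key lemma.** -/
theorem psl2Pair_of_equiv {G : Type*} [Group G] [Finite G] {F F' : Type*} [Field F] [Fintype F]
    [Field F'] [Fintype F'] [CharP F' 2] (hc : Fintype.card F = Fintype.card F')
    {A B : Subgroup G} (hA : Nat.card A = Fintype.card F) (hB : Nat.card B = Fintype.card F)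
    (hne : A ≠ B) (e : ↥(A ⊔ B) ≃* Matrix.ProjectiveSpecialLinearGroup (Fin 2) F') :
    IsPSL2PairOver F A B := by
  let τ : F ≃+* F' := FiniteField.ringEquivOfCardEq hc
  have hF2 : CharP F 2 := (RingHom.charP_iff (τ : F →+* F') τ.injective 2).2 inferInstance
  obtain ⟨f⟩ := H803.RankOneFacts.nonempty_psl_equiv (F := F)
  let e' : Matrix.SpecialLinearGroup (Fin 2) F ≃* ↥(A ⊔ B) := (f.trans (pslCongr τ)).trans e.symm
  let ψ : Matrix.SpecialLinearGroup (Fin 2) F →* G := (A ⊔ B).subtype.comp e'.toMonoidHom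
  have hψ : Function.Injective ψ := fun x y h => e'.injective (Subtype.ext h)
  have hrange : ψ.range = A ⊔ B := by
    ext y
    constructor
    · rintro ⟨x, rfl⟩
      exact (e' x).2
    · intro hy
      obtain ⟨x, hx⟩ := e'.surjective ⟨y, hy⟩
      exact ⟨x, congrArg Subtype.val hx⟩
  have hcomap : ∀ L : Subgroup G, L ≤ A ⊔ B → (L.comap ψ).map ψ = L := by
    intro L hL
    exact Subgroup.map_comap_eq_self (by rw [hrange]; exact hL)
  have hcard : ∀ L : Subgroup G, L ≤ A ⊔ B → Nat.card (L.comap ψ) = Nat.card L := by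
    intro L hL
    conv_rhs => rw [← hcomap L hL]
    exact (Subgroup.card_map_of_injective hψ).symm
  have hAle : A ≤ A ⊔ B := le_sup_left
  have hBle : B ≤ A ⊔ B := le_sup_right
  obtain ⟨g, hg⟩ := exists_conj_upper (A := A.comap ψ) (by rw [hcard A hAle, hA])
  obtain ⟨k, hk⟩ := exists_conj_upper (A := B.comap ψ) (by rw [hcard B hBle, hB])
  have hpair := RankOnePair_symm (sl2_isRankOnePair (k := F))
  have htop : upperUnipotentSL2 F ⊔ lowerUnipotentSL2 F = ⊤ := by
    rw [sup_comm]; exact lower_sup_upper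
  have hAm : A.comap ψ ∈ unipotentSubgroups (upperUnipotentSL2 F) (lowerUnipotentSL2 F) :=
    ⟨g, by rw [htop]; exact Subgroup.mem_top g, hg⟩
  have hBm : B.comap ψ ∈ unipotentSubgroups (upperUnipotentSL2 F) (lowerUnipotentSL2 F) :=
    ⟨k, by rw [htop]; exact Subgroup.mem_top k, hk⟩
  have hne' : A.comap ψ ≠ B.comap ψ := by
    intro h
    apply hne
    rw [← hcomap A hAle, h, hcomap B hBle]
  obtain ⟨x, -, hxA, hxB⟩ := rankOne_exists_conj_pair hpair hAm hBm hne'
  refine ⟨ψ.comp (MulAut.conj x).toMonoidHom, ?_, ?_, ?_, ?_⟩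
  · rw [← hrange]
    ext y
    constructor
    · rintro ⟨z, rfl⟩
      exact ⟨_, rfl⟩
    · rintro ⟨z, rfl⟩
      exact ⟨x⁻¹ * z * x, by
        show ψ (x * (x⁻¹ * z * x) * x⁻¹) = ψ z
        congr 1
        group⟩
  · intro y hy
    have h1 : ψ (x * y * x⁻¹) = 1 := hy
    have h2 : x * y * x⁻¹ = 1 := hψ (by rw [h1, map_one])
    have h3 : y = 1 := by
      calc y = x⁻¹ * (x * y * x⁻¹) * x := by group
        _ = 1 := by rw [h2]; group
    rw [h3]; exact one_mem _
  · rw [← Subgroup.map_map]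
    show (conjBy (upperUnipotentSL2 F) x).map ψ = A
    rw [hxA, hcomap A hAle]
  · rw [← Subgroup.map_map]
    show (conjBy (lowerUnipotentSL2 F) x).map ψ = B
    rw [hxB, hcomap B hBle]

/-- **Glue.** The conjugates of an abelian subgroup `A` form a class of `F`-root subgroups, if any
two different ones commute, or generate an `L₂(q)` with `q = |A| = |F|`, or satisfy the commutator
case. -/
theorem kroot_of {G : Type u} [Group G] [Finite G] {F : Type*} [Field F] [Fintype F]
    {A : Subgroup G} (hA : Nat.card A = Fintype.card F) (hcomm : IsMulCommutative A)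
    (hgen : (⨆ B ∈ {B : Subgroup G | ∃ g : G, B = conjBy A g}, B) = ⊤)
    (hpair : ∀ g : G, ⁅A, conjBy A g⁆ = ⊥ ∨
      (A ≠ conjBy A g ∧ ∃ (F' : Type) (_ : Field F') (_ : Fintype F'), CharP F' 2 ∧
        Fintype.card F' = Fintype.card F ∧
        Nonempty (↥(A ⊔ conjBy A g) ≃* Matrix.ProjectiveSpecialLinearGroup (Fin 2) F')) ∨
      (¬ IsRankOnePair A (conjBy A g) ∧
        RootCommutatorCase {B : Subgroup G | ∃ g : G, B = conjBy A g} A (conjBy A g))) :
    IsKRootSubgroupSet F {B : Subgroup G | ∃ g : G, B = conjBy A g} ∧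
      IsConjClassOfSubgroups {B : Subgroup G | ∃ g : G, B = conjBy A g} := by
  set S : Set (Subgroup G) := {B : Subgroup G | ∃ g : G, B = conjBy A g} with hS
  have hAbot : A ≠ ⊥ := by
    rintro rfl
    have h1 : 1 < Fintype.card F := Fintype.one_lt_card
    rw [Subgroup.card_bot] at hA
    omega
  have hSconj : ∀ B ∈ S, ∀ g : G, conjBy B g ∈ S := by
    rintro _ ⟨h, rfl⟩ g
    exact ⟨g * h, conjBy_conjBy A g h⟩
  have hAS : A ∈ S := ⟨1, (conjBy_one A).symm⟩
  -- the pair of `A` and a conjugate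
  have hp : ∀ g : G, ⁅A, conjBy A g⁆ = ⊥ ∨ IsPSL2PairOver F A (conjBy A g) ∨
      (¬ IsRankOnePair A (conjBy A g) ∧ RootCommutatorCase S A (conjBy A g)) := by
    intro g
    rcases hpair g with h1 | ⟨hne, F', _, _, hF', hcF, ⟨e⟩⟩ | h1
    · exact Or.inl h1
    · refine Or.inr (Or.inl (psl2Pair_of_equiv hcF.symm hA ?_ hne e))
      rw [← hA]
      exact Subgroup.card_map_of_injective (MulAut.conj g).injective
    · exact Or.inr (Or.inr h1)
  have hpsl_conj : ∀ {B C : Subgroup G} (g : G), IsPSL2PairOver F B C →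
      IsPSL2PairOver F (conjBy B g) (conjBy C g) := by
    rintro B C g ⟨φ, h1, h2, h3, h4⟩
    refine ⟨(MulAut.conj g).toMonoidHom.comp φ, ?_, ?_, ?_, ?_⟩
    · rw [MonoidHom.range_comp, h1, Subgroup.map_sup]
    · intro y hy
      apply h2
      have h5 : (MulAut.conj g) (φ y) = 1 := hy
      exact (MulEquiv.map_eq_one_iff _).1 h5
    · rw [← Subgroup.map_map, h3]
    · rw [← Subgroup.map_map, h4]
  have hrcc_conj : ∀ {B C : Subgroup G} (g : G), RootCommutatorCase S B C →
      RootCommutatorCase S (conjBy B g) (conjBy C g) := by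
    rintro B C g ⟨h1, h2, h3, h4⟩
    have hne1 : ∀ a : G, a ≠ 1 → g⁻¹ * a * g ≠ 1 := fun a ha1 h => ha1 (by
      calc a = g * (g⁻¹ * a * g) * g⁻¹ := by group
        _ = 1 := by rw [h]; group)
    refine ⟨?_, ?_, ?_, ?_⟩
    · rw [← conjBy_commutator]; exact hSconj _ h1 g
    · rw [← conjBy_commutator, ← conjBy_sup]
      intro c hc x hx
      rw [mem_conjBy] at hc hx
      have h5 := h2 _ hc _ hx
      calc c * x = g * (g⁻¹ * c * g * (g⁻¹ * x * g)) * g⁻¹ := by group
        _ = g * (g⁻¹ * x * g * (g⁻¹ * c * g)) * g⁻¹ := by rw [h5]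
        _ = x * c := by group
    · intro a ha ha1
      rw [mem_conjBy] at ha
      rw [← conjBy_commutator, ← h3 _ ha (hne1 a ha1), conjBy_closure]
      congr 1
      ext y
      constructor
      · rintro ⟨b, hb, rfl⟩
        rw [SetLike.mem_coe, mem_conjBy] at hb
        refine ⟨_, ⟨g⁻¹ * b * g, hb, rfl⟩, ?_⟩
        show g * (g⁻¹ * a * g * (g⁻¹ * b * g) * (g⁻¹ * a * g)⁻¹ * (g⁻¹ * b * g)⁻¹) * g⁻¹ =
          a * b * a⁻¹ * b⁻¹
        group
      · rintro ⟨_, ⟨b, hb, rfl⟩, rfl⟩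
        refine ⟨g * b * g⁻¹, conj_mem_conjBy hb g, ?_⟩
        show a * (g * b * g⁻¹) * a⁻¹ * (g * b * g⁻¹)⁻¹ =
          g * (g⁻¹ * a * g * b * (g⁻¹ * a * g)⁻¹ * b⁻¹) * g⁻¹
        group
    · intro b hb hb1
      rw [mem_conjBy] at hb
      rw [← conjBy_commutator, ← h4 _ hb (hne1 b hb1), conjBy_closure]
      congr 1
      ext y
      constructor
      · rintro ⟨a, ha, rfl⟩
        rw [SetLike.mem_coe, mem_conjBy] at ha
        refine ⟨_, ⟨g⁻¹ * a * g, ha, rfl⟩, ?_⟩
        show g * (g⁻¹ * a * g * (g⁻¹ * b * g) * (g⁻¹ * a * g)⁻¹ * (g⁻¹ * b * g)⁻¹) * g⁻¹ =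
          a * b * a⁻¹ * b⁻¹
        group
      · rintro ⟨_, ⟨a, ha, rfl⟩, rfl⟩
        refine ⟨g * a * g⁻¹, conj_mem_conjBy ha g, ?_⟩
        show g * a * g⁻¹ * b * (g * a * g⁻¹)⁻¹ * b⁻¹ =
          g * (a * (g⁻¹ * b * g) * a⁻¹ * (g⁻¹ * b * g)⁻¹) * g⁻¹
        group
  -- all pairs
  have hall : ∀ B ∈ S, ∀ C ∈ S, ⁅B, C⁆ = ⊥ ∨ IsPSL2PairOver F B C ∨
      (¬ IsRankOnePair B C ∧ RootCommutatorCase S B C) := by
    rintro _ ⟨h, rfl⟩ _ ⟨k, rfl⟩
    have e : conjBy A k = conjBy (conjBy A (h⁻¹ * k)) h := by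
      rw [conjBy_conjBy]; congr 1; group
    rcases hp (h⁻¹ * k) with h1 | h1 | ⟨h1, h2⟩
    · left
      rw [e, ← conjBy_commutator, h1, conjBy_bot]
    · right; left
      rw [e]; exact hpsl_conj h h1
    · right; right
      rw [e]
      refine ⟨fun h3 => h1 ?_, hrcc_conj h h2⟩
      have h4 := IsRankOnePair_conj h3 h⁻¹
      rwa [conjBy_conjBy, conjBy_conjBy, inv_mul_cancel, conjBy_one, conjBy_one] at h4
  have hcommS : ∀ B ∈ S, IsMulCommutative B := by
    rintro _ ⟨h, rfl⟩
    refine ⟨⟨?_⟩⟩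
    rintro ⟨_, a, ha, rfl⟩ ⟨_, b, hb, rfl⟩
    apply Subtype.ext
    show (MulAut.conj h) a * (MulAut.conj h) b = (MulAut.conj h) b * (MulAut.conj h) a
    rw [← map_mul, ← map_mul]
    congr 1
    exact congrArg Subtype.val (hcomm.is_comm.comm ⟨a, ha⟩ ⟨b, hb⟩)
  refine ⟨⟨⟨hcommS, ?_, hgen, hSconj, ?_⟩, ?_⟩, ⟨A, hAS⟩, ?_⟩
  · rintro _ ⟨h, rfl⟩ h1
    exact hAbot (conjBy_eq_bot.1 h1)
  · intro B hB C hC
    rcases hall B hB C hC with h1 | h1 | ⟨-, h1⟩
    · exact Or.inl h1
    · exact Or.inr (Or.inl (isRankOnePair_of_isPSL2PairOver h1))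
    · exact Or.inr (Or.inr h1)
  · intro B hB C hC hBC
    rcases hall B hB C hC with h1 | h1 | ⟨h1, -⟩
    · exfalso
      -- commuting groups do not form a rank one pair
      have hBbot : B ≠ ⊥ := by
        obtain ⟨h, rfl⟩ := hB
        exact fun h1 => hAbot (conjBy_eq_bot.1 h1)
      obtain ⟨⟨b, hb⟩, hb1'⟩ := Subgroup.ne_bot_iff_exists_ne_one.1 hBbot
      have hb1 : b ≠ 1 := fun h => hb1' (Subtype.ext h)
      obtain ⟨c, hc, hc1, hbc⟩ := hBC.cond_left b hb hb1
      have hcom := commutator_eq_bot_iff_forall.1 h1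
      apply hBC.ne
      rw [conjBy_of_commute (A := B) (g := c⁻¹), conjBy_of_commute (A := C) (g := b⁻¹)] at hbc
      · exact hbc
      · intro a ha
        have h2 := hcom b hb a ha
        calc b⁻¹ * a = b⁻¹ * (a * b) * b⁻¹ := by group
          _ = b⁻¹ * (b * a) * b⁻¹ := by rw [h2]
          _ = a * b⁻¹ := by group
      · intro a ha
        have h2 := hcom a ha c hc
        calc c⁻¹ * a = c⁻¹ * (a * c) * c⁻¹ := by group
          _ = c⁻¹ * (c * a) * c⁻¹ := by rw [h2]
          _ = a * c⁻¹ := by group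
    · exact h1
    · exact absurd hBC h1
  · rintro _ ⟨h, rfl⟩ _ ⟨k, rfl⟩
    refine ⟨k * h⁻¹, ?_⟩
    rw [conjBy_conjBy]
    congr 1
    group

/-! ### The degenerate case -/

theorem conjBy_cls {G : Type u} [Group G] {D : Set G} (h : Hyp D) (d g : G) :
    conjBy (Subgroup.closure (Cls D d)) g = Subgroup.closure (Cls D (g * d * g⁻¹)) := by
  rw [conjBy_closure]
  congr 1
  ext y
  constructor
  · rintro ⟨a, ha, rfl⟩
    exact h.cls_conj g ha
  · intro hy
    refine ⟨g⁻¹ * y * g, ?_, by group⟩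
    have h1 := h.cls_conj g⁻¹ hy
    have e1 : g⁻¹ * y * g⁻¹⁻¹ = g⁻¹ * y * g := by group
    have e2 : g⁻¹ * (g * d * g⁻¹) * g⁻¹⁻¹ = d := by group
    rwa [e1, e2] at h1

/-- **The degenerate connected case of the Root Involution Theorem.** -/
theorem kroot_degenerate {G : Type u} [Group G] [Finite G] {D : Set G} (h : Hyp D)
    (hO : pCore 2 G = ⊥) (hZ : Subgroup.center G = ⊥) (hc : IsConnectedSet (CommAdj D) D)
    {d : G} (hd : d ∈ D) :
    ∃ (F : Type) (_ : Field F) (_ : Fintype F),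
      Fintype.card F = Nat.card ↥(Subgroup.closure (Cls D d)) ∧
      IsKRootSubgroupSet F {A : Subgroup G | ∃ g : G, A = conjBy (Subgroup.closure (Cls D d)) g} ∧
      IsConjClassOfSubgroups {A : Subgroup G | ∃ g : G, A = conjBy (Subgroup.closure (Cls D d)) g} := by
  obtain ⟨x₀, hx₀, hdx₀⟩ := exists_noncomm h hZ hd
  have q₀ : HX D d x₀ := ⟨h, hO, hd, hx₀, hdx₀⟩
  have hdd : d ∈ Cls D d := ⟨hd, Eqv.refl _ _⟩
  obtain ⟨F, iF, iF', hF, ⟨e₀⟩⟩ := q₀.main hc
  rw [q₀.card_root] at hF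
  refine ⟨F, iF, iF', hF, ?_⟩
  refine kroot_of hF.symm ?_ ?_ ?_
  · refine ⟨⟨?_⟩⟩
    rintro ⟨a, ha⟩ ⟨b, hb⟩
    exact Subtype.ext (closure_commute (h.cls_comm hd) ha hb)
  · rw [eq_top_iff, ← h.gen, Subgroup.closure_le]
    intro y hy
    obtain ⟨g, rfl⟩ := h.cls d hd y hy
    have h1 : conjBy (Subgroup.closure (Cls D d)) g ≤
        ⨆ B ∈ {B : Subgroup G | ∃ g : G, B = conjBy (Subgroup.closure (Cls D d)) g}, B :=
      le_iSup₂_of_le (conjBy (Subgroup.closure (Cls D d)) g) ⟨g, rfl⟩ le_rfl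
    exact h1 (conj_mem_conjBy (Subgroup.subset_closure hdd) g)
  · intro g
    set x : G := g * d * g⁻¹ with hx
    have hxD : x ∈ D := h.conj hd g
    rw [conjBy_cls h d g, ← hx]
    by_cases hdx : Commute d x
    · left
      rw [commutator_eq_bot_iff_forall]
      intro a ha b hb
      have h1 : ∀ s ∈ Cls D d, ∀ t ∈ Cls D x, Commute s t := by
        intro s hs t ht
        have h2 : Commute x s := (hs.2 x hxD).1 hdx.symm
        exact (ht.2 s hs.1).1 h2.symm
      exact commute_closure (fun t ht => (commute_closure (fun s hs => (h1 s hs t ht).symm) ha).symm) hb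
    · right; left
      have q : HX D d x := ⟨h, hO, hd, hxD, hdx⟩
      have hxx : x ∈ Cls D x := ⟨hxD, Eqv.refl _ _⟩
      have hsup : Subgroup.closure (Cls D d) ⊔ Subgroup.closure (Cls D x) = XX D d x := by
        apply le_antisymm
        · refine sup_le (Subgroup.closure_mono Set.subset_union_left) ?_
          obtain ⟨k, hk, hkx⟩ := q.exists_g
          rw [Subgroup.closure_le]
          intro y hy
          have h1 := h.cls_conj k⁻¹ hy
          have e2 : k⁻¹ * x * k⁻¹⁻¹ = d := by rw [← hkx]; group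
          rw [e2] at h1
          have h3 := mul_mem (mul_mem hk (RS.cls_X (x := x) h1)) (inv_mem hk)
          have e3 : k * (k⁻¹ * y * k⁻¹⁻¹) * k⁻¹ = y := by group
          rwa [e3] at h3
        · refine (Subgroup.closure_le _).2 ?_
          rintro y (hy | hy)
          · exact Subgroup.mem_sup_left (Subgroup.subset_closure hy)
          · rw [Set.mem_singleton_iff.1 hy]
            exact Subgroup.mem_sup_right (Subgroup.subset_closure hxx)
      refine ⟨?_, ?_⟩
      · intro heq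
        have h1 : x ∈ Subgroup.closure (Cls D d) := by
          rw [heq]; exact Subgroup.subset_closure hxx
        exact hdx (closure_commute (h.cls_comm hd) (Subgroup.subset_closure hdd) h1)
      · obtain ⟨F', iF1, iF2, hF', ⟨e⟩⟩ := q.main hc
        rw [q.card_root] at hF'
        have hch : CharP F' 2 := by
          -- the order of `F'` is a power of 2
          have hP : IsPGroup 2 (Subgroup.closure (Cls D d)) := by
            rintro ⟨a, ha⟩
            refine ⟨1, Subtype.ext ?_⟩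
            show a ^ 2 ^ 1 = 1
            rw [pow_one, pow_two]
            exact closure_sq h.cls_sq (h.cls_comm hd) ha
          have hfact : Fact (Nat.Prime 2) := ⟨Nat.prime_two⟩
          obtain ⟨n, hn⟩ := (IsPGroup.iff_card).1 hP
          obtain ⟨p, hp⟩ := CharP.exists F'
          obtain ⟨m, hpp, hpm⟩ := FiniteField.card F' p
          have h1 : p ∣ 2 ^ n := by
            rw [← hn, ← hF', hpm]
            exact dvd_pow_self p m.ne_zero
          have h2 : p = 2 := (Nat.prime_dvd_prime_iff_eq hpp Nat.prime_two).1 (hpp.dvd_of_dvd_pow h1)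
          rw [← h2]; exact hp
        refine ⟨F', iF1, iF2, hch, hF'.trans hF.symm, ?_⟩
        rw [hsup]
        exact ⟨e⟩

end Cfsg.Agent.H738
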