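import Mathlib
import Cfsg.Agent.H737.FarDefs
import Cfsg.Agent.H738.KRoot

/-!
# Coordinates on a path of the rank 2 geometry of a class of root involutions: existence
-/

set_option autoImplicit false

namespace Cfsg.Agent.H737.Far

open Cfsg Cfsg.Agent.H737 Cfsg.Agent.H736.Hole

variable {G : Type*} [Group G] {D : Set G}

section path

variable [Finite G] {f₀ y₀ p₀ x₀ : G}

theorem not_opp_mid (R : R2 D) (hy : y₀ ∈ D) (hp : p₀ ∈ D)
    (hx : x₀ ∈ D) (hyp : Commute y₀ p₀) (hpx : Commute p₀ x₀)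
    (hyx : ¬ Commute y₀ x₀) : ¬ Opp y₀ x₀ := by
  intro ho
  have h1 : y₀ * x₀ * y₀⁻¹ * x₀⁻¹ ∈ EG D p₀ :=
    R.comm_MG hp (mem_MG hy hyp) (mem_MG hx hpx.symm)
  have h2 : (y₀ * x₀) * (y₀ * x₀) ∈ EG D p₀ := by
    have e : y₀ * x₀ * y₀⁻¹ * x₀⁻¹ = (y₀ * x₀) * (y₀ * x₀) := by
      rw [R.inv hy, R.inv hx]; group
    rwa [e] at h1
  have h3 : (y₀ * x₀) ^ 4 = 1 := by
    have h4 := R.EG_sq hp h2
    calc (y₀ * x₀) ^ 4 = y₀ * x₀ * (y₀ * x₀) * (y₀ * x₀ * (y₀ * x₀)) := by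
          rw [pow_succ, pow_succ, pow_succ, pow_one]; simp only [mul_assoc]
      _ = 1 := h4
  have h5 : orderOf (y₀ * x₀) ∣ 4 := orderOf_dvd_of_pow_eq_one h3
  have h6 : Odd (orderOf (y₀ * x₀)) := (R.opp_symm hx hy (R.opp_symm hy hx ho)).2
  have h7 : orderOf (y₀ * x₀) = 1 := by
    have h8 : Nat.Coprime (orderOf (y₀ * x₀)) 4 :=
      Nat.Coprime.pow_right 2 (Nat.coprime_two_right.2 h6)
    exact Nat.Coprime.eq_one_of_dvd h8 h5
  rw [orderOf_eq_one_iff] at h7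
  apply hyx
  have h8 : y₀ = x₀ := by
    calc y₀ = (y₀ * x₀) * x₀⁻¹ := by group
      _ = x₀ := by rw [h7, one_mul, R.inv hx]
  rw [h8]

/-- Conjugation with the involution `aba = bab`. -/
theorem w_conj (R : R2 D) (hy : y₀ ∈ D) (hp : p₀ ∈ D)
    (hf : f₀ ∈ D) (hx : x₀ ∈ D) (hfy : Commute f₀ y₀) (hyp : Commute y₀ p₀) (hpx : Commute p₀ x₀)
    (hyx : ¬ Commute y₀ x₀) {a b y' : G} (ha : a ∈ EG D f₀) (hb : b ∈ EG D x₀) (hb1 : b ≠ 1)
    (hab : a * b * a = b * a * b) (hy' : y' ∈ EG D y₀) :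
    (a * b * a) * y' * (a * b * a) = y' * (b * y' * b) ∧ y' * (b * y' * b) ∈ EG D p₀ := by
  have hMy : ∀ g ∈ EG D y₀, g ∈ MG D p₀ := by
    intro g hg
    by_cases h1 : g = 1
    · rw [h1]; exact one_mem _
    · exact mem_MG (R.mem_D hy hg h1) (R.comm_EG hy hp hyp.symm hg).symm
  have hMx : ∀ g ∈ EG D x₀, g ∈ MG D p₀ := by
    intro g hg
    by_cases h1 : g = 1
    · rw [h1]; exact one_mem _
    · exact mem_MG (R.mem_D hx hg h1) (R.comm_EG hx hp hpx hg).symm
  have hMf : ∀ g ∈ EG D f₀, g ∈ MG D y₀ := by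
    intro g hg
    by_cases h1 : g = 1
    · rw [h1]; exact one_mem _
    · exact mem_MG (R.mem_D hf hg h1) (R.comm_EG hf hy hfy.symm hg).symm
  have hMp : ∀ g ∈ EG D p₀, g ∈ MG D y₀ := by
    intro g hg
    by_cases h1 : g = 1
    · rw [h1]; exact one_mem _
    · exact mem_MG (R.mem_D hp hg h1) (R.comm_EG hp hy hyp hg).symm
  have cyp : ∀ g ∈ EG D y₀, ∀ k ∈ EG D p₀, Commute g k := fun g hg k hk =>
    R.MG_comm hp (hMy g hg) hk
  have cfy : ∀ g ∈ EG D f₀, ∀ k ∈ EG D y₀, Commute g k := fun g hg k hk =>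
    R.MG_comm hy (hMf g hg) hk
  have cxp : ∀ g ∈ EG D x₀, ∀ k ∈ EG D p₀, Commute g k := fun g hg k hk =>
    R.MG_comm hp (hMx g hg) hk
  have saa := R.EG_sq hf ha
  have sbb := R.EG_sq hx hb
  have syy := R.EG_sq hy hy'
  -- the commutators
  have hX : ∀ g ∈ EG D y₀, g * (b * g * b) ∈ EG D p₀ := by
    intro g hg
    have h1 := R.comm_MG hp (hMy g hg) (hMx b hb)
    have e : g * b * g⁻¹ * b⁻¹ = g * (b * g * b) := by
      rw [R.EG_inv hy hg, R.EG_inv hx hb]; group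
    rwa [e] at h1
  have hF : ∀ g ∈ EG D p₀, g * (a * g * a) ∈ EG D y₀ := by
    intro g hg
    have h1 := R.comm_MG hy (hMp g hg) (hMf a ha)
    have e : g * a * g⁻¹ * a⁻¹ = g * (a * g * a) := by
      rw [R.EG_inv hp hg, R.EG_inv hf ha]; group
    rwa [e] at h1
  have hcan : ∀ u v : G, u * u = 1 → u * (u * v) = v := fun u v h => by
    rw [← mul_assoc, h, one_mul]
  obtain ⟨P, hP⟩ : ∃ P, P = y' * (b * y' * b) := ⟨_, rfl⟩
  rw [← hP]
  have hPm : P ∈ EG D p₀ := by rw [hP]; exact hX y' hy'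
  obtain ⟨Y, hY⟩ : ∃ Y, Y = P * (a * P * a) := ⟨_, rfl⟩
  have hYm : Y ∈ EG D y₀ := by rw [hY]; exact hF P hPm
  obtain ⟨P2, hP2⟩ : ∃ P2, P2 = Y * (b * Y * b) := ⟨_, rfl⟩
  have hP2m : P2 ∈ EG D p₀ := by rw [hP2]; exact hX Y hYm
  have e1 : b * y' * b = y' * P := by rw [hP, hcan _ _ syy]
  have e2 : a * P * a = P * Y := by rw [hY, hcan _ _ (R.EG_sq hp hPm)]
  have e3 : b * Y * b = Y * P2 := by rw [hP2, hcan _ _ (R.EG_sq hy hYm)]
  have f1 : (a * b * a) * y' * (a * b * a) = y' * P * Y := by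
    calc (a * b * a) * y' * (a * b * a) = a * b * (a * y') * a * b * a := by group
      _ = a * b * (y' * a) * a * b * a := by rw [(cfy a ha y' hy').eq]
      _ = a * (b * y' * (a * a) * b) * a := by group
      _ = a * (y' * P) * a := by rw [saa, mul_one, e1]
      _ = (a * y') * P * a := by group
      _ = (y' * a) * P * a := by rw [(cfy a ha y' hy').eq]
      _ = y' * (a * P * a) := by group
      _ = y' * P * Y := by rw [e2]; group
  have f2 : (b * a * b) * y' * (b * a * b) = y' * Y * P2 := by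
    calc (b * a * b) * y' * (b * a * b) = b * a * (b * y' * b) * a * b := by group
      _ = b * (a * (y' * P) * a) * b := by rw [e1]; group
      _ = b * ((a * y') * P * a) * b := by group
      _ = b * ((y' * a) * P * a) * b := by rw [(cfy a ha y' hy').eq]
      _ = b * (y' * (a * P * a)) * b := by group
      _ = b * (y' * P * Y) * b := by rw [e2]; group
      _ = (b * y' * b) * (b⁻¹ * P * Y * b) := by group
      _ = (y' * P) * (b * P * Y * b) := by rw [e1, R.EG_inv hx hb]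
      _ = (y' * P) * (P * b * Y * b) := by rw [(cxp b hb P hPm).eq]
      _ = y' * (P * P) * (b * Y * b) := by group
      _ = y' * Y * P2 := by rw [R.EG_sq hp hPm, mul_one, e3]; group
  have f3 : P = P2 := by
    have h1 : y' * P * Y = y' * Y * P2 := by rw [← f1, ← f2, hab]
    have h2 : P * Y = Y * P2 := by
      have : y' * (P * Y) = y' * (Y * P2) := by
        calc y' * (P * Y) = y' * P * Y := by group
          _ = y' * Y * P2 := h1
          _ = _ := by group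
      exact mul_left_cancel this
    rw [(cyp Y hYm P hPm).symm.eq] at h2
    exact mul_left_cancel h2
  -- `b` commutes with `y' Y`
  have f4 : Commute b (y' * Y) := by
    have h1 : b * (y' * Y) * b = y' * Y := by
      calc b * (y' * Y) * b = (b * y' * b) * (b⁻¹ * Y * b) := by group
        _ = (y' * P) * (b * Y * b) := by rw [e1, R.EG_inv hx hb]
        _ = y' * (P * Y) * P2 := by rw [e3]; group
        _ = y' * (Y * P) * P2 := by rw [(cyp Y hYm P hPm).eq]
        _ = y' * Y * (P * P2) := by group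
        _ = y' * Y := by rw [← f3, R.EG_sq hp hPm, mul_one]
    show b * (y' * Y) = y' * Y * b
    calc b * (y' * Y) = b * (y' * Y) * (b * b) := by rw [sbb, mul_one]
      _ = (b * (y' * Y) * b) * b := by group
      _ = y' * Y * b := by rw [h1]
  have f5 : y' * Y = 1 := by
    by_contra hne
    have hbD := R.mem_D hx hb hb1
    have h1 := R.comm_of hy hbD (mul_mem hy' hYm) hne f4
    exact hyx (R.comm_of hx hy hb hb1 h1.symm)
  have f6 : Y = y' := by
    calc Y = y'⁻¹ * (y' * Y) := by group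
      _ = y' := by rw [f5, mul_one, R.EG_inv hy hy']
  refine ⟨?_, hPm⟩
  rw [f1, f6, mul_assoc, ← (cyp y' hy' P hPm).eq, ← mul_assoc, syy, one_mul]

/-- `w_conj` for the other middle point. -/
theorem w_conj' (R : R2 D) (hy : y₀ ∈ D) (hp : p₀ ∈ D)
    (hf : f₀ ∈ D) (hx : x₀ ∈ D) (hfy : Commute f₀ y₀) (hyp : Commute y₀ p₀) (hpx : Commute p₀ x₀)
    (hfp : ¬ Commute f₀ p₀) {a b p' : G} (ha : a ∈ EG D f₀) (ha1 : a ≠ 1) (hb : b ∈ EG D x₀)
    (hab : a * b * a = b * a * b) (hp' : p' ∈ EG D p₀) :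
    (a * b * a) * p' * (a * b * a) = p' * (a * p' * a) ∧ p' * (a * p' * a) ∈ EG D y₀ := by
  have h1 := w_conj R hp hy hx hf hpx.symm hyp.symm hfy.symm (fun h => hfp h.symm) hb ha ha1
    hab.symm hp'
  rwa [← hab] at h1

end path

/-! ### `SL₂` in characteristic 2 -/

section sl2

open Cfsg.Agent.H731

variable {F : Type*} [Field F]

/-- The entries of a matrix. -/
def IsE (A : Matrix.SpecialLinearGroup (Fin 2) F) (a b c d : F) : Prop :=
  (A : Matrix (Fin 2) (Fin 2) F) 0 0 = a ∧ (A : Matrix (Fin 2) (Fin 2) F) 0 1 = b ∧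
    (A : Matrix (Fin 2) (Fin 2) F) 1 0 = c ∧ (A : Matrix (Fin 2) (Fin 2) F) 1 1 = d

theorem IsE.mul {A B : Matrix.SpecialLinearGroup (Fin 2) F} {a b c d a' b' c' d' : F}
    (h : IsE A a b c d) (h' : IsE B a' b' c' d') :
    IsE (A * B) (a * a' + b * c') (a * b' + b * d') (c * a' + d * c') (c * b' + d * d') := by
  obtain ⟨h1, h2, h3, h4⟩ := h
  obtain ⟨k1, k2, k3, k4⟩ := h'
  refine ⟨?_, ?_, ?_, ?_⟩ <;> rw [sl2_mul] <;> simp only [h1, h2, h3, h4, k1, k2, k3, k4]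

theorem IsE.eq {A B : Matrix.SpecialLinearGroup (Fin 2) F} {a b c d a' b' c' d' : F}
    (h : IsE A a b c d) (h' : IsE B a' b' c' d') (h1 : a = a') (h2 : b = b') (h3 : c = c')
    (h4 : d = d') : A = B :=
  sl2_ext (h.1.trans (h1.trans h'.1.symm)) (h.2.1.trans (h2.trans h'.2.1.symm))
    (h.2.2.1.trans (h3.trans h'.2.2.1.symm)) (h.2.2.2.trans (h4.trans h'.2.2.2.symm))

theorem isE_up (s : F) : IsE (up F s) 1 s 0 1 := ⟨rfl, rfl, rfl, rfl⟩
theorem isE_lo (s : F) : IsE (lo F s) 1 0 s 1 := ⟨rfl, rfl, rfl, rfl⟩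
theorem isE_one : IsE (1 : Matrix.SpecialLinearGroup (Fin 2) F) 1 0 0 1 :=
  ⟨one_00, one_01, one_10, one_11⟩

theorem IsE.congr {A : Matrix.SpecialLinearGroup (Fin 2) F} {a b c d a' b' c' d' : F}
    (h : IsE A a b c d) (h1 : a = a') (h2 : b = b') (h3 : c = c')
    (h4 : d = d') : IsE A a' b' c' d' := by subst h1 h2 h3 h4; exact h

theorem isE_w (two : ∀ s : F, s + s = 0) {s : F} (hs : s ≠ 0) :
    IsE (up F s * lo F s⁻¹ * up F s) 0 s s⁻¹ 0 := by
  have h2 : (1 : F) + 1 = 0 := two 1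
  refine (((isE_up s).mul (isE_lo s⁻¹)).mul (isE_up s)).congr ?_ ?_ ?_ ?_ <;> simp [hs, h2]

theorem isE_w' (two : ∀ s : F, s + s = 0) {s : F} (hs : s ≠ 0) :
    IsE (lo F s⁻¹ * up F s * lo F s⁻¹) 0 s s⁻¹ 0 := by
  have h2 : (1 : F) + 1 = 0 := two 1
  refine (((isE_lo s⁻¹).mul (isE_up s)).mul (isE_lo s⁻¹)).congr ?_ ?_ ?_ ?_ <;> simp [hs, h2]

theorem up_lo_up (two : ∀ s : F, s + s = 0) {s : F} (hs : s ≠ 0) :
    up F s * lo F s⁻¹ * up F s = lo F s⁻¹ * up F s * lo F s⁻¹ :=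
  (isE_w two hs).eq (isE_w' two hs) rfl rfl rfl rfl

theorem w_mul (two : ∀ s : F, s + s = 0) {s t : F} (hs : s ≠ 0) (ht : t ≠ 0) :
    (up F 1 * lo F 1⁻¹ * up F 1) * (up F (s * t) * lo F (s * t)⁻¹ * up F (s * t)) =
    ((up F 1 * lo F 1⁻¹ * up F 1) * (up F s * lo F s⁻¹ * up F s)) *
      ((up F 1 * lo F 1⁻¹ * up F 1) * (up F t * lo F t⁻¹ * up F t)) := by
  refine ((isE_w two one_ne_zero).mul (isE_w two (mul_ne_zero hs ht))).eq
    (((isE_w two one_ne_zero).mul (isE_w two hs)).mul ((isE_w two one_ne_zero).mul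
      (isE_w two ht))) ?_ ?_ ?_ ?_
  · rw [mul_inv]; ring
  · ring
  · ring
  · ring

theorem w_sq (two : ∀ s : F, s + s = 0) {s : F} (hs : s ≠ 0) :
    (up F s * lo F s⁻¹ * up F s) * (up F s * lo F s⁻¹ * up F s) = 1 :=
  ((isE_w two hs).mul (isE_w two hs)).eq isE_one (by simp [hs]) (by simp) (by simp) (by simp [hs])

end sl2

/-! ### Existence of coordinates -/

section coord

open Cfsg.Agent.H731 Cfsg.Agent.H738

variable [Finite G] {F : Type} [Field F] [Fintype F]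

theorem exists_NC (R : R2 D) {f₀ y₀ p₀ x₀ : G} (hf : f₀ ∈ D) (hy : y₀ ∈ D) (hp : p₀ ∈ D)
    (hx : x₀ ∈ D) (hfy : Commute f₀ y₀) (hyp : Commute y₀ p₀) (hpx : Commute p₀ x₀)
    (hfp : ¬ Commute f₀ p₀) (hyx : ¬ Commute y₀ x₀) (hF : Fintype.card F = Nat.card (EG D f₀)) :
    ∃ f y p x : F → G, NC D f y p x ∧ SimR D (f 1) f₀ ∧ SimR D (y 1) y₀ ∧ SimR D (p 1) p₀ ∧
      SimR D (x 1) x₀ := by
  classical
  have hop := R.path_opp hf hy hp hx hfy hyp hpx hfp hyx
  have hnear : Near D f₀ x₀ := ⟨hop, y₀, hy, hfy.symm, not_opp_mid R hy hp hx hyp hpx hyx⟩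
  obtain ⟨F', i1, i2, h2', hc, ⟨e⟩⟩ := R.psl f₀ hf x₀ hx hnear
  have hcx : Nat.card (EG D x₀) = Nat.card (EG D f₀) := R.N.card_EG hx hf
  have hcy : Nat.card (EG D y₀) = Nat.card (EG D f₀) := R.N.card_EG hy hf
  have hcp : Nat.card (EG D p₀) = Nat.card (EG D f₀) := R.N.card_EG hp hf
  have hns : EG D f₀ ≠ EG D x₀ := by
    intro h
    have h1 : x₀ ∈ EG D f₀ := by rw [h]; exact R.self_mem hx
    exact R.opp_ncomm hf hx hop (R.EG_comm hf (R.self_mem hf) h1)
  obtain ⟨φ, -, hker, hup, hlo⟩ := psl2Pair_of_equiv (F := F) (F' := F') (hF.trans hc.symm) hF.symm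
    (hcx.trans hF.symm) hns e
  have two : ∀ s : F, s + s = 0 := by
    have hF2 : CharP F 2 := by
      let τ : F ≃+* F' := FiniteField.ringEquivOfCardEq (hF.trans hc.symm)
      exact (RingHom.charP_iff (τ : F →+* F') τ.injective 2).2 inferInstance
    exact fun s => CharTwo.add_self_eq_zero s
  have hq : ∃ t : F, t ≠ 0 ∧ t ≠ 1 := by
    by_contra hcon
    push_neg at hcon
    have h1 : (Finset.univ : Finset F) ⊆ {0, 1} := by
      intro t _
      by_cases h0 : t = 0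
      · simp [h0]
      · simp [hcon t h0]
    have h2 := Finset.card_le_card h1
    have h3 : ({0, 1} : Finset F).card ≤ 2 := Finset.card_le_two
    rw [Finset.card_univ, hF] at h2
    have h4 := R.q f₀ hf
    omega
  -- `f` and `x`
  obtain ⟨f, hfdef⟩ : ∃ f : F → G, ∀ s, f s = φ (up F s) := ⟨_, fun s => rfl⟩
  obtain ⟨x, hxdef⟩ : ∃ x : F → G, ∀ s, x s = φ (lo F s) := ⟨_, fun s => rfl⟩
  have fm : ∀ s, f s ∈ EG D f₀ := fun s => by
    rw [← hup, hfdef]; exact Subgroup.mem_map_of_mem φ (up_mem s)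
  have xm : ∀ s, x s ∈ EG D x₀ := fun s => by
    rw [← hlo, hxdef]; exact Subgroup.mem_map_of_mem φ (lo_mem s)
  have f_surj : ∀ g ∈ EG D f₀, ∃ s, g = f s := by
    intro g hg
    rw [← hup] at hg
    obtain ⟨u, hu, rfl⟩ := hg
    obtain ⟨s, rfl⟩ := mem_upper_iff.1 hu
    exact ⟨s, (hfdef s).symm⟩
  have x_surj : ∀ g ∈ EG D x₀, ∃ s, g = x s := by
    intro g hg
    rw [← hlo] at hg
    obtain ⟨u, hu, rfl⟩ := hg
    obtain ⟨s, rfl⟩ := mem_lower_iff.1 hu
    exact ⟨s, (hxdef s).symm⟩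
  have f_ne : ∀ s, s ≠ 0 → f s ≠ 1 := by
    intro s hs h1
    rw [hfdef] at h1
    have h2 := hker (show up F s ∈ φ.ker from h1)
    have h3 := Subgroup.mem_center_iff.1 h2 (lo F 1)
    have h4 := congrArg (fun A : Matrix.SpecialLinearGroup (Fin 2) F =>
      (A : Matrix (Fin 2) (Fin 2) F) 0 0) h3
    simp only [sl2_mul, lo_00, lo_01, lo_10, up_00, up_01, up_10] at h4
    apply hs
    have h5 : (1 : F) = 1 + s := by simpa using h4
    exact (left_eq_add.1 h5)
  have x_ne : ∀ s, s ≠ 0 → x s ≠ 1 := by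
    intro s hs h1
    rw [hxdef] at h1
    have h2 := hker (show lo F s ∈ φ.ker from h1)
    have h3 := Subgroup.mem_center_iff.1 h2 (up F 1)
    have h4 := congrArg (fun A : Matrix.SpecialLinearGroup (Fin 2) F =>
      (A : Matrix (Fin 2) (Fin 2) F) 0 0) h3
    simp only [sl2_mul, lo_00, lo_01, lo_10, up_00, up_01, up_10] at h4
    apply hs
    have h5 : (1 : F) + s = 1 := by simpa using h4
    exact (add_eq_left.1 h5)
  have f_add : ∀ s t, f (s + t) = f s * f t := fun s t => by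
    rw [hfdef, hfdef, hfdef, up_add, map_mul]
  have x_add : ∀ s t, x (s + t) = x s * x t := fun s t => by
    rw [hxdef, hxdef, hxdef, lo_add, map_mul]
  have f_zero : f 0 = 1 := by rw [hfdef, up_zero, map_one]
  have x_zero : x 0 = 1 := by rw [hxdef, lo_zero, map_one]
  have braid : ∀ s, s ≠ 0 → f s * x s⁻¹ * f s = x s⁻¹ * f s * x s⁻¹ := by
    intro s hs
    rw [hfdef, hxdef, ← map_mul, ← map_mul, ← map_mul, ← map_mul, up_lo_up two hs]
  obtain ⟨w, hw⟩ : ∃ w : F → G, ∀ s, w s = f s * x s⁻¹ * f s := ⟨_, fun s => rfl⟩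
  have wsq : ∀ s, s ≠ 0 → w s * w s = 1 := by
    intro s hs
    rw [hw, hfdef, hxdef, ← map_mul, ← map_mul, ← map_mul, w_sq two hs, map_one]
  have hh : ∀ s t, s ≠ 0 → t ≠ 0 → w 1 * w (s * t) = (w 1 * w s) * (w 1 * w t) := by
    intro s t hs ht
    have h1 := congrArg φ (w_mul two hs ht)
    simp only [map_mul] at h1
    simp only [hw, hfdef, hxdef]
    exact h1
  have wcan : ∀ s, s ≠ 0 → ∀ g : G, w s * (w s * g) = g := fun s hs g => by
    rw [← mul_assoc, wsq s hs, one_mul]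
  have one0 : (1 : F) ≠ 0 := one_ne_zero
  -- `w s * w t = w 1 * w (s⁻¹ t)`
  have hw2 : ∀ s t, s ≠ 0 → t ≠ 0 → w s⁻¹ * w t = w 1 * w (s * t) := by
    intro s t hs ht
    have h1 := hh s⁻¹ (s * t) (inv_ne_zero hs) (mul_ne_zero hs ht)
    rw [inv_mul_cancel_left₀ hs, mul_assoc] at h1
    have h2 := mul_left_cancel h1
    rw [h2, wcan _ (inv_ne_zero hs)]
  have hw3 : ∀ s t, s ≠ 0 → t ≠ 0 → w s * w 1 * w t = w (s * t) := by
    intro s t hs ht
    have h1 := hh s t hs ht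
    have h2 := congrArg (fun g => w 1 * g) h1
    simp only [mul_assoc, wcan 1 one0] at h2
    rw [h2, mul_assoc]
  -- conjugation with `w s`
  have fD : ∀ s, s ≠ 0 → f s ∈ D := fun s hs => R.mem_D hf (fm s) (f_ne s hs)
  have xD : ∀ s, s ≠ 0 → x s ∈ D := fun s hs => R.mem_D hx (xm s) (x_ne s hs)
  have cy : ∀ s, s ≠ 0 → ∀ y' ∈ EG D y₀, w s * y' * w s = y' * (x s⁻¹ * y' * x s⁻¹) ∧
      y' * (x s⁻¹ * y' * x s⁻¹) ∈ EG D p₀ := fun s hs y' hy' => by
    rw [hw]
    exact w_conj R hy hp hf hx hfy hyp hpx hyx (fm s) (xm s⁻¹) (x_ne _ (inv_ne_zero hs))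
      (braid s hs) hy'
  have cp : ∀ s, s ≠ 0 → ∀ p' ∈ EG D p₀, w s * p' * w s = p' * (f s * p' * f s) ∧
      p' * (f s * p' * f s) ∈ EG D y₀ := fun s hs p' hp' => by
    rw [hw]
    exact w_conj' R hy hp hf hx hfy hyp hpx hfp (fm s) (f_ne s hs) (xm s⁻¹) (braid s hs) hp'
  have inv1 : (1 : F)⁻¹ = 1 := inv_one
  -- `y` and `p`
  obtain ⟨p1, hp1⟩ : ∃ p1 : G, p1 = w 1 * y₀ * w 1 := ⟨_, rfl⟩
  have hp1m : p1 ∈ EG D p₀ := by
    have h1 := cy 1 one0 y₀ (R.self_mem hy)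
    rw [hp1, h1.1]; exact h1.2
  obtain ⟨y, hydef⟩ : ∃ y : F → G, ∀ s, y s = p1 * (f s * p1 * f s) := ⟨_, fun s => rfl⟩
  have hp1sq : p1 * p1 = 1 := R.EG_sq hp hp1m
  have y_w : ∀ s, s ≠ 0 → y s = w s * (w 1 * y₀ * w 1) * w s := by
    intro s hs
    rw [hydef, ← (cp s hs p1 hp1m).1, hp1]
  have y_zero : y 0 = 1 := by rw [hydef, f_zero, one_mul, mul_one, hp1sq]
  have ym : ∀ s, y s ∈ EG D y₀ := by
    intro s
    by_cases hs : s = 0
    · rw [hs, y_zero]; exact one_mem _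
    · rw [hydef]; exact (cp s hs p1 hp1m).2
  have fMy : ∀ s, f s ∈ MG D y₀ := by
    intro s
    by_cases hs : s = 0
    · rw [hs, f_zero]; exact one_mem _
    · exact mem_MG (fD s hs) (R.comm_EG hf hy hfy.symm (fm s)).symm
  have xMp : ∀ s, x s ∈ MG D p₀ := by
    intro s
    by_cases hs : s = 0
    · rw [hs, x_zero]; exact one_mem _
    · exact mem_MG (xD s hs) (R.comm_EG hx hp hpx (xm s)).symm
  have cfy : ∀ s, ∀ g ∈ EG D y₀, Commute (f s) g := fun s g hg => R.MG_comm hy (fMy s) hg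
  have cxp : ∀ s, ∀ g ∈ EG D p₀, Commute (x s) g := fun s g hg => R.MG_comm hp (xMp s) hg
  have y_add : ∀ s t, y (s + t) = y s * y t := by
    intro s t
    have e1 : f t * p1 * f t = p1 * y t := by
      rw [hydef, ← mul_assoc p1 p1, hp1sq, one_mul]
    have e2 : f s * p1 * f s = p1 * y s := by
      rw [hydef, ← mul_assoc p1 p1, hp1sq, one_mul]
    have e3 : f t * f s = f s * f t := by rw [← f_add, ← f_add, add_comm]
    rw [hydef (s + t), f_add]
    calc p1 * (f s * f t * p1 * (f s * f t)) = p1 * (f s * (f t * p1 * f t) * f s) := by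
          rw [← e3]
          simp only [mul_assoc]
          rw [← mul_assoc (f t) (f s), e3, mul_assoc]
      _ = p1 * (f s * p1 * (y t * f s)) := by rw [e1]; simp only [mul_assoc]
      _ = p1 * (f s * p1 * f s) * y t := by rw [← (cfy s _ (ym t)).eq]; simp only [mul_assoc]
      _ = y s * y t := by rw [← hydef]
  have y_one : y 1 = y₀ := by
    rw [y_w 1 one0]
    calc w 1 * (w 1 * y₀ * w 1) * w 1 = (w 1 * w 1) * y₀ * (w 1 * w 1) := by group
      _ = y₀ := by rw [wsq 1 one0, one_mul, mul_one]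
  have y_ne : ∀ s, s ≠ 0 → y s ≠ 1 := by
    intro s hs h1
    rw [y_w s hs] at h1
    apply R.ne_one hy
    have h2 : w 1 * y₀ * w 1 = 1 := by
      calc w 1 * y₀ * w 1 = (w s * w s) * (w 1 * y₀ * w 1) * (w s * w s) := by
            rw [wsq s hs, one_mul, mul_one]
        _ = w s * (w s * (w 1 * y₀ * w 1) * w s) * w s := by group
        _ = 1 := by rw [h1, mul_one, wsq s hs]
    calc y₀ = (w 1 * w 1) * y₀ * (w 1 * w 1) := by rw [wsq 1 one0, one_mul, mul_one]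
      _ = w 1 * (w 1 * y₀ * w 1) * w 1 := by group
      _ = 1 := by rw [h2, mul_one, wsq 1 one0]
  have y_inj : Function.Injective y := by
    intro s t hst
    by_contra hne
    have h1 : s + t ≠ 0 := by
      intro h2
      apply hne
      calc s = s + (t + t) := by rw [two, add_zero]
        _ = (s + t) + t := by ring
        _ = t := by rw [h2, zero_add]
    apply y_ne _ h1
    rw [y_add, hst]
    exact R.EG_sq hy (ym t)
  have y_surj : ∀ g ∈ EG D y₀, ∃ s, g = y s := by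
    intro g hg
    have hbij : Function.Bijective (fun s : F => (⟨y s, ym s⟩ : EG D y₀)) := by
      haveI : Fintype (EG D y₀) := Fintype.ofFinite _
      rw [Fintype.bijective_iff_injective_and_card]
      refine ⟨fun s t h => y_inj (congrArg Subtype.val h), ?_⟩
      rw [hF, ← hcy, Nat.card_eq_fintype_card]
    obtain ⟨s, hs⟩ := hbij.2 ⟨g, hg⟩
    exact ⟨s, (congrArg Subtype.val hs).symm⟩
  obtain ⟨p, hpdef⟩ : ∃ p : F → G, ∀ s, p s = w 1 * y s * w 1 := ⟨_, fun s => rfl⟩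
  have pm : ∀ s, p s ∈ EG D p₀ := by
    intro s
    have h1 := cy 1 one0 (y s) (ym s)
    rw [hpdef, h1.1]; exact h1.2
  have p_zero : p 0 = 1 := by rw [hpdef, y_zero, mul_one, wsq 1 one0]
  have p_add : ∀ s t, p (s + t) = p s * p t := by
    intro s t
    rw [hpdef, hpdef, hpdef, y_add]
    calc w 1 * (y s * y t) * w 1 = w 1 * y s * 1 * y t * w 1 := by group
      _ = w 1 * y s * (w 1 * w 1) * y t * w 1 := by rw [wsq 1 one0]
      _ = _ := by group
  have p_one : p 1 = p1 := by rw [hpdef, y_one, hp1]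
  have y_p : ∀ s, y s = w 1 * p s * w 1 := by
    intro s
    rw [hpdef]
    calc y s = (w 1 * w 1) * y s * (w 1 * w 1) := by rw [wsq 1 one0, one_mul, mul_one]
      _ = _ := by group
  have p_ne : ∀ s, s ≠ 0 → p s ≠ 1 := by
    intro s hs h1
    apply y_ne s hs
    rw [y_p, h1, mul_one, wsq 1 one0]
  have p_surj : ∀ g ∈ EG D p₀, ∃ s, g = p s := by
    intro g hg
    have h1 := cp 1 one0 g hg
    obtain ⟨s, hs⟩ := y_surj (w 1 * g * w 1) (by rw [h1.1]; exact h1.2)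
    refine ⟨s, ?_⟩
    rw [hpdef, ← hs]
    calc g = (w 1 * w 1) * g * (w 1 * w 1) := by rw [wsq 1 one0, one_mul, mul_one]
      _ = _ := by group
  have yD : ∀ s, s ≠ 0 → y s ∈ D := fun s hs => R.mem_D hy (ym s) (y_ne s hs)
  have pD : ∀ s, s ≠ 0 → p s ∈ D := fun s hs => R.mem_D hp (pm s) (p_ne s hs)
  -- the action of `w s`
  have w_p : ∀ s t, s ≠ 0 → t ≠ 0 → w s * p t * w s = y (s * t) := by
    intro s t hs ht
    rw [hpdef, y_w t ht, y_w _ (mul_ne_zero hs ht), ← hw3 s t hs ht]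
    have h2 : w s * w 1 * w t = w t * w 1 * w s := by
      rw [hw3 s t hs ht, hw3 t s ht hs, mul_comm]
    calc w s * (w 1 * (w t * (w 1 * y₀ * w 1) * w t) * w 1) * w s
        = (w s * w 1 * w t) * (w 1 * y₀ * w 1) * (w t * w 1 * w s) := by group
      _ = (w s * w 1 * w t) * (w 1 * y₀ * w 1) * (w s * w 1 * w t) := by rw [h2]
  have w_y : ∀ s t, s ≠ 0 → t ≠ 0 → w s⁻¹ * y t * w s⁻¹ = p (s * t) := by
    intro s t hs ht
    rw [hpdef, y_w t ht, y_w _ (mul_ne_zero hs ht)]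
    have h1 := hw2 s t hs ht
    have h2 : w t * w s⁻¹ = w (s * t) * w 1 := by
      have e1 : (w s⁻¹ * w t)⁻¹ = w t * w s⁻¹ := by
        rw [mul_inv_rev, inv_eq_of_mul_eq_one_left (wsq t ht),
          inv_eq_of_mul_eq_one_left (wsq _ (inv_ne_zero hs))]
      have e2 : (w 1 * w (s * t))⁻¹ = w (s * t) * w 1 := by
        rw [mul_inv_rev, inv_eq_of_mul_eq_one_left (wsq 1 one0),
          inv_eq_of_mul_eq_one_left (wsq _ (mul_ne_zero hs ht))]
      rw [← e1, ← e2, h1]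
    calc w s⁻¹ * (w t * (w 1 * y₀ * w 1) * w t) * w s⁻¹
        = (w s⁻¹ * w t) * (w 1 * y₀ * w 1) * (w t * w s⁻¹) := by group
      _ = (w 1 * w (s * t)) * (w 1 * y₀ * w 1) * (w (s * t) * w 1) := by rw [h1, h2]
      _ = _ := by group
  have ff : ∀ s, f s * f s = 1 := fun s => R.EG_sq hf (fm s)
  have xx : ∀ s, x s * x s = 1 := fun s => R.EG_sq hx (xm s)
  have pp : ∀ s, p s * p s = 1 := fun s => R.EG_sq hp (pm s)
  have yy : ∀ s, y s * y s = 1 := fun s => R.EG_sq hy (ym s)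
  have h_fp : ∀ s t, f s * p t * f s = p t * y (s * t) := by
    intro s t
    by_cases hs : s = 0
    · rw [hs, zero_mul, f_zero, y_zero, one_mul]
    by_cases ht : t = 0
    · rw [ht, mul_zero, p_zero, y_zero, mul_one, ff, mul_one]
    have h1 := (cp s hs (p t) (pm t)).1
    rw [w_p s t hs ht] at h1
    rw [h1, ← mul_assoc (p t) (p t), pp, one_mul]
  have h_xy : ∀ s t, x s * y t * x s = y t * p (s * t) := by
    intro s t
    by_cases hs : s = 0
    · rw [hs, zero_mul, x_zero, p_zero, one_mul]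
    by_cases ht : t = 0
    · rw [ht, mul_zero, p_zero, y_zero, mul_one, xx, mul_one]
    have h1 := (cy s⁻¹ (inv_ne_zero hs) (y t) (ym t)).1
    rw [w_y s t hs ht, inv_inv] at h1
    rw [h1, ← mul_assoc (y t) (y t), yy, one_mul]
  have EGf : EG D (f 1) = EG D f₀ := R.EG_eq hf (fm 1) (f_ne 1 one0)
  have EGy : EG D (y 1) = EG D y₀ := R.EG_eq hy (ym 1) (y_ne 1 one0)
  have EGp : EG D (p 1) = EG D p₀ := R.EG_eq hp (pm 1) (p_ne 1 one0)
  have EGx : EG D (x 1) = EG D x₀ := R.EG_eq hx (xm 1) (x_ne 1 one0)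
  refine ⟨f, y, p, x, ?_, R.sim hf (fm 1) (f_ne 1 one0), R.sim hy (ym 1) (y_ne 1 one0),
    R.sim hp (pm 1) (p_ne 1 one0), R.sim hx (xm 1) (x_ne 1 one0)⟩
  exact
    { two := two
      q := hq
      f_add := f_add
      y_add := y_add
      p_add := p_add
      x_add := x_add
      f_D := fD
      y_D := yD
      p_D := pD
      x_D := xD
      f_iff := fun g => ⟨fun hg => f_surj g (by rwa [EGf] at hg), by
        rintro ⟨s, rfl⟩; rw [EGf]; exact fm s⟩
      y_iff := fun g => ⟨fun hg => y_surj g (by rwa [EGy] at hg), by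
        rintro ⟨s, rfl⟩; rw [EGy]; exact ym s⟩
      p_iff := fun g => ⟨fun hg => p_surj g (by rwa [EGp] at hg), by
        rintro ⟨s, rfl⟩; rw [EGp]; exact pm s⟩
      x_iff := fun g => ⟨fun hg => x_surj g (by rwa [EGx] at hg), by
        rintro ⟨s, rfl⟩; rw [EGx]; exact xm s⟩
      fy := fun s t => cfy s _ (ym t)
      yp := fun s t => by
        by_cases hs : s = 0
        · rw [hs, y_zero]; exact Commute.one_left _
        · exact R.comm_EG hp (yD s hs) (R.comm_EG hy hp hyp.symm (ym s)).symm (pm t)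
      px := fun s t => (cxp t _ (pm s)).symm
      fp := h_fp
      xy := h_xy
      fx := braid
      opp := fun s t hs ht =>
        (R.opp_iff hx (fD s hs) (xm t) (x_ne t ht)).2
          ((R.opp_iff' hf hx (fm s) (f_ne s hs)).2 hop)
      hh := fun s t hs ht => by
        have := hh s t hs ht
        simpa only [hw] using this }

end coord

end Cfsg.Agent.H737.Far
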