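import Cfsg.Agent.H738.Final
import Cfsg.Agent.H736.RootDiscK
import Cfsg.Agent.S5048
import Cfsg.Agent.Involutions.BaerSuzuki

/-!
# Odd transpositions: `E(d) ∩ C(x) ≤ O₂(G)`

`deep`: `G` finite, `D` a generating class of odd transpositions containing a line, `d, x ∈ D` not
commuting, `j ∈ ⟨E_d⟩` commuting with `x`.  Then `j ∈ O₂(G)`.
-/

set_option autoImplicit false

universe u

namespace Cfsg.Agent.H738

open Cfsg.Agent.H737

/-! ### Generalities -/

section Gen

variable {G : Type*} [Group G]

theorem closure_commute {S : Set G} (h2 : ∀ s ∈ S, ∀ t ∈ S, Commute s t) {x y : G}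
    (hx : x ∈ Subgroup.closure S) (hy : y ∈ Subgroup.closure S) : Commute x y := by
  have h3 : ∀ n ∈ S, Commute n y := by
    intro n hn
    induction hy using Subgroup.closure_induction with
    | mem y hy => exact h2 n hn y hy
    | one => exact Commute.one_right _
    | mul a b _ _ ha hb => exact ha.mul_right hb
    | inv a _ ha => exact ha.inv_right
  induction hx using Subgroup.closure_induction with
  | mem x hx => exact h3 x hx
  | one => exact Commute.one_left _
  | mul a b _ _ ha hb => exact ha.mul_left hb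
  | inv a _ ha => exact ha.inv_left

theorem closure_sq {S : Set G} (h1 : ∀ s ∈ S, s * s = 1)
    (h2 : ∀ s ∈ S, ∀ t ∈ S, Commute s t) {x : G} (hx : x ∈ Subgroup.closure S) : x * x = 1 := by
  induction hx using Subgroup.closure_induction with
  | mem x hx => exact h1 x hx
  | one => simp
  | mul a b ha hb iha ihb =>
    have := (closure_commute h2 ha hb).eq
    calc a * b * (a * b) = a * (b * a) * b := by group
      _ = a * (a * b) * b := by rw [← this]
      _ = (a * a) * (b * b) := by group
      _ = 1 := by rw [iha, ihb, one_mul]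
  | inv a ha iha =>
    rw [inv_of_sq iha]; exact iha

/-- An element commuting with generators commutes with the group. -/
theorem commute_closure {S : Set G} {j : G} (h : ∀ s ∈ S, Commute j s) {x : G}
    (hx : x ∈ Subgroup.closure S) : Commute j x := by
  induction hx using Subgroup.closure_induction with
  | mem y hy => exact h y hy
  | one => exact Commute.one_right _
  | mul a b _ _ ha hb => exact ha.mul_right hb
  | inv a _ ha => exact ha.inv_right

theorem conj_mem_closure {S T : Set G} {g : G} (h : ∀ s ∈ S, g * s * g⁻¹ ∈ T) {x : G}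
    (hx : x ∈ Subgroup.closure S) : g * x * g⁻¹ ∈ Subgroup.closure T := by
  induction hx using Subgroup.closure_induction with
  | mem y hy => exact Subgroup.subset_closure (h y hy)
  | one => simp
  | mul a b _ _ ha hb =>
    have := mul_mem ha hb
    simpa [mul_assoc] using this
  | inv a _ ha =>
    have := inv_mem ha
    simpa [mul_assoc] using this

theorem map_mem_closure' {K : Type*} [Group K] (f : G →* K) {S : Set G} {T : Set K}
    (h : ∀ s ∈ S, f s ∈ T) {x : G} (hx : x ∈ Subgroup.closure S) : f x ∈ Subgroup.closure T := by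
  induction hx using Subgroup.closure_induction with
  | mem y hy => exact Subgroup.subset_closure (h y hy)
  | one => rw [map_one]; exact one_mem _
  | mul a b _ _ ha hb => rw [map_mul]; exact mul_mem ha hb
  | inv a _ ha => rw [map_inv]; exact inv_mem ha

theorem mem_closure_sub {S : Set G} {L : Subgroup G} (hS : ∀ s ∈ S, s ∈ L) {T : Set ↥L}
    (hT : ∀ y : ↥L, (y : G) ∈ S → y ∈ T) {x : G} (hx : x ∈ Subgroup.closure S) (hxL : x ∈ L) :
    (⟨x, hxL⟩ : ↥L) ∈ Subgroup.closure T := by
  have key : ∀ z (_ : z ∈ Subgroup.closure S), ∀ hzL : z ∈ L,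
      (⟨z, hzL⟩ : ↥L) ∈ Subgroup.closure T := by
    intro z hz
    have hle : Subgroup.closure S ≤ L := (Subgroup.closure_le L).2 hS
    induction hz using Subgroup.closure_induction with
    | mem z hz => intro hzL; exact Subgroup.subset_closure (hT _ hz)
    | one => intro _; exact one_mem _
    | mul a b ha hb iha ihb =>
      intro _
      exact mul_mem (iha (hle ha)) (ihb (hle hb))
    | inv a ha iha =>
      intro _
      exact inv_mem (iha (hle ha))
  exact key x hx hxL

/-- Members whose product lies in a 2-group commute. -/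
theorem OT.commute_of_mul_mem {D : Set G} (hD : OT D) {a b : G} (ha : a ∈ D) (hb : b ∈ D)
    {P : Subgroup G} (hP : IsPGroup 2 P) (hab : a * b ∈ P) : Commute a b := by
  rcases hD.pair a ha b hb with h1 | h1
  · exact h1
  · have h2 : a * b = 1 := eq_one_of_odd_of_mem hP h1 (pow_mem hab 2)
    have h3 : a = b := by
      calc a = (a * b) * b⁻¹ := by group
        _ = b := by rw [h2, hD.inv hb, one_mul]
    rw [h3]

/-! ### Components for noncommuting -/

/-- The component of `d` in the graph "not commuting" on `S`. -/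
def Comp (S : Set G) (d : G) : Set G :=
  {z | z ∈ S ∧ Relation.ReflTransGen (fun a b => a ∈ S ∧ b ∈ S ∧ ¬ Commute a b) d z}

theorem self_mem_comp {S : Set G} {d : G} (hd : d ∈ S) : d ∈ Comp S d := ⟨hd, .refl⟩

theorem mem_comp_of {S : Set G} {d y z : G} (hz : z ∈ Comp S d) (hy : y ∈ S)
    (h : ¬ Commute z y) : y ∈ Comp S d := ⟨hy, hz.2.tail ⟨hz.1, hy, h⟩⟩

theorem commute_of_not_mem_comp {S : Set G} {d y z : G} (hz : z ∈ Comp S d) (hy : y ∈ S)
    (h : y ∉ Comp S d) : Commute z y := by
  by_contra h1
  exact h (mem_comp_of hz hy h1)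

end Gen

/-- `D` is a generating class of odd transpositions; every member lies on a line. -/
structure Hyp {G : Type u} [Group G] (D : Set G) : Prop where
  ot : OT D
  gen : Subgroup.closure D = ⊤
  cls : ∀ y ∈ D, ∀ z ∈ D, ∃ g : G, g * y * g⁻¹ = z
  line : ∀ y ∈ D, ∃ a ∈ D, Commute a y ∧ a * y ∈ D

namespace Hyp

variable {G : Type u} [Group G] {D : Set G}

theorem conj (h : Hyp D) {y : G} (hy : y ∈ D) (g : G) : g * y * g⁻¹ ∈ D :=
  h.ot.conj_closure (by rw [h.gen]; exact Subgroup.mem_top g) hy

theorem conj' (h : Hyp D) {a t : G} (ha : a ∈ D) (ht : t * t = 1) : t * a * t ∈ D := by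
  have h1 := h.conj ha t
  rwa [inv_of_sq ht] at h1

/-- Every member has a noncommuting partner. -/
theorem exists_nc (h : Hyp D) {d x : G} (hd : d ∈ D) (hx : x ∈ D) (hdx : ¬ Commute d x) {y : G}
    (hy : y ∈ D) : ∃ z ∈ D, ¬ Commute z y := by
  obtain ⟨g, hg⟩ := h.cls d hd y hy
  refine ⟨g * x * g⁻¹, h.conj hx g, ?_⟩
  rw [← hg]
  intro h1
  apply hdx
  have h2 : g * x * g⁻¹ * (g * d * g⁻¹) = g * d * g⁻¹ * (g * x * g⁻¹) := h1
  show d * x = x * d
  calc d * x = g⁻¹ * (g * d * g⁻¹ * (g * x * g⁻¹)) * g := by group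
    _ = g⁻¹ * (g * x * g⁻¹ * (g * d * g⁻¹)) * g := by rw [h2]
    _ = x * d := by group

theorem isRoot (h : Hyp D) : IsRootInvolutionSet D := by
  have ho : ∀ a ∈ D, orderOf a = 2 := fun a ha =>
    orderOf_eq_prime (by rw [pow_two]; exact h.ot.sq a ha) (h.ot.ne a ha)
  refine ⟨ho, h.gen, fun a ha g => h.conj ha g, ?_⟩
  intro a ha b hb
  rcases h.ot.pair a ha b hb with h1 | h1
  · exact Or.inl h1
  · exact Or.inr (Or.inl h1)

theorem line_cls (h : Hyp D) {y a : G} (hy : y ∈ D) (ha : a ∈ D) (hay : Commute a y)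
    (hayD : a * y ∈ D) : a ∈ Cls D y ∧ a * y ∈ Cls D y ∧ a ≠ y := by
  have h1 : Eqv D y a := h.ot.line_eqv hy ha hay.symm (by rw [← hay.eq]; exact hayD)
  refine ⟨⟨ha, h1⟩, ⟨hayD, h1.trans (h.ot.line_eqv_mul ha hy hay hayD)⟩, ?_⟩
  rintro rfl
  exact h.ot.ne _ hayD (h.ot.sq a ha)

theorem nonempty_line (h : Hyp D) {d : G} (hd : d ∈ D) : (D ∩ commutingProducts D).Nonempty := by
  obtain ⟨a, ha, had, hadD⟩ := h.line d hd
  exact ⟨a * d, hadD, a, ha, d, hd, had.eq, h.ot.ne _ hadD, rfl⟩

/-- Equivalent members and conjugation. -/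
theorem cls_conj (h : Hyp D) {a b : G} (g : G) (hab : a ∈ Cls D b) :
    g * a * g⁻¹ ∈ Cls D (g * b * g⁻¹) := by
  refine ⟨h.conj hab.1 g, ?_⟩
  intro y hy
  have e : ∀ c : G, Commute y (g * c * g⁻¹) ↔ Commute (g⁻¹ * y * g) c := by
    intro c
    constructor
    · intro h1
      show g⁻¹ * y * g * c = c * (g⁻¹ * y * g)
      calc g⁻¹ * y * g * c = g⁻¹ * (y * (g * c * g⁻¹)) * g := by group
        _ = g⁻¹ * ((g * c * g⁻¹) * y) * g := by rw [h1.eq]
        _ = _ := by group
    · intro h1
      show y * (g * c * g⁻¹) = g * c * g⁻¹ * y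
      calc y * (g * c * g⁻¹) = g * ((g⁻¹ * y * g) * c) * g⁻¹ := by group
        _ = g * (c * (g⁻¹ * y * g)) * g⁻¹ := by rw [h1.eq]
        _ = _ := by group
  rw [e, e]
  refine hab.2 _ ?_
  have := h.conj hy g⁻¹
  rwa [inv_inv] at this

theorem cls_comm (h : Hyp D) {d : G} (hd : d ∈ D) : ∀ a ∈ Cls D d, ∀ b ∈ Cls D d, Commute a b := by
  intro a ha b hb
  have h1 : Commute d a := (ha.2 d hd).1 (Commute.refl d)
  exact ((hb.2 a ha.1).1 h1.symm)

theorem cls_sq (h : Hyp D) {d : G} : ∀ a ∈ Cls D d, a * a = 1 := fun a ha => h.ot.sq a ha.1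

theorem commute_closure_cls (_h : Hyp D) {d y : G} (hy : y ∈ D) (hyd : Commute y d) {j : G}
    (hj : j ∈ Subgroup.closure (Cls D d)) : Commute y j :=
  commute_closure (fun s hs => (hs.2 y hy).1 hyd) hj

/-- The image modulo a normal 2-subgroup. -/
theorem image (h : Hyp D) {K : Type u} [Group K] {f : G →* K} (hf : Function.Surjective f)
    (hker : Ker2 f) {d x : G} (hd : d ∈ D) (hx : x ∈ D) (hdx : ¬ Commute d x) : Hyp (Im f D) := by
  have hmem : ∀ y ∈ D, f y ∈ Im f D := by
    intro y hy
    obtain ⟨z, hz, hzy⟩ := h.exists_nc hd hx hdx hy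
    exact hker.map_mem h.ot hy hz hzy
  refine ⟨im_ot f h.ot, closure_image hf h.gen hmem, ?_, ?_⟩
  · rintro _ ⟨-, a, ha, rfl⟩ _ ⟨-, b, hb, rfl⟩
    obtain ⟨g, hg⟩ := h.cls a ha b hb
    exact ⟨f g, by rw [← map_mul, ← map_inv, ← map_mul, hg]⟩
  · rintro _ ⟨-, a, ha, rfl⟩
    obtain ⟨b, hb, hba, hbaD⟩ := h.line a ha
    exact ⟨f b, hmem b hb, hba.map f, by rw [← map_mul]; exact hmem _ hbaD⟩

end Hyp

/-! ### The disconnected case -/

theorem deep_disconnected {G : Type u} [Group G] [Finite G] {D : Set G} (h : Hyp D)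
    (hO : pCore 2 G = ⊥) (hdis : ¬ IsConnectedSet (CommAdj D) D) {d x j : G} (hd : d ∈ D)
    (hx : x ∈ D) (hdx : ¬ Commute d x) (hj : j ∈ Subgroup.closure (Cls D d)) (hjx : Commute j x) :
    j = 1 := by
  have hD := h.isRoot
  have hDD := h.nonempty_line hd
  have hc := H736.RootDisc.isConnectedSet_oddAdj hD hdis
  have hsim : IsSimpleGroup (G ⧸ twoZCore G) := (S5048.result hD hc hDD).2
  have hne : twoZCore G ≠ ⊤ := by
    intro htop
    obtain ⟨a, ha, c, hcD, hca⟩ := H737.exists_opp_of_line hD hc hDD
    apply H737.mul_not_mem_twoZCore hD ha hcD hca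
    rw [htop]; exact Subgroup.mem_top _
  have hDN : ∀ d ∈ D, d ∉ twoZCore G := fun d hd =>
    H737.not_mem_of_normal_ne_top hD hc inferInstance hne hd
  have hroot := H736.RootDisc.image_root hD hDN
  have hdis' := H736.RootDisc.image_disconnected hD hdis
  have hmul : ∀ a ∈ QuotientGroup.mk' (twoZCore G) '' D, ∀ b ∈ QuotientGroup.mk' (twoZCore G) '' D,
      Commute a b → a ≠ b → a * b ∈ QuotientGroup.mk' (twoZCore G) '' D :=
    fun a ha b hb hab hne =>
      H736.RootDisc.mul_mem_root hroot (H736.RootDisc.faithful hroot hdis') ha hb hab hne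
  set f := QuotientGroup.mk' (twoZCore G) with hf
  -- members not commuting do not commute modulo `Z_*`
  have hncf : ∀ a ∈ D, ∀ b ∈ D, ¬ Commute a b → ¬ Commute (f a) (f b) := by
    intro a ha b hb hab hcon
    have hodd := h.ot.odd_of ha hb hab
    have hne : a ≠ b := by rintro rfl; exact hab (Commute.refl _)
    apply mul_not_mem_twoZCore hD hb ha ⟨hne, hodd⟩
    have h1 : (a * b) ^ 2 ∈ twoZCore G := by
      rw [← QuotientGroup.eq_one_iff]
      show f ((a * b) ^ 2) = 1
      rw [pow_two]
      have e : a * b * (a * b) = a * (b * a) * b := by group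
      rw [e, map_mul, map_mul, map_mul, ← hcon.eq, ← map_mul, ← map_mul, ← map_mul]
      have e2 : a * (a * b) * b = (a * a) * (b * b) := by group
      rw [e2, h.ot.sq a ha, h.ot.sq b hb, one_mul, map_one]
    obtain ⟨k, hk⟩ := exists_pow_sq hodd
    rw [← hk]
    exact pow_mem h1 k
  have hcf : ∀ a ∈ D, ∀ b ∈ D, (Commute (f a) (f b) ↔ Commute a b) := fun a ha b hb =>
    ⟨fun h1 => by
      by_contra h2
      exact hncf a ha b hb h2 h1, fun h1 => h1.map f⟩
  -- the image of `⟨E_d⟩` consists of `1` and images of elements of `D` not commuting with `f x`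
  have key : ∀ k ∈ Subgroup.closure (Cls D d), f k = 1 ∨
      ((∃ e ∈ D, f e = f k) ∧ ∀ y ∈ D, Commute (f y) (f k) ↔ Commute y d) := by
    intro k hk
    induction hk using Subgroup.closure_induction with
    | mem e he =>
      refine Or.inr ⟨⟨e, he.1, rfl⟩, fun y hy => ?_⟩
      rw [hcf y hy e he.1]
      exact (he.2 y hy).symm
    | one => exact Or.inl (map_one f)
    | mul a b ha hb iha ihb =>
      rcases iha with h1 | ⟨⟨e, he, hea⟩, h1⟩
      · rcases ihb with h2 | h2
        · left; rw [map_mul, h1, h2, one_mul]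
        · right
          rw [map_mul, h1, one_mul]; exact h2
      · rcases ihb with h2 | ⟨⟨e', he', heb⟩, h2⟩
        · right
          rw [map_mul, h2, mul_one]
          exact ⟨⟨e, he, hea⟩, h1⟩
        · by_cases hab : f a = f b
          · left
            rw [map_mul, hab, ← heb, ← map_mul, h.ot.sq e' he', map_one]
          · right
            -- `f a`, `f b` commute, and `f a * f b` is in the image
            have hed : Commute e d := (h1 e he).1 (by rw [hea])
            have hcomm : Commute (f a) (f b) := by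
              rw [← hea]; exact (h2 e he).2 hed
            obtain ⟨c, hcD, hce⟩ := hmul (f a) ⟨e, he, hea⟩ (f b) ⟨e', he', heb⟩ hcomm hab
            have hce' : f c = f (a * b) := by rw [hce, map_mul]
            refine ⟨⟨c, hcD, hce'⟩, fun y hy => ?_⟩
            -- use the line `f a, f b, f c`
            have hline : ∀ y ∈ D, Commute (f y) (f a) → Commute (f y) (f a * f b) := by
              intro y hy h3
              refine h3.mul_right ?_
              exact (h2 y hy).2 ((h1 y hy).1 h3)
            rw [map_mul]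
            constructor
            · intro h3
              -- `c` commutes with `e`, so `e c ∈ D` modulo `Z_*`
              by_contra hyd
              have hya : ¬ Commute (f y) (f a) := fun h4 => hyd ((h1 y hy).1 h4)
              have hyb : ¬ Commute (f y) (f b) := fun h4 => hyd ((h2 y hy).1 h4)
              -- `y` commutes with `f a * f b`, both noncommuting: use `OT` of the image
              have hot := im_ot f h.ot
              have m : ∀ z ∈ D, f z ∈ Im f D := fun z hz =>
                ⟨fun h5 => hDN z hz ((QuotientGroup.eq_one_iff z).1 h5), z, hz, rfl⟩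
              apply hya
              rw [← hea] at hcomm h3 hab ⊢
              rw [← heb] at hcomm h3 hab
              exact hot.commute_of_commute_mul (m e he) (m e' he') hcomm hab (m y hy) h3
            · intro h3
              exact hline y hy ((h1 y hy).2 h3)
    | inv a ha iha =>
      have haa : a * a = 1 := closure_sq h.cls_sq (h.cls_comm hd) ha
      rw [inv_of_sq haa]; exact iha
  rcases key j hj with h1 | h1
  · -- `j ∈ Z_*(G) = Z(G)`
    have h2 : j ∈ twoZCore G := (QuotientGroup.eq_one_iff j).1 h1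
    have hjj : j * j = 1 := closure_sq h.cls_sq (h.cls_comm hd) hj
    have hc' : ∀ g : G, Commute j g := by
      intro g
      rw [twoZCore, Subgroup.mem_comap, Subgroup.mem_center_iff] at h2
      have h3 := h2 (QuotientGroup.mk' (pCore 2 G) g)
      have h4 : QuotientGroup.mk' (pCore 2 G) (g * j * (j * g)⁻¹) = 1 := by
        rw [map_mul, map_mul, map_inv, h3, map_mul, mul_inv_cancel]
      have h5 : g * j * (j * g)⁻¹ ∈ pCore 2 G := (QuotientGroup.eq_one_iff _).1 h4
      rw [hO, Subgroup.mem_bot, mul_inv_eq_one] at h5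
      exact h5.symm
    have h6 : ∀ N : Subgroup G, N.Normal → IsPGroup 2 N → N = ⊥ := by
      intro N hN hP
      have := Lib.Cores.le_pCore hN hP
      rwa [hO, le_bot_iff] at this
    exact eq_one_of_central' h.gen h6 hjj (fun e _ => hc' e)
  · exfalso
    apply hdx
    exact ((h1.2 x hx).1 ((hjx.map f).symm)).symm

/-- **Baer–Suzuki step**: an element `j` of `⟨E_d⟩` such that every `y ∈ D` commutes with `y^j` lies
in `O₂(G)`. -/
theorem mem_pCore_of_main {G : Type u} [Group G] [Finite G] {D : Set G} (h : Hyp D) {d j : G}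
    (hd : d ∈ D) (hj : j ∈ Subgroup.closure (Cls D d)) (main : ∀ y ∈ D, Commute y (j * y * j)) :
    j ∈ pCore 2 G := by
  have hjj : j * j = 1 := closure_sq h.cls_sq (h.cls_comm hd) hj
  have hfact : Fact (Nat.Prime 2) := ⟨Nat.prime_two⟩
  have hconj : ∀ g : G, ∀ y ∈ D, Commute y ((g * j * g⁻¹) * y * (g * j * g⁻¹)) := by
    intro g y hy
    have h1 := main (g⁻¹ * y * g) (by
      have := h.conj hy g⁻¹
      rwa [inv_inv] at this)
    have h2 : g⁻¹ * y * g * (j * (g⁻¹ * y * g) * j) = j * (g⁻¹ * y * g) * j * (g⁻¹ * y * g) := h1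
    show y * (g * j * g⁻¹ * y * (g * j * g⁻¹)) = g * j * g⁻¹ * y * (g * j * g⁻¹) * y
    calc y * (g * j * g⁻¹ * y * (g * j * g⁻¹)) =
          g * (g⁻¹ * y * g * (j * (g⁻¹ * y * g) * j)) * g⁻¹ := by group
      _ = g * (j * (g⁻¹ * y * g) * j * (g⁻¹ * y * g)) * g⁻¹ := by rw [h2]
      _ = _ := by group
  have hpair : ∀ g : G, Commute j ((g * j * g⁻¹) * j * (g * j * g⁻¹)) := by
    intro g
    set k : G := g * j * g⁻¹ with hk
    have hkk : k * k = 1 := by
      calc k * k = g * (j * j) * g⁻¹ := by rw [hk]; group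
        _ = 1 := by rw [hjj]; group
    -- `k E k` commutes with `E`
    have h1 : ∀ e ∈ Cls D d, ∀ e' ∈ Cls D d, Commute e' (k * e * k) := by
      intro e he e' he'
      have h2 : Commute (k * e * k) e := (hconj g e he.1).symm
      have h3 : Commute (k * e * k) d := (he.2 _ (h.conj' he.1 hkk)).2 h2
      exact ((he'.2 _ (h.conj' he.1 hkk)).1 h3).symm
    have h2 : ∀ e ∈ Cls D d, Commute e (k * j * k) := by
      intro e he
      have h3 : k * j * k⁻¹ ∈ Subgroup.closure ((fun e => k * e * k) '' Cls D d) :=
        conj_mem_closure (S := Cls D d) (T := (fun e => k * e * k) '' Cls D d) (g := k)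
          (fun s hs => ⟨s, hs, by
          show k * s * k = k * s * k⁻¹
          rw [inv_of_sq hkk]⟩) hj
      rw [inv_of_sq hkk] at h3
      refine commute_closure ?_ h3
      rintro _ ⟨s, hs, rfl⟩
      exact h1 s hs e he
    exact (commute_closure (fun s hs => (h2 s hs).symm) hj).symm
  have hp4 : ∀ g : G, IsPGroup 2 (Subgroup.closure {j, g * j * g⁻¹} : Subgroup G) := by
    intro g
    have hkk : (g * j * g⁻¹) * (g * j * g⁻¹) = 1 := by
      calc (g * j * g⁻¹) * (g * j * g⁻¹) = g * (j * j) * g⁻¹ := by group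
        _ = 1 := by rw [hjj]; group
    have h1 := hpair g
    set k : G := g * j * g⁻¹ with hk
    have h4 : (j * k) ^ 4 = 1 := by
      have e : (j * k) ^ 4 = (j * (k * j * k)) * (j * (k * j * k)) := by
        simp only [pow_succ, pow_zero, one_mul, mul_assoc]
      rw [e]
      have hkjk : (k * j * k) * (k * j * k) = 1 := by
        calc (k * j * k) * (k * j * k) = k * j * (k * k) * j * k := by group
          _ = k * (j * j) * k := by rw [hkk]; group
          _ = 1 := by rw [hjj, mul_one, hkk]
      calc j * (k * j * k) * (j * (k * j * k)) = j * ((k * j * k) * j) * (k * j * k) := by group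
        _ = j * (j * (k * j * k)) * (k * j * k) := by rw [h1.eq]
        _ = (j * j) * ((k * j * k) * (k * j * k)) := by group
        _ = 1 := by rw [hjj, hkjk, one_mul]
    have h5 : orderOf (j * k) ∣ 2 ^ 2 := orderOf_dvd_of_pow_eq_one h4
    obtain ⟨l, -, hl⟩ := (Nat.dvd_prime_pow Nat.prime_two).1 h5
    exact two_group_of_pair hjj hkk hl
  have hK := Cfsg.Agent.Involutions.BaerSuzuki.baer_suzuki_set (p := 2) (K := {z : G | ∃ g : G, z = g * j * g⁻¹})
    (by
      rintro g _ ⟨k, rfl⟩
      exact ⟨g * k, by group⟩)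
    (by
      rintro _ ⟨g, rfl⟩ _ ⟨k, rfl⟩
      have h1 := hp4 (g⁻¹ * k)
      have h2 := h1.map (MulAut.conj g).toMonoidHom
      rw [MonoidHom.map_closure] at h2
      refine h2.to_le ?_
      rw [Subgroup.closure_le]
      rintro z (rfl | hz)
      · exact Subgroup.subset_closure ⟨j, by simp, by simp⟩
      · rw [Set.mem_singleton_iff.1 hz]
        refine Subgroup.subset_closure ⟨g⁻¹ * k * j * (g⁻¹ * k)⁻¹, by simp, ?_⟩
        simp [mul_assoc])
  have hKn : (Subgroup.closure {z : G | ∃ g : G, z = g * j * g⁻¹} : Subgroup G).Normal := by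
    constructor
    intro z hz g
    refine conj_mem_closure (S := {z : G | ∃ g : G, z = g * j * g⁻¹}) ?_ hz
    rintro _ ⟨k, rfl⟩
    exact ⟨g * k, by group⟩
  have h1 := Lib.Cores.le_pCore hKn hK
  exact h1 (Subgroup.subset_closure ⟨1, by group⟩)

/-! ### The induction -/

theorem deep_aux (n : ℕ) : ∀ (G : Type u) [Group G] [Finite G] (D : Set G), Nat.card G = n →
    Hyp D → ∀ d ∈ D, ∀ x ∈ D, ¬ Commute d x → ∀ j ∈ Subgroup.closure (Cls D d), Commute j x →
    j ∈ pCore 2 G := by
  induction n using Nat.strong_induction_on with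
  | _ n ih =>
  intro G _ _ D hn h d hd x hx hdx j hj hjx
  by_cases hO : pCore 2 G = ⊥
  · -- `O₂(G) = 1`
    rw [hO, Subgroup.mem_bot]
    by_cases hc : IsConnectedSet (CommAdj D) D
    · -- connected case
      have hjj : j * j = 1 := closure_sq h.cls_sq (h.cls_comm hd) hj
      set S : Set G := {z | z ∈ D ∧ Commute z j} with hS
      have hdS : d ∈ S := ⟨hd, h.commute_closure_cls hd (Commute.refl d) hj⟩
      have hxS : x ∈ S := ⟨hx, hjx.symm⟩
      have hC : ∀ z ∈ Comp S d, j ∈ Subgroup.closure (Cls D z) := by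
        rintro z ⟨-, hz⟩
        induction hz with
        | refl => exact hj
        | tail _ h3 ih' =>
          rename_i y z _
          obtain ⟨hy, hz, hyz⟩ := h3
          obtain ⟨g, hg, hgz⟩ := h.ot.exists_conj hy.1 hz.1 hyz
          have hjg : Commute j g := commute_closure (by
            rintro s (rfl | hs)
            · exact hy.2.symm
            · rw [Set.mem_singleton_iff.1 hs]; exact hz.2.symm) hg
          have h4 := conj_mem_closure (g := g) (T := Cls D z) (fun s hs => by
            have := h.cls_conj g hs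
            rwa [hgz] at this) ih'
          have e : g * j * g⁻¹ = j := by rw [← hjg.eq]; group
          rwa [e] at h4
      -- members not commuting with `j`
      have main : ∀ y ∈ D, Commute y (j * y * j) := by
        intro y hy
        by_cases hyj : Commute y j
        · have : j * y * j = y := by rw [← hyj.eq, mul_assoc, hjj, mul_one]
          rw [this]
        · have hyd : ¬ Commute y d := fun h1 => hyj (h.commute_closure_cls hy h1 hj)
          obtain ⟨m, hm, hmd, hmy⟩ := exists_common rankOneR1 h.ot (fun y hy g => h.conj hy g)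
            h.cls h.line hc hd hy
          have hmS : m ∈ S := ⟨hm, h.commute_closure_cls hm hmd hj⟩
          have hmC : m ∉ Comp S d := by
            intro h1
            exact hyj (h.commute_closure_cls hy hmy.symm (hC m h1))
          have hmx : Commute x m :=
            commute_of_not_mem_comp (mem_comp_of (self_mem_comp hdS) hxS hdx) hmS hmC
          -- the component of `C_D(m)`
          set T : Set G := {z | z ∈ D ∧ Commute z m} with hT
          have hdT : d ∈ T := ⟨hd, hmd.symm⟩
          have hxT : x ∈ T := ⟨hx, hmx⟩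
          have hyT : y ∈ T := ⟨hy, hmy.symm⟩
          set Cm : Set G := Comp T d with hCm
          have hdC : d ∈ Cm := self_mem_comp hdT
          have hxC : x ∈ Cm := mem_comp_of hdC hxT hdx
          have hyC : y ∈ Cm := mem_comp_of hdC hyT (fun h1 => hyd h1.symm)
          have hCD : Cm ⊆ D := fun z hz => hz.1.1
          set L : Subgroup G := Subgroup.closure Cm with hL
          have hCL : ∀ z ∈ Cm, z ∈ L := fun z hz => Subgroup.subset_closure hz
          have hCot : OT Cm := by
            refine ⟨fun a ha => h.ot.sq a (hCD ha), fun a ha => h.ot.ne a (hCD ha), ?_,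
              fun a ha b hb => h.ot.pair a (hCD ha) b (hCD hb)⟩
            intro a ha b hb
            by_cases hab : Commute a b
            · have : b * a * b = a := by rw [← hab.eq, mul_assoc, h.ot.sq b (hCD hb), mul_one]
              rw [this]; exact ha
            · refine mem_comp_of hb ⟨h.ot.conj a (hCD ha) b (hCD hb), ?_⟩ ?_
              · exact (hb.1.2.mul_left ha.1.2).mul_left hb.1.2
              · intro h1
                apply hab
                have h2 := commute_conj_of_sq (h.ot.sq b (hCD hb)) h1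
                rw [conj_conj_of_sq (h.ot.sq b (hCD hb)), h.ot.sq b (hCD hb), one_mul] at h2
                exact h2.symm
          have hclsL : ∀ z ∈ Cm, ∃ g ∈ L, g * d * g⁻¹ = z := by
            rintro z ⟨-, hz⟩
            have : ∀ w, Relation.ReflTransGen (fun a b => a ∈ T ∧ b ∈ T ∧ ¬ Commute a b) d w →
                (w ∈ T → w ∈ Cm) ∧ ∃ g ∈ L, g * d * g⁻¹ = w := by
              intro w hw
              induction hw with
              | refl => exact ⟨fun _ => hdC, 1, one_mem _, by group⟩
              | tail h2 h3 ih' =>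
                rename_i y' z'
                obtain ⟨hy', hz', hyz⟩ := h3
                obtain ⟨h4, g, hg, hgy⟩ := ih'
                have hy'C := h4 hy'
                have hz'C : z' ∈ Cm := mem_comp_of hy'C hz' hyz
                refine ⟨fun _ => hz'C, ?_⟩
                obtain ⟨k, hk, hkz⟩ := h.ot.exists_conj hy'.1 hz'.1 hyz
                refine ⟨k * g, mul_mem ?_ hg, by rw [← hkz, ← hgy]; group⟩
                refine (Subgroup.closure_le L).2 ?_ hk
                rintro s (rfl | hs)
                · exact hCL _ hy'C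
                · rw [Set.mem_singleton_iff.1 hs]; exact hCL _ hz'C
            exact (this z hz).2
          have hLconj : ∀ g ∈ L, ∀ z ∈ Cm, g * z * g⁻¹ ∈ Cm := fun g hg z hz =>
            hCot.conj_closure hg hz
          have hHyp : Hyp (Sub Cm L) := by
            refine ⟨sub_ot hCot L, closure_sub hL.symm (fun y hy => hy), ?_, ?_⟩
            · rintro y' hy' z' hz'
              obtain ⟨g, hg, hgy⟩ := hclsL _ hy'
              obtain ⟨k, hk, hkz⟩ := hclsL _ hz'
              refine ⟨⟨k * g⁻¹, mul_mem hk (inv_mem hg)⟩, Subtype.ext ?_⟩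
              show k * g⁻¹ * (y' : G) * (k * g⁻¹)⁻¹ = z'
              rw [← hgy, ← hkz]; group
            · rintro ⟨y', hy'L⟩ hy'
              have hy'C : y' ∈ Cm := hy'
              obtain ⟨g, hg, hgy⟩ := hclsL _ hy'C
              have hzC : g * x * g⁻¹ ∈ Cm := hLconj g hg x hxC
              have hzy : ¬ Commute (g * x * g⁻¹) y' := by
                rw [← hgy]
                intro h1
                apply hdx
                have h2 : g * x * g⁻¹ * (g * d * g⁻¹) = g * d * g⁻¹ * (g * x * g⁻¹) := h1
                show d * x = x * d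
                calc d * x = g⁻¹ * (g * d * g⁻¹ * (g * x * g⁻¹)) * g := by group
                  _ = g⁻¹ * (g * x * g⁻¹ * (g * d * g⁻¹)) * g := by rw [h2]
                  _ = x * d := by group
              obtain ⟨a, ha, hay, hayD⟩ := h.line y' (hCD hy'C)
              obtain ⟨c1, c2, -⟩ := h.line_cls (hCD hy'C) ha hay hayD
              have hin : ∀ e ∈ Cls D y', e ∈ Cm := by
                intro e he
                refine mem_comp_of hzC ⟨he.1, ?_⟩ ?_
                · exact ((he.2 m hm).1 hy'C.1.2.symm).symm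
                · intro h1
                  exact hzy ((he.2 _ (hCD hzC)).2 h1)
              refine ⟨⟨a, hCL _ (hin a c1)⟩, hin a c1, Subtype.ext hay, hin _ c2⟩
          have hlt : Nat.card ↥L < n := by
            rw [← hn]
            have hne : L ≠ ⊤ := by
              intro htop
              obtain ⟨z, hz, hzm⟩ := h.exists_nc hd hx hdx hm
              apply hzm
              have hzL : z ∈ L := by rw [htop]; exact Subgroup.mem_top z
              exact (commute_closure (fun s hs => (hs.1.2).symm) hzL).symm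
            have h1 := Subgroup.card_le_card_group L
            rcases h1.lt_or_eq with h2 | h2
            · exact h2
            · exact absurd (Subgroup.eq_top_of_card_eq L h2) hne
          have hclsC : ∀ e ∈ Cls D d, e ∈ Cm := by
            intro e he
            refine mem_comp_of hxC ⟨he.1, ?_⟩ ?_
            · exact ((he.2 m hm).1 hmd).symm
            · intro h1
              exact hdx ((he.2 x hx).2 h1).symm
          have hjL : j ∈ L := by
            refine (Subgroup.closure_le L).2 ?_ hj
            exact fun e he => hCL e (hclsC e he)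
          have hjL' : (⟨j, hjL⟩ : ↥L) ∈ Subgroup.closure (Cls (Sub Cm L) ⟨d, hCL d hdC⟩) := by
            refine mem_closure_sub (S := Cls D d) (fun e he => hCL e (hclsC e he)) ?_ hj hjL
            intro e he
            refine ⟨hclsC _ he, fun z hz => ?_⟩
            rw [← commute_coe, ← commute_coe]
            exact he.2 _ (hCD hz)
          have hres := ih _ hlt ↥L (Sub Cm L) rfl hHyp ⟨d, hCL d hdC⟩ hdC ⟨x, hCL x hxC⟩ hxC
            (fun h1 => hdx (commute_coe.2 h1)) ⟨j, hjL⟩ hjL' (Subtype.ext hjx)
          -- hence `y` commutes with `y^j`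
          have hyL : y ∈ L := hCL y hyC
          have h7 : (⟨y, hyL⟩ : ↥L) * (⟨j, hjL⟩ * ⟨y, hyL⟩ * ⟨j, hjL⟩) ∈ pCore 2 ↥L := by
            have hn2 : (pCore 2 ↥L).Normal := Lib.Cores.pCore_normal 2
            have h8 := hn2.conj_mem _ hres ⟨y, hyL⟩
            have h9 := mul_mem h8 hres
            have e : (⟨y, hyL⟩ : ↥L) * ⟨j, hjL⟩ * (⟨y, hyL⟩ : ↥L)⁻¹ * ⟨j, hjL⟩ =
                (⟨y, hyL⟩ : ↥L) * (⟨j, hjL⟩ * ⟨y, hyL⟩ * ⟨j, hjL⟩) := by
              apply Subtype.ext
              show y * j * y⁻¹ * j = y * (j * y * j)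
              rw [h.ot.inv hy]; group
            rwa [e] at h9
          have h10 := (sub_ot h.ot L).commute_of_mul_mem
            (show (⟨y, hyL⟩ : ↥L) ∈ Sub D L from hy)
            (show (⟨j, hjL⟩ * ⟨y, hyL⟩ * ⟨j, hjL⟩ : ↥L) ∈ Sub D L from h.conj' hy hjj)
            (Lib.Cores.pCore_isPGroup 2) h7
          exact commute_coe.2 h10
      have h2 : j ∈ pCore 2 G := mem_pCore_of_main h hd hj main
      rw [hO] at h2
      exact Subgroup.mem_bot.1 h2
    · exact deep_disconnected h hO hc hd hx hdx hj hjx
  · -- pass to `G / O₂(G)`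
    have hn2 : (pCore 2 G).Normal := Lib.Cores.pCore_normal 2
    set f := QuotientGroup.mk' (pCore 2 G) with hf
    have hker : Ker2 f := ker2_mk _ (Lib.Cores.pCore_isPGroup 2)
    have hsurj : Function.Surjective f := QuotientGroup.mk'_surjective _
    have hlt : Nat.card (G ⧸ pCore 2 G) < n := by
      rw [← hn, Subgroup.card_eq_card_quotient_mul_card_subgroup (pCore 2 G)]
      have h1 : 1 < Nat.card ↥(pCore 2 G) := by
        rw [Subgroup.one_lt_card_iff_ne_bot]
        exact hO
      have h2 : 0 < Nat.card (G ⧸ pCore 2 G) := Nat.card_pos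
      exact lt_mul_of_one_lt_right h2 h1
    have hjim : f j ∈ Subgroup.closure (Cls (Im f D) (f d)) :=
      map_mem_closure' f (fun e he => hker.cls_map h.ot hd he hx (fun h1 => hdx h1.symm)) hj
    have h1 := ih _ hlt (G ⧸ pCore 2 G) (Im f D) rfl (h.image hsurj hker hd hx hdx) (f d)
      (hker.map_mem h.ot hd hx (fun h1 => hdx h1.symm)) (f x) (hker.map_mem h.ot hx hd hdx)
      (by rw [hker.commute_iff h.ot hd hx]; exact hdx) (f j) hjim (hjx.map f)
    rw [Lib.Cores.pCore_quotient_pCore, Subgroup.mem_bot] at h1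
    exact (QuotientGroup.eq_one_iff j).1 h1

/-- **`E(d) ∩ C(x) ≤ O₂(G)`.** -/
theorem deep {G : Type u} [Group G] [Finite G] {D : Set G} (h : Hyp D) {d x j : G} (hd : d ∈ D)
    (hx : x ∈ D) (hdx : ¬ Commute d x) (hj : j ∈ Subgroup.closure (Cls D d)) (hjx : Commute j x) :
    j ∈ pCore 2 G := deep_aux _ G D rfl h d hd x hx hdx j hj hjx

end Cfsg.Agent.H738
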