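import Cfsg.Agent.H738.RootFin
import Cfsg.Agent.H737.FarBase

/-!
# The setting `R2` for a non-degenerate class with a far pair, and the final glue
-/

set_option autoImplicit false

universe u

namespace Cfsg.Agent.H738.Glue

open Cfsg.Agent.H731 Cfsg.Agent.H737 Cfsg.Agent.H736.Hole Cfsg.Agent.H739

variable {G : Type u} [Group G] [Finite G] {D : Set G}

/-- The setting `R2`. -/
theorem r2_of (hD : IsNondegenerateRootInvolutionSet D) (hcl : IsRootInvolutionClass D)
    (hO : pCore 2 G = ⊥) (hZ : Subgroup.center G = ⊥) (hq : ∀ d ∈ D, 2 < Nat.card (EG D d))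
    (hB : HasFar D) : Cfsg.Agent.H737.Far.R2 D := by
  have N := Cfsg.Agent.H736.Hole.nd_of hD hcl hO hZ
  have H := lg_of hD hcl hO hZ
  have h := N.h
  refine ⟨N, fun c hc z hz hzc hne => H.far_F4 hB hc hz hzc hne, ?_, ?_, hq, ?_⟩
  · intro a ha b hb c hc hba hns hca hcb
    exact H.far_F3 hB ha hb hc hba.symm hca.symm hcb.symm hns
  · intro d hd x hx hxd g hg hgx
    refine H.gen d hd x hx (Opp.symm' h hx hd hxd) g ?_ hgx
    intro z hz
    exact hg z (Cfsg.Agent.H737.Far.mem_MG hz.2.1 hz.2.2.1.symm)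
  · rintro f hf x hx ⟨hfx, y, hy, hyf, hyx⟩
    have h4 := four_le_card N hf (hq f hf)
    have hns : ¬ SimR D y f := fun hs => hyx (H.opp_of_sim hf hy hx hs hfx)
    have hne : y ≠ f := by
      rintro rfl
      exact hyx hfx
    have hc : Col D f y := N.col_of hf hy hyf (H.far_F4 hB hf hy hyf hne) hns
    have hnc : ¬ Commute y x := by
      intro hcom
      exact (N.col_symm hc).2.1.2.2 x hx hcom.symm (Opp.symm' h hf hx hfx)
    have h5 : orderOf (y * x) = 4 := (order_four_of h hy hx hnc hyx).1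
    exact near_psl2 N (path_of_near N hx (Opp.symm' h hf hx hfx) hc h5) h4

/-- There is no path as in (F0). -/
def NoFar (D : Set G) : Prop :=
  ∀ f₀ x₀ d y₀ : G, f₀ ∈ D → x₀ ∈ D → d ∈ D → y₀ ∈ D → Opp f₀ x₀ → Commute y₀ f₀ →
    ¬ Opp y₀ x₀ → ¬ SimR D y₀ f₀ → Commute d f₀ → ¬ SimR D d f₀ → Opp d x₀ →
    (∀ z ∈ D, Commute z d → Opp z x₀) → False

theorem nearThm_of (hD : IsNondegenerateRootInvolutionSet D) (hcl : IsRootInvolutionClass D)
    (hO : pCore 2 G = ⊥) (hZ : Subgroup.center G = ⊥)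
    (hno : Cfsg.Agent.H737.Far.R2 D → NoFar D) : NearThm D := by
  refine near_of_no_far hD hcl hO hZ (fun d hd h4 hB => ?_)
  have N := Cfsg.Agent.H736.Hole.nd_of hD hcl hO hZ
  have H := lg_of hD hcl hO hZ
  have hq : ∀ e ∈ D, 2 < Nat.card (EG D e) := fun e he => by
    rw [N.card_EG he hd]; omega
  obtain ⟨f, hf, x, hx, r, hr, y, hy, h1, h2, h3, h5, h6, h7, h8, h9⟩ := H.far_F0 hB
  exact hno (r2_of hD hcl hO hZ hq hB) f x r y hf hx hr hy h1 h2 h5 h3 h6 h7 h8 h9

end Cfsg.Agent.H738.Glue
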