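import Cfsg.Agent.H738.Rank1
import Cfsg.Agent.H803.RankOne
import Cfsg.Agent.H803.RankOneFacts

/-!
# The rank one theorem for `⟨E_d, x⟩` and its consequences
-/

set_option autoImplicit false

universe u

namespace Cfsg.Agent.H738

open Cfsg.Agent.H737

section

variable {G : Type u} [Group G] {D : Set G} {d x : G}

theorem Gen.isOdd [Finite G] (h : Gen D d x) : IsOddTranspositionSet D := by
  have ho : ∀ a ∈ D, orderOf a = 2 := fun a ha =>
    orderOf_eq_prime (by rw [pow_two]; exact h.ot.sq a ha) (h.ot.ne a ha)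
  refine ⟨⟨ho, h.gen_top, fun a ha g => h.conj_mem ha g, ?_⟩, ?_⟩
  · intro a ha b hb
    rcases h.ot.pair a ha b hb with h1 | h1
    · exact Or.inl h1
    · exact Or.inr (Or.inl h1)
  · intro a ha b hb h4
    rcases h.ot.pair a ha b hb with h1 | h1
    · have h2 : orderOf (a * b) ∣ 2 := by
        apply orderOf_dvd_of_pow_eq_one
        rw [pow_two]
        exact h.sq_mul ha hb h1
      rw [h4] at h2
      revert h2; decide
    · rw [h4] at h1
      revert h1; decide

/-- The root group `E ∪ {1}`. -/
def Gen.rootGroup (h : Gen D d x) : Subgroup G where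
  carrier := {g | g = 1 ∨ g ∈ Cls D d}
  one_mem' := Or.inl rfl
  mul_mem' := by
    rintro a b (rfl | ha) (rfl | hb)
    · left; simp
    · right; simpa using hb
    · right; simpa using ha
    · by_cases hab : a = b
      · left
        rw [hab]; exact h.ot.sq b hb.1
      · exact Or.inr (h.mul_mem ha hb hab)
  inv_mem' := by
    rintro a (rfl | ha)
    · left; simp
    · right
      rw [h.ot.inv ha.1]; exact ha

theorem Gen.mem_rootGroup (h : Gen D d x) {g : G} : g ∈ h.rootGroup ↔ g = 1 ∨ g ∈ Cls D d :=
  Iff.rfl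

end

theorem rankOneThm : RankOneThm.{u} := by
  intro K _ _ D d x a h ha had
  have hdd : d ∈ Cls D d := ⟨h.hd, Eqv.refl _ _⟩
  have h4 : 4 ≤ Nat.card h.rootGroup := by
    have hsub : ({1, d, a, a * d} : Set K) ⊆ (h.rootGroup : Set K) := by
      intro y hy
      rw [SetLike.mem_coe, h.mem_rootGroup]
      rcases hy with rfl | rfl | rfl | hy
      · exact Or.inl rfl
      · exact Or.inr hdd
      · exact Or.inr ha
      · rw [Set.mem_singleton_iff.1 hy]; exact Or.inr (h.mul_mem ha hdd had)
    have hd1 := h.ot.ne d h.hd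
    have ha1 := h.ot.ne a ha.1
    have hne : a * d ≠ 1 := by
      intro h1
      apply had
      calc a = a * (d * d) := by rw [h.ot.sq d h.hd, mul_one]
        _ = (a * d) * d := by group
        _ = d := by rw [h1, one_mul]
    have hne2 : a * d ≠ d := by
      intro h1
      apply ha1
      calc a = (a * d) * d⁻¹ := by group
        _ = 1 := by rw [h1]; group
    have hne3 : a * d ≠ a := by
      intro h1
      apply hd1
      calc d = a⁻¹ * (a * d) := by group
        _ = 1 := by rw [h1]; group
    have hcard : ({1, d, a, a * d} : Set K).ncard = 4 := by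
      rw [Set.ncard_insert_of_notMem, Set.ncard_insert_of_notMem, Set.ncard_insert_of_notMem,
        Set.ncard_singleton]
      · simp only [Set.mem_singleton_iff]
        exact fun h => hne3 h.symm
      · simp only [Set.mem_insert_iff, Set.mem_singleton_iff, not_or]
        exact ⟨fun h => had h.symm, fun h => hne2 h.symm⟩
      · simp only [Set.mem_insert_iff, Set.mem_singleton_iff, not_or]
        exact ⟨fun h => hd1 h.symm, fun h => ha1 h.symm, fun h => hne h.symm⟩
    rw [← hcard]
    exact Set.ncard_le_ncard hsub (Set.toFinite _)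
  refine H803.RankOne.rank_one (D := D) h.isOdd h.rootGroup h4 h.hd h.hx (Or.inr hdd) ?_ ?_ ?_ ?_ ?_
  · rintro b (rfl | hb) hb1
    · exact absurd rfl hb1
    · exact hb.1
  · intro b hb c hc e he hbc hce
    exact h.trans ha had hb hc he hbc hce
  · rw [eq_top_iff, ← h.gen, Subgroup.closure_le]
    rintro y (hy | hy)
    · exact Subgroup.mem_sup_left (Or.inr hy)
    · rw [Set.mem_singleton_iff.1 hy]
      exact Subgroup.mem_sup_right (Subgroup.mem_zpowers x)
  · exact h.nc
  · exact h.o2 _ (Lib.Cores.pCore_normal 2) (Lib.Cores.pCore_isPGroup 2)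

theorem r1_of {K : Type u} [Group K] [Finite K] (h : IsL2Sz K) : R1 K := by
  have h1 : H803.RankOneFacts.R1 K := by
    rcases h with ⟨F, _, _, hF, -, he⟩ | h
    · exact H803.RankOneFacts.R1.of_psl he
    · exact H803.RankOneFacts.R1.of_suzuki h
  refine ⟨?_, ?_, ?_, ?_⟩
  · intro s t hs hs1 ht ht1
    have := h1.conj s t (orderOf_eq_prime (by rw [pow_two]; exact hs) hs1)
      (orderOf_eq_prime (by rw [pow_two]; exact ht) ht1)
    obtain ⟨c, hc⟩ := isConj_iff.1 this
    exact ⟨c, hc⟩
  · intro P Q R hQ hR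
    obtain ⟨g, hg, hgQ⟩ := h1.trans P Q R hQ hR
    refine ⟨g, hg, fun y hy => ?_⟩
    rw [← hgQ, H803.RankOneFacts.mem_smul_iff]
    have : g⁻¹ * (g * y * g⁻¹) * g = y := by group
    rwa [this]
  · intro P Q y hP hQ hy
    by_contra hne
    have h2 := h1.ti P Q hne
    have h3 : y ∈ (P : Subgroup K) ⊓ Q := ⟨hP, hQ⟩
    rw [h2] at h3
    exact hy (Subgroup.mem_bot.1 h3)
  · intro P s hs t ht hss htt
    exact h1.comm P s hs t ht hss htt

theorem rankOneR1 : RankOneR1.{u} := fun K _ _ D d x a h ha had =>
  r1_of (rankOneThm K D d x a h ha had)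

end Cfsg.Agent.H738
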