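import Cfsg.Agent.H738.Quot
import Cfsg.Agent.H466.RealLift

/-!
# Rank one groups: a common involution; conjugacy of fibres

* `R1 K`: the properties of `L₂(2ⁿ)`, `Sz(2ⁿ)` used: one class of involutions, Sylow 2-subgroups
  are TI, act transitively on the other Sylow 2-subgroups, and their involutions commute.
* `R1.common_involution`: two `R1`-subgroups `K₁`, `K₂` of an `R1`-group, both containing the
  involution `d`, and containing commuting involutions `a₁`, `a₂` not commuting with `d`, have a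
  common involution commuting with `a₁` and `a₂`.
* `exists_conj_fibre`: members of `D` congruent modulo a normal 2-subgroup, and not commuting with
  `d`, are conjugate under `C(d)`.
-/

set_option autoImplicit false

namespace Cfsg.Agent.H738

open Cfsg.Agent.H737

/-- Properties of the groups `L₂(q)`, `Sz(q)`, `q > 2` even. -/
structure R1 (K : Type*) [Group K] : Prop where
  conj : ∀ s t : K, s * s = 1 → s ≠ 1 → t * t = 1 → t ≠ 1 → ∃ g : K, g * s * g⁻¹ = t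
  trans : ∀ P Q R : Sylow 2 K, Q ≠ P → R ≠ P → ∃ g ∈ P, ∀ y ∈ Q, g * y * g⁻¹ ∈ R
  ti : ∀ P Q : Sylow 2 K, ∀ y : K, y ∈ P → y ∈ Q → y ≠ 1 → P = Q
  comm : ∀ P : Sylow 2 K, ∀ s ∈ P, ∀ t ∈ P, s * s = 1 → t * t = 1 → Commute s t

section

variable {K : Type*} [Group K]

/-- An involution normalizing a Sylow 2-subgroup lies in it. -/
theorem mem_sylow_of_normalizes (P : Sylow 2 K) {d : K} (hd : d * d = 1)
    (h : ∀ y ∈ P, d * y * d⁻¹ ∈ P) : d ∈ P := by
  have hP2 : IsPGroup 2 (Subgroup.zpowers d) := by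
    rintro ⟨x, hx⟩
    obtain ⟨n, rfl⟩ := Subgroup.mem_zpowers_iff.1 hx
    refine ⟨1, Subtype.ext ?_⟩
    have h1 : (d ^ n) ^ 2 = 1 := by
      rw [pow_two, ← zpow_add, ← two_mul, zpow_mul]
      norm_cast
      rw [pow_two, hd, one_zpow]
    simpa using h1
  have hdinv : d⁻¹ = d := inv_of_sq hd
  have hn : Subgroup.zpowers d ≤ Subgroup.normalizer ((P : Subgroup K) : Set K) := by
    rw [Subgroup.zpowers_le, Subgroup.mem_normalizer_iff]
    intro y
    refine ⟨fun hy => h y hy, fun hy => ?_⟩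
    have h1 := h _ hy
    rw [hdinv] at h1
    have h2 : d * (d * y * d) * d = y := conj_conj_of_sq hd
    rwa [h2] at h1
  have h3 : IsPGroup 2 ((P : Subgroup K) ⊔ Subgroup.zpowers d : Subgroup K) :=
    IsPGroup.to_sup_of_normal_left' P.isPGroup' hP2 hn
  have h4 := P.is_maximal' h3 le_sup_left
  have h5 : d ∈ ((P : Subgroup K) ⊔ Subgroup.zpowers d : Subgroup K) :=
    Subgroup.mem_sup_right (Subgroup.mem_zpowers d)
  rw [h4] at h5
  exact h5

/-- Every involution lies in a Sylow 2-subgroup. -/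
theorem exists_sylow {d : K} (hd : d * d = 1) : ∃ P : Sylow 2 K, d ∈ P := by
  have : Fact (Nat.Prime 2) := ⟨Nat.prime_two⟩
  have hP2 : IsPGroup 2 (Subgroup.closure {d} : Subgroup K) := by
    apply isPGroup_of_commuting
    · intro s hs; rw [Set.mem_singleton_iff.1 hs]; exact hd
    · intro s hs t ht
      rw [Set.mem_singleton_iff.1 hs, Set.mem_singleton_iff.1 ht]
  obtain ⟨P, hP⟩ := hP2.exists_le_sylow
  exact ⟨P, hP (Subgroup.subset_closure rfl)⟩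

theorem exists_sylow_pair {a b : K} (ha : a * a = 1) (hb : b * b = 1) (hab : Commute a b) :
    ∃ P : Sylow 2 K, a ∈ P ∧ b ∈ P := by
  have : Fact (Nat.Prime 2) := ⟨Nat.prime_two⟩
  have hP2 : IsPGroup 2 (Subgroup.closure {a, b} : Subgroup K) := by
    apply isPGroup_of_commuting
    · rintro s (rfl | hs)
      · exact ha
      · rw [Set.mem_singleton_iff.1 hs]; exact hb
    · rintro s (rfl | hs) t (rfl | ht)
      · exact Commute.refl _
      · rw [Set.mem_singleton_iff.1 ht]; exact hab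
      · rw [Set.mem_singleton_iff.1 hs]; exact hab.symm
      · rw [Set.mem_singleton_iff.1 hs, Set.mem_singleton_iff.1 ht]
  obtain ⟨P, hP⟩ := hP2.exists_le_sylow
  exact ⟨P, hP (Subgroup.subset_closure (by simp)), hP (Subgroup.subset_closure (by simp))⟩

/-- A 2-subgroup sharing a nontrivial element with a Sylow 2-subgroup is contained in it. -/
theorem R1.le_of_mem (h : R1 K) (P : Sylow 2 K) {S : Subgroup K} (hS : IsPGroup 2 S) {y : K}
    (hy : y ∈ S) (hyP : y ∈ P) (hy1 : y ≠ 1) : S ≤ P := by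
  have : Fact (Nat.Prime 2) := ⟨Nat.prime_two⟩
  obtain ⟨Q, hQ⟩ := hS.exists_le_sylow
  rw [h.ti P Q y hyP (hQ hy) hy1]
  exact hQ

variable [Finite K]

/-- The Sylow subgroup `d P d`. -/
theorem exists_conj_sylow (P : Sylow 2 K) (g : K) : ∃ Q : Sylow 2 K, ∀ y, y ∈ Q ↔ g⁻¹ * y * g ∈ P := by
  refine ⟨g • P, fun y => ?_⟩
  rw [← SetLike.mem_coe, Sylow.coe_smul, Set.mem_smul_set_iff_inv_smul_mem]
  simp [← map_inv, MulAut.smul_def, mul_assoc]

theorem R1.core (h : R1 K) {P P' : Sylow 2 K} (hne : P' ≠ P) {d : K} (hd : d * d = 1)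
    {g k : K} (hg : g ∈ P) (hk : k ∈ P)
    (hg' : ∃ y ∈ P', y ≠ 1 ∧ d * (g * y * g⁻¹) * d ∈ P)
    (hk' : ∃ y ∈ P', y ≠ 1 ∧ d * (k * y * k⁻¹) * d ∈ P) : g = k := by
  have hdinv : d⁻¹ = d := inv_of_sq hd
  -- both `g P' g⁻¹` and `k P' k⁻¹` are `d P d`
  obtain ⟨R, hR⟩ := exists_conj_sylow P d
  have key : ∀ c : K, c ∈ P → (∃ y ∈ P', y ≠ 1 ∧ d * (c * y * c⁻¹) * d ∈ P) →
      ∀ y, y ∈ R ↔ c⁻¹ * y * c ∈ P' := by
    intro c hc hy
    obtain ⟨y, hy, hy1, hyd⟩ := hy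
    obtain ⟨T, hT⟩ := exists_conj_sylow P' c
    have h1 : T = R := by
      refine h.ti T R (c * y * c⁻¹) ?_ ?_ ?_
      · rw [hT]
        have : c⁻¹ * (c * y * c⁻¹) * c = y := by group
        rwa [this]
      · rw [hR, hdinv]; exact hyd
      · intro h2
        apply hy1
        have : y = c⁻¹ * (c * y * c⁻¹) * c := by group
        rw [this, h2]; group
    intro z
    rw [← h1, hT]
  have hg2 := key g hg hg'
  have hk2 := key k hk hk'
  -- `k⁻¹ g` normalizes `P'`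
  by_contra hgk
  have h3 : ∀ y ∈ P', (k⁻¹ * g) * y * (k⁻¹ * g)⁻¹ ∈ P' := by
    intro y hy
    have h4 : g * y * g⁻¹ ∈ R := by
      rw [hg2]
      have : g⁻¹ * (g * y * g⁻¹) * g = y := by group
      rwa [this]
    rw [hk2] at h4
    have : k⁻¹ * g * y * (k⁻¹ * g)⁻¹ = k⁻¹ * (g * y * g⁻¹) * k := by group
    rwa [this]
  have h5 : k⁻¹ * g ∈ P := mul_mem (inv_mem hk) hg
  -- hence it lies in `P'`
  have h6 : k⁻¹ * g ∈ P' := by
    have hz : IsPGroup 2 (Subgroup.zpowers (k⁻¹ * g)) :=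
      P.isPGroup'.to_le (by rw [Subgroup.zpowers_le]; exact h5)
    have hn : Subgroup.zpowers (k⁻¹ * g) ≤ Subgroup.normalizer ((P' : Subgroup K) : Set K) := by
      rw [Subgroup.zpowers_le, Subgroup.mem_normalizer_iff]
      intro y
      refine ⟨fun hy => h3 y hy, fun hy => ?_⟩
      -- finite order
      have h7 : ∀ n : ℕ, ∀ z ∈ P', (k⁻¹ * g) ^ n * z * ((k⁻¹ * g) ^ n)⁻¹ ∈ P' := by
        intro n
        induction n with
        | zero => intro z hz; simpa using hz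
        | succ n ih =>
          intro z hz
          have h8 := ih _ (h3 z hz)
          have : (k⁻¹ * g) ^ (n + 1) * z * ((k⁻¹ * g) ^ (n + 1))⁻¹ =
            (k⁻¹ * g) ^ n * (k⁻¹ * g * z * (k⁻¹ * g)⁻¹) * ((k⁻¹ * g) ^ n)⁻¹ := by
              rw [pow_succ]; group
          rwa [this]
      have h9 := h7 (orderOf (k⁻¹ * g) - 1) _ hy
      have ho : 0 < orderOf (k⁻¹ * g) := orderOf_pos _
      have h10 : (k⁻¹ * g) ^ (orderOf (k⁻¹ * g) - 1) = (k⁻¹ * g)⁻¹ := by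
        rw [eq_inv_iff_mul_eq_one, ← pow_succ, Nat.sub_add_cancel ho, pow_orderOf_eq_one]
      rw [h10] at h9
      have : (k⁻¹ * g)⁻¹ * (k⁻¹ * g * y * (k⁻¹ * g)⁻¹) * ((k⁻¹ * g)⁻¹)⁻¹ = y := by group
      rwa [this] at h9
    have h11 : IsPGroup 2 ((P' : Subgroup K) ⊔ Subgroup.zpowers (k⁻¹ * g) : Subgroup K) :=
      IsPGroup.to_sup_of_normal_left' P'.isPGroup' hz hn
    have h12 := P'.is_maximal' h11 le_sup_left
    have h13 : k⁻¹ * g ∈ ((P' : Subgroup K) ⊔ Subgroup.zpowers (k⁻¹ * g) : Subgroup K) :=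
      Subgroup.mem_sup_right (Subgroup.mem_zpowers _)
    rw [h12] at h13
    exact h13
  apply hne
  refine h.ti P' P _ h6 h5 ?_
  intro h7
  apply hgk
  calc g = k * (k⁻¹ * g) := by group
    _ = k := by rw [h7, mul_one]

/-- The element `g₁` of a rank one subgroup. -/
theorem R1.exists_g (h : R1 K) {P P' : Sylow 2 K} {d a : K} (hd : d * d = 1) (hd1 : d ≠ 1)
    (ha : a * a = 1) (ha1 : a ≠ 1) (hdP' : d ∈ P') (haP : a ∈ P) (hda : ¬ Commute d a)
    {K₁ : Subgroup K} (h₁ : R1 ↥K₁) (hdK : d ∈ K₁) (haK : a ∈ K₁) :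
    ∃ g ∈ P, g ∈ K₁ ∧ g ≠ 1 ∧ ∃ y ∈ P', y ≠ 1 ∧ d * (g * y * g⁻¹) * d ∈ P := by
  have hdinv : d⁻¹ = d := inv_of_sq hd
  obtain ⟨P₁, hP₁⟩ := exists_sylow (K := ↥K₁) (d := ⟨a, haK⟩) (Subtype.ext ha)
  obtain ⟨P₁', hP₁'⟩ := exists_sylow (K := ↥K₁) (d := ⟨d, hdK⟩) (Subtype.ext hd)
  have hle : ∀ (S : Sylow 2 ↥K₁) (T : Sylow 2 K) (y : ↥K₁), y ∈ S → (y : K) ∈ T → y ≠ 1 →
      ∀ z ∈ S, (z : K) ∈ T := by
    intro S T y hy hyT hy1 z hz
    refine h.le_of_mem T (S := (S : Subgroup ↥K₁).map K₁.subtype) ?_ (y := y) ?_ hyT ?_ ?_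
    · exact S.isPGroup'.map _
    · exact Subgroup.mem_map_of_mem _ hy
    · intro h1; exact hy1 (Subtype.ext h1)
    · exact Subgroup.mem_map_of_mem K₁.subtype hz
  have hP : ∀ z ∈ P₁, (z : K) ∈ P :=
    hle P₁ P ⟨a, haK⟩ hP₁ haP (fun h1 => ha1 (congrArg Subtype.val h1))
  have hP' : ∀ z ∈ P₁', (z : K) ∈ P' :=
    hle P₁' P' ⟨d, hdK⟩ hP₁' hdP' (fun h1 => hd1 (congrArg Subtype.val h1))
  have hne : P₁' ≠ P₁ := by
    intro h1
    rw [h1] at hP₁'
    apply hda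
    exact commute_coe.2 (h₁.comm P₁ ⟨d, hdK⟩ hP₁' ⟨a, haK⟩ hP₁ (Subtype.ext hd) (Subtype.ext ha))
  obtain ⟨R, hR⟩ := exists_conj_sylow P₁ (⟨d, hdK⟩ : ↥K₁)
  have hdd : (⟨d, hdK⟩ : ↥K₁)⁻¹ = ⟨d, hdK⟩ := Subtype.ext hdinv
  have hRne : R ≠ P₁ := by
    intro h1
    have h2 : (⟨d, hdK⟩ : ↥K₁) ∈ P₁ := by
      apply mem_sylow_of_normalizes P₁ (Subtype.ext hd)
      intro y hy
      rw [← h1, hR] at hy
      rw [hdd] at hy ⊢
      exact hy
    have h3 := hP _ h2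
    apply hda
    exact h.comm P d h3 a haP hd ha
  obtain ⟨g, hg, hgy⟩ := h₁.trans P₁ P₁' R hne hRne
  refine ⟨g, hP g hg, g.2, ?_, d, hdP', hd1, ?_⟩
  · intro h1
    have h1' : g = 1 := Subtype.ext h1
    have h2 := hgy ⟨d, hdK⟩ hP₁'
    rw [h1', hR] at h2
    have h3 : (⟨d, hdK⟩ : ↥K₁)⁻¹ * (1 * ⟨d, hdK⟩ * 1⁻¹) * ⟨d, hdK⟩ = ⟨d, hdK⟩ := by group
    rw [h3] at h2
    apply hda
    exact h.comm P d (hP _ h2) a haP hd ha
  · have h2 := hgy ⟨d, hdK⟩ hP₁'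
    rw [hR, hdd] at h2
    exact hP _ h2

/-- **The common involution.** -/
theorem R1.common_involution (h : R1 K) {K₁ K₂ : Subgroup K} (h₁ : R1 ↥K₁) (h₂ : R1 ↥K₂)
    {d a₁ a₂ : K} (hd : d * d = 1) (hd1 : d ≠ 1) (ha₁ : a₁ * a₁ = 1) (ha₁1 : a₁ ≠ 1)
    (ha₂ : a₂ * a₂ = 1) (ha₂1 : a₂ ≠ 1) (h12 : Commute a₁ a₂) (hda₁ : ¬ Commute d a₁)
    (hda₂ : ¬ Commute d a₂) (hd₁ : d ∈ K₁) (hd₂ : d ∈ K₂) (hK₁ : a₁ ∈ K₁) (hK₂ : a₂ ∈ K₂) :
    ∃ i ∈ K₁, i ∈ K₂ ∧ i * i = 1 ∧ i ≠ 1 ∧ Commute i a₁ ∧ Commute i a₂ := by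
  obtain ⟨P, hP₁, hP₂⟩ := exists_sylow_pair ha₁ ha₂ h12
  obtain ⟨P', hP'⟩ := exists_sylow hd
  have hne : P' ≠ P := by
    intro h1
    rw [h1] at hP'
    exact hda₁ (h.comm P d hP' a₁ hP₁ hd ha₁)
  obtain ⟨g, hg, hgK, hg1, hgy⟩ := h.exists_g hd hd1 ha₁ ha₁1 hP' hP₁ hda₁ h₁ hd₁ hK₁
  obtain ⟨k, hk, hkK, -, hky⟩ := h.exists_g hd hd1 ha₂ ha₂1 hP' hP₂ hda₂ h₂ hd₂ hK₂
  have hgk := h.core hne hd hg hk hgy hky
  subst hgk
  -- a power of `g` is an involution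
  obtain ⟨m, hm⟩ := (P.isPGroup' ⟨g, hg⟩)
  have hm' : g ^ 2 ^ m = 1 := by
    have := congrArg Subtype.val hm
    simpa using this
  have hex : ∃ n : ℕ, g ^ 2 ^ n = 1 := ⟨m, hm'⟩
  classical
  obtain ⟨n, hn, hmin⟩ : ∃ n : ℕ, g ^ 2 ^ n = 1 ∧ ∀ l < n, g ^ 2 ^ l ≠ 1 :=
    ⟨Nat.find hex, Nat.find_spec hex, fun l hl => Nat.find_min hex hl⟩
  have hn0 : n ≠ 0 := by
    rintro rfl
    simp at hn
    exact hg1 hn
  obtain ⟨l, rfl⟩ := Nat.exists_eq_succ_of_ne_zero hn0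
  have hi : g ^ 2 ^ l * g ^ 2 ^ l = 1 := by
    rw [← pow_add, ← two_mul, ← pow_succ']; exact hn
  refine ⟨g ^ 2 ^ l, pow_mem hgK _, pow_mem hkK _, hi, hmin l (Nat.lt_succ_self l), ?_, ?_⟩
  · exact h.comm P _ (pow_mem hg _) a₁ hP₁ hi ha₁
  · exact h.comm P _ (pow_mem hg _) a₂ hP₂ hi ha₂

/-- A subgroup of an `R1`-group containing two noncommuting involutions has no normal
2-subgroup. -/
theorem R1.o2 (h : R1 K) {K₁ : Subgroup K} {a d : K} (ha : a * a = 1) (hd : d * d = 1)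
    (haK : a ∈ K₁) (hdK : d ∈ K₁) (hda : ¬ Commute d a) (N : Subgroup ↥K₁) (hN : N.Normal)
    (hP : IsPGroup 2 N) : N = ⊥ := by
  have : Fact (Nat.Prime 2) := ⟨Nat.prime_two⟩
  by_contra hne
  obtain ⟨y, hyN, hy1⟩ := N.bot_or_exists_ne_one.resolve_left hne
  obtain ⟨P, hPN⟩ := (hP.map K₁.subtype).exists_le_sylow
  have hyP : ∀ z ∈ N, (z : K) ∈ P := fun z hz => hPN (Subgroup.mem_map_of_mem K₁.subtype hz)
  have key : ∀ c : K, c * c = 1 → c ∈ K₁ → c ∈ P := by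
    intro c hc hcK
    obtain ⟨Q, hQ⟩ := exists_conj_sylow P c
    have h1 : Q = P := by
      refine h.ti Q P (y : K) ?_ (hyP y hyN) (fun h1 => hy1 (Subtype.ext h1))
      rw [hQ]
      have h2 := hN.conj_mem y hyN (⟨c, hcK⟩⁻¹)
      rw [inv_inv] at h2
      exact hyP _ h2
    refine mem_sylow_of_normalizes P hc ?_
    intro z hz
    rw [← h1, hQ] at hz
    rw [inv_of_sq hc] at hz ⊢
    exact hz
  exact hda (h.comm P d (key d hd hdK) a (key a ha haK) hd ha)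

end

/-! ### Fibres -/

section Fibre

variable {G : Type*} [Group G] {D : Set G}

/-- **Claim A.** Members of `D` congruent modulo a normal 2-subgroup and not commuting with `d`
are conjugate under the centralizer of `d`. -/
theorem exists_conj_fibre [Finite G] (hD : OT D) (hconj : ∀ y ∈ D, ∀ g : G, g * y * g⁻¹ ∈ D)
    {Q : Subgroup G} [Q.Normal] (hQ : IsPGroup 2 Q) {d f₁ f₂ : G} (hd : d ∈ D) (h1 : f₁ ∈ D)
    (h2 : f₂ ∈ D) (hn : ¬ Commute d f₁) (hq : f₁ * f₂ ∈ Q) :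
    ∃ p : G, Commute p d ∧ p * f₁ * p⁻¹ = f₂ := by
  have hK := ker2_mk Q hQ
  have hdd := hD.sq d hd
  have h11 := hD.sq f₁ h1
  have h22 := hD.sq f₂ h2
  have hm12 : QuotientGroup.mk' Q f₁ = QuotientGroup.mk' Q f₂ := by
    have h3 : QuotientGroup.mk' Q (f₁ * f₂) = 1 := (QuotientGroup.eq_one_iff _).2 hq
    have h4 : QuotientGroup.mk' Q (f₂ * f₂) = 1 := by rw [h22, map_one]
    rw [map_mul] at h3 h4
    calc QuotientGroup.mk' Q f₁ = QuotientGroup.mk' Q f₁ * (QuotientGroup.mk' Q f₂ *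
          QuotientGroup.mk' Q f₂) := by rw [h4, mul_one]
      _ = QuotientGroup.mk' Q f₂ := by rw [← mul_assoc, h3, one_mul]
  have hn2 : ¬ Commute d f₂ := by
    rw [← hK.commute_iff hD hd h2, ← hm12, hK.commute_iff hD hd h1]
    exact hn
  have hu := hD.odd_of hd h1 hn
  have hw := hD.odd_of hd h2 hn2
  have hcardQ : ∃ k, Nat.card Q = 2 ^ k := by
    have : Fact (Nat.Prime 2) := ⟨Nat.prime_two⟩
    exact (IsPGroup.iff_card).1 hQ
  obtain ⟨k, hk⟩ := hcardQ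
  have hcop : ∀ g : G, Odd (orderOf g) → (orderOf g).Coprime (Nat.card Q) := by
    intro g hg
    rw [hk]
    exact Nat.Coprime.pow_right _ hg.coprime_two_right
  obtain ⟨p, hp, hpc⟩ := H466.RealLift.exists_conj_of_coset Q (hcop _ hu) (hcop _ hw) (by
    have : (d * f₁)⁻¹ * (d * f₂) = f₁ * f₂ := by
      rw [mul_inv_rev, hD.inv h1, hD.inv hd]
      calc f₁ * d * (d * f₂) = f₁ * (d * d) * f₂ := by group
        _ = f₁ * f₂ := by rw [hdd, mul_one]
    rwa [this])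
  -- `d' = p d p⁻¹`
  set d' : G := p * d * p⁻¹ with hd'
  have hd'D : d' ∈ D := hconj d hd p
  have hmp : QuotientGroup.mk' Q p = 1 := (QuotientGroup.eq_one_iff _).2 hp
  have hmd : QuotientGroup.mk' Q d' = QuotientGroup.mk' Q d := by
    rw [hd', map_mul, map_mul, map_inv, hmp]; group
  have hcomm : Commute d d' := by
    rw [← hK.commute_iff hD hd hd'D, hmd]
  set w : G := d * f₂ with hwdef
  have hdw : d * w * d = w⁻¹ := by
    rw [hwdef, mul_inv_rev, hD.inv h2, hD.inv hd]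
    calc d * (d * f₂) * d = (d * d) * f₂ * d := by group
      _ = f₂ * d := by rw [hdd, one_mul]
  have hd'w : d' * w * d' = w⁻¹ := by
    rw [← hpc, hd']
    have e1 : p * d * p⁻¹ * (p * (d * f₁) * p⁻¹) * (p * d * p⁻¹) = p * (d * (d * f₁) * d) * p⁻¹ := by
      group
    rw [e1]
    have e2 : d * (d * f₁) * d = (d * f₁)⁻¹ := by
      rw [mul_inv_rev, hD.inv h1, hD.inv hd]
      calc d * (d * f₁) * d = (d * d) * f₁ * d := by group
        _ = f₁ * d := by rw [hdd, one_mul]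
    rw [e2]; group
  have heq : d = d' := by
    by_contra hne
    apply hn2
    have hd'd' := hD.sq d' hd'D
    have hcw : Commute (d * d') w := by
      show d * d' * w = w * (d * d')
      calc d * d' * w = d * (d' * w * d') * d' := by
            calc d * d' * w = d * d' * w * (d' * d') := by rw [hd'd', mul_one]
              _ = _ := by group
        _ = d * (d * w * d) * d' := by rw [hd'w, hdw]
        _ = (d * d) * w * (d * d') := by group
        _ = w * (d * d') := by rw [hdd, one_mul]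
    have hf2 : f₂ = d * w := by rw [hwdef, ← mul_assoc, hdd, one_mul]
    have hcf : Commute f₂ (d * d') := by
      rw [hf2]
      exact ((Commute.refl d).mul_right hcomm).mul_left hcw.symm
    exact (hD.commute_of_commute_mul hd hd'D hcomm hne h2 hcf).symm
  have hpd : Commute p d := by
    show p * d = d * p
    calc p * d = d' * p := by rw [hd']; group
      _ = d * p := by rw [← heq]
  refine ⟨p, hpd, ?_⟩
  have hf1 : f₁ = d * (d * f₁) := by rw [← mul_assoc, hdd, one_mul]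
  calc p * f₁ * p⁻¹ = (p * d * p⁻¹) * (p * (d * f₁) * p⁻¹) := by
        rw [hf1]
        calc p * (d * (d * f₁)) * p⁻¹ = p * d * (p⁻¹ * p) * (d * f₁) * p⁻¹ := by group
          _ = (p * d * p⁻¹) * (p * (d * f₁) * p⁻¹) := by group
          _ = (p * d * p⁻¹) * (p * (d * (d * (d * f₁))) * p⁻¹) := by rw [← hf1]
    _ = d' * w := by rw [hpc]
    _ = d * w := by rw [← heq]
    _ = f₂ := by rw [hwdef, ← mul_assoc, hdd, one_mul]

end Fibre

end Cfsg.Agent.H738
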