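import Cfsg.Agent.H738.SzEx
import Cfsg.Agent.H803.RankOneMore

/-!
# Odd transpositions: identification of `⟨E_d, x⟩`, statement S5052
-/

set_option autoImplicit false

universe u

namespace Cfsg.Agent.H738

open Cfsg.Agent.H737

variable {G : Type u} [Group G] [Finite G] {D : Set G} {d x : G} {R : Subgroup G}

/-- Central elements of `X` of 2-power order act trivially on `R / C`. -/
theorem RS.center_act (r : RS D d x R) {z : G} (hz : z ∈ XX D d x)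
    (hzc : ∀ g ∈ XX D d x, Commute z g) (hz2 : ∃ k : ℕ, z ^ 2 ^ k = 1) :
    ∀ u ∈ R, u⁻¹ * (z * u * z⁻¹) ∈ RS.C D d x R := by
  classical
  let S : Subgroup G :=
    { carrier := {u | u ∈ R ∧ u⁻¹ * (z * u * z⁻¹) ∈ RS.C D d x R}
      one_mem' := ⟨one_mem _, by
        have e : (1 : G)⁻¹ * (z * 1 * z⁻¹) = 1 := by group
        rw [e]; exact one_mem _⟩
      mul_mem' := by
        rintro u v ⟨hu, hu'⟩ ⟨hv, hv'⟩
        refine ⟨mul_mem hu hv, ?_⟩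
        have e : (u * v)⁻¹ * (z * (u * v) * z⁻¹) =
            (v⁻¹ * (u⁻¹ * (z * u * z⁻¹)) * v⁻¹⁻¹) * (v⁻¹ * (z * v * z⁻¹)) := by group
        rw [e, RS.conj_eq_iff.2 (r.central hu' (inv_mem hv))]
        exact mul_mem hu' hv'
      inv_mem' := by
        rintro u ⟨hu, hu'⟩
        refine ⟨inv_mem hu, ?_⟩
        have e : u⁻¹⁻¹ * (z * u⁻¹ * z⁻¹) = u * (u⁻¹ * (z * u * z⁻¹))⁻¹ * u⁻¹ := by group
        rw [e, RS.conj_eq_iff.2 (r.central (inv_mem hu') hu)]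
        exact inv_mem hu' }
  have hS : ∀ u, u ∈ S ↔ u ∈ R ∧ u⁻¹ * (z * u * z⁻¹) ∈ RS.C D d x R := fun u => Iff.rfl
  have hSR : S ≤ R := fun u hu => hu.1
  by_cases hne : S = R
  · intro u hu
    have h1 : u ∈ S := by rw [hne]; exact hu
    exact h1.2
  exfalso
  have hSn : ∀ g ∈ XX D d x, ∀ u ∈ S, g * u * g⁻¹ ∈ S := by
    intro g hg u hu
    rw [hS] at hu ⊢
    refine ⟨r.nrm g hg u hu.1, ?_⟩
    have hgz : z * g = g * z := (hzc g hg).eq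
    have e : (g * u * g⁻¹)⁻¹ * (z * (g * u * g⁻¹) * z⁻¹) = g * (u⁻¹ * (z * u * z⁻¹)) * g⁻¹ := by
      calc (g * u * g⁻¹)⁻¹ * (z * (g * u * g⁻¹) * z⁻¹)
          = g * u⁻¹ * g⁻¹ * ((z * g) * u * (z * g)⁻¹) := by group
        _ = g * u⁻¹ * g⁻¹ * ((g * z) * u * (g * z)⁻¹) := by rw [hgz]
        _ = _ := by group
    rw [e, r.C_conj hu.2 hg]
    exact hu.2
  have hSC : S ≤ RS.C D d x R := fun u hu =>
    RS.mem_C.2 ⟨hu.1, fun g hg => r.min S hSR hSn hne g hg u hu⟩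
  have hCR : ∀ c ∈ RS.C D d x R, c ∈ R := fun c hc => (RS.mem_C.1 hc).1
  set C' : Subgroup ↥R := (RS.C D d x R).subgroupOf R with hC'
  have rel : ∀ u v : ↥R, (QuotientGroup.mk u : ↥R ⧸ C') = QuotientGroup.mk v ↔
      (u : G)⁻¹ * v ∈ RS.C D d x R := by
    intro u v
    rw [QuotientGroup.eq, hC', Subgroup.mem_subgroupOf]
    exact Iff.rfl
  have hzR : ∀ u : ↥R, z * (u : G) * z⁻¹ ∈ R := fun u => r.nrm z hz u u.2
  have key : ∀ u v : ↥R, (QuotientGroup.mk (⟨z * u * z⁻¹, hzR u⟩ : ↥R) : ↥R ⧸ C') =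
      QuotientGroup.mk (⟨z * v * z⁻¹, hzR v⟩ : ↥R) ↔
      (QuotientGroup.mk u : ↥R ⧸ C') = QuotientGroup.mk v := by
    intro u v
    rw [rel, rel]
    show (z * (u : G) * z⁻¹)⁻¹ * (z * v * z⁻¹) ∈ RS.C D d x R ↔ _
    have e : (z * (u : G) * z⁻¹)⁻¹ * (z * v * z⁻¹) = z * ((u : G)⁻¹ * v) * z⁻¹ := by group
    rw [e]
    constructor
    · intro h1
      have h2 := r.C_conj h1 (inv_mem hz)
      have e2 : z⁻¹ * (z * ((u : G)⁻¹ * v) * z⁻¹) * z⁻¹⁻¹ = (u : G)⁻¹ * v := by group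
      rw [e2] at h2
      rw [h2]; exact h1
    · intro h1
      rw [r.C_conj h1 hz]; exact h1
  let f0 : (↥R ⧸ C') → (↥R ⧸ C') := fun t =>
    QuotientGroup.mk (⟨z * t.out * z⁻¹, hzR t.out⟩ : ↥R)
  have hf0 : ∀ u : ↥R, f0 (QuotientGroup.mk u) = QuotientGroup.mk (⟨z * u * z⁻¹, hzR u⟩ : ↥R) := by
    intro u
    show QuotientGroup.mk (⟨z * (QuotientGroup.mk u : ↥R ⧸ C').out * z⁻¹, _⟩ : ↥R) = _
    rw [key]
    exact QuotientGroup.out_eq' _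
  have hinj : Function.Injective f0 := by
    intro t t' h1
    have h2 := (key _ _).1 h1
    rwa [QuotientGroup.out_eq', QuotientGroup.out_eq'] at h2
  let ψ : Equiv.Perm (↥R ⧸ C') := Equiv.ofBijective f0 (Finite.injective_iff_bijective.1 hinj)
  have hzn : ∀ (n : ℕ) (u : ↥R), z ^ n * (u : G) * (z ^ n)⁻¹ ∈ R := fun n u =>
    r.nrm _ (pow_mem hz n) u u.2
  have hψ : ∀ (n : ℕ) (u : ↥R), (ψ ^ n) (QuotientGroup.mk u) =
      QuotientGroup.mk (⟨z ^ n * u * (z ^ n)⁻¹, hzn n u⟩ : ↥R) := by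
    intro n
    induction n with
    | zero =>
      intro u
      rw [pow_zero]
      show QuotientGroup.mk u = _
      congr 1
      apply Subtype.ext
      show (u : G) = z ^ 0 * u * (z ^ 0)⁻¹
      simp
    | succ n ih =>
      intro u
      rw [pow_succ']
      show ψ ((ψ ^ n) (QuotientGroup.mk u)) = _
      rw [ih]
      show f0 _ = _
      rw [hf0]
      congr 1
      apply Subtype.ext
      show z * (z ^ n * (u : G) * (z ^ n)⁻¹) * z⁻¹ = z ^ (n + 1) * u * (z ^ (n + 1))⁻¹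
      rw [pow_succ']; group
  have he : ψ (QuotientGroup.mk 1) = QuotientGroup.mk 1 := by
    show f0 _ = _
    rw [hf0, rel]
    have e : ((⟨z * ((1 : ↥R) : G) * z⁻¹, hzR 1⟩ : ↥R) : G)⁻¹ * ((1 : ↥R) : G) = 1 := by
      show (z * (1 : G) * z⁻¹)⁻¹ * (1 : G) = 1
      group
    rw [e]; exact one_mem _
  have h2 : 2 ∣ Nat.card (↥R ⧸ C') := by
    have hfact : Fact (Nat.Prime 2) := ⟨Nat.prime_two⟩
    obtain ⟨n, hn⟩ := r.pg.index C'
    rw [Subgroup.index] at hn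
    rw [hn]
    rcases Nat.eq_zero_or_pos n with h1 | h1
    · exfalso
      rw [h1, pow_zero] at hn
      have h2 : C' = ⊤ := Subgroup.index_eq_one.1 hn
      apply r.ncen
      intro g hg u hu
      have h3 : (⟨u, hu⟩ : ↥R) ∈ C' := by rw [h2]; exact Subgroup.mem_top _
      have h4 : u ∈ RS.C D d x R := h3
      exact (RS.mem_C.1 h4).2 g hg
    · exact dvd_pow_self 2 h1.ne'
  obtain ⟨t, hte, m, ht⟩ := exists_odd_fixed h2 ψ he
  obtain ⟨u, rfl⟩ := QuotientGroup.mk_surjective t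
  rw [hψ, rel] at ht
  have ht' : (z ^ (2 * m + 1) * (u : G) * (z ^ (2 * m + 1))⁻¹)⁻¹ * u ∈ RS.C D d x R := ht
  set y : G := z ^ (2 * m + 1) with hy
  have hyX : y ∈ XX D d x := pow_mem hz _
  set c : G := (y * (u : G) * y⁻¹)⁻¹ * u with hc
  have hyu : y * (u : G) * y⁻¹ = u * c⁻¹ := by rw [hc]; group
  have hyn : ∀ j : ℕ, y ^ j * (u : G) * (y ^ j)⁻¹ = u * (c⁻¹) ^ j := by
    intro j
    induction j with
    | zero => simp
    | succ j ih =>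
      have h3 : y * (c⁻¹) ^ j * y⁻¹ = (c⁻¹) ^ j := r.C_conj (pow_mem (inv_mem ht') j) hyX
      calc y ^ (j + 1) * (u : G) * (y ^ (j + 1))⁻¹ = y * (y ^ j * (u : G) * (y ^ j)⁻¹) * y⁻¹ := by
            rw [pow_succ']; group
        _ = y * (u * (c⁻¹) ^ j) * y⁻¹ := by rw [ih]
        _ = (y * u * y⁻¹) * (y * (c⁻¹) ^ j * y⁻¹) := by group
        _ = u * (c⁻¹) ^ (j + 1) := by rw [hyu, h3, pow_succ']; group
  obtain ⟨k, hk⟩ := hz2
  have hcop : Nat.Coprime (2 * m + 1) (orderOf z) := by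
    have h3 : orderOf z ∣ 2 ^ k := orderOf_dvd_of_pow_eq_one hk
    refine Nat.Coprime.coprime_dvd_right h3 ?_
    refine Nat.Coprime.pow_right k ?_
    exact Odd.coprime_two_right ⟨m, rfl⟩
  obtain ⟨j, hj⟩ := exists_pow_eq_self_of_coprime hcop
  have h3 := hyn j
  rw [hy, hj] at h3
  have h4 : (u : G) ∈ S := by
    rw [hS]
    refine ⟨u.2, ?_⟩
    rw [h3]
    have e : (u : G)⁻¹ * (u * c⁻¹ ^ j) = c⁻¹ ^ j := by group
    rw [e]
    exact pow_mem (inv_mem ht') j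
  apply hte
  rw [rel]
  have h5 := inv_mem (hSC h4)
  have e : (u : G)⁻¹ * ((1 : ↥R) : G) = (u : G)⁻¹ := mul_one _
  rw [e]; exact h5

/-- The hypotheses of this section. -/
structure HX (D : Set G) (d x : G) : Prop where
  h : Hyp D
  hO : pCore 2 G = ⊥
  hd : d ∈ D
  hx : x ∈ D
  nc : ¬ Commute d x

namespace HX

variable (q : HX D d x)
include q

theorem dX : d ∈ XX D d x := RS.cls_X ⟨q.hd, Eqv.refl _ _⟩

theorem nc_cls {a : G} (ha : a ∈ Cls D d) : ¬ Commute a x := fun h1 =>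
  q.nc ((ha.2 x q.hx).2 h1.symm).symm

theorem iff {a b : G} (haX : a ∈ XX D d x) (hbX : b ∈ XX D d x) (ha : a ∈ D) (hb : b ∈ D) :
    Commute (red (XX D d x) ⟨a, haX⟩) (red (XX D d x) ⟨b, hbX⟩) ↔ Commute a b := by
  rw [(red_ker2 (XX D d x)).commute_iff (sub_ot q.h.ot _) ha hb]
  exact commute_coe.symm

theorem claim2 {c : G} (hc : c ∈ D) (hcX : c ∈ XX D d x) (hcd : Commute c d)
    (hcn : ∃ z ∈ D, z ∈ XX D d x ∧ ¬ Commute z c) : c ∈ Cls D d := by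
  obtain ⟨a, ha, had, hadD⟩ := q.h.line d q.hd
  exact mem_cls_of_commute q.h.ot (fun y hy g => q.h.conj hy g) q.hd q.hx (fun h1 => q.nc h1.symm)
    ha had hadD (q.h.cls d q.hd c hc) hc hcX hcd hcn

theorem not_mem {a : G} (ha : a ∈ Cls D d) :
    (⟨a, RS.cls_X ha⟩ : ↥(XX D d x)) ∉ pCore 2 ↥(XX D d x) := by
  intro h1
  apply q.nc_cls ha
  rw [← q.iff (RS.cls_X ha) RS.x_X ha.1 q.hx]
  have h2 : red (XX D d x) ⟨a, RS.cls_X ha⟩ = 1 := (QuotientGroup.eq_one_iff _).2 h1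
  rw [h2]
  exact Commute.one_left _

theorem fibre {a a' : G} (ha : a ∈ Cls D d) (ha' : a' ∈ D) (haX' : a' ∈ XX D d x)
    (h1 : (⟨a, RS.cls_X ha⟩ : ↥(XX D d x)) * ⟨a', haX'⟩ ∈ pCore 2 ↥(XX D d x)) : a' = a := by
  have hS := sub_ot q.h.ot (XX D d x)
  have h2 : Commute a a' := commute_coe.2 (hS.commute_of_mul_mem
    (show (⟨a, RS.cls_X ha⟩ : ↥(XX D d x)) ∈ Sub D _ from ha.1)
    (show (⟨a', haX'⟩ : ↥(XX D d x)) ∈ Sub D _ from ha') (Lib.Cores.pCore_isPGroup 2) h1)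
  have h3 : Commute a' d := (ha.2 a' ha').2 h2.symm
  have h4 : red (XX D d x) ⟨a', haX'⟩ = red (XX D d x) ⟨a, RS.cls_X ha⟩ := by
    have h5 : red (XX D d x) (⟨a, RS.cls_X ha⟩ * ⟨a', haX'⟩) = 1 := (QuotientGroup.eq_one_iff _).2 h1
    rw [map_mul] at h5
    have h6 : red (XX D d x) ⟨a, RS.cls_X ha⟩ * red (XX D d x) ⟨a, RS.cls_X ha⟩ = 1 := by
      rw [← map_mul]
      have : (⟨a, RS.cls_X ha⟩ : ↥(XX D d x)) * ⟨a, RS.cls_X ha⟩ = 1 :=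
        Subtype.ext (q.h.ot.sq a ha.1)
      rw [this, map_one]
    exact mul_left_cancel (h5.trans h6.symm)
  have h5 : ¬ Commute x a' := by
    rw [← q.iff RS.x_X haX' q.hx ha', h4, q.iff RS.x_X (RS.cls_X ha) q.hx ha.1]
    exact fun h6 => q.nc_cls ha h6.symm
  have h6 := q.claim2 ha' haX' h3 ⟨x, q.hx, RS.x_X, h5⟩
  by_contra hne
  have h7 := mul_cls q.h q.hO q.hd q.hx q.nc ha h6 (fun h => hne h.symm)
  exact q.not_mem h7 h1

theorem exists_g : ∃ g ∈ XX D d x, g * d * g⁻¹ = x := by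
  obtain ⟨g, hg, h1⟩ := q.h.ot.exists_conj q.hd q.hx q.nc
  refine ⟨g, ?_, h1⟩
  refine (Subgroup.closure_le _).2 ?_ hg
  rintro s (rfl | hs)
  · exact q.dX
  · rw [Set.mem_singleton_iff.1 hs]; exact RS.x_X

/-- `O₂(X)` is central in `X`. -/
theorem central {z : ↥(XX D d x)} (hz : z ∈ pCore 2 ↥(XX D d x)) :
    ∀ g ∈ XX D d x, Commute (z : G) g := by
  have hn2 : (pCore 2 ↥(XX D d x)).Normal := Lib.Cores.pCore_normal 2
  have key : ∀ z ∈ pCore 2 ↥(XX D d x), ∀ a ∈ Cls D d, Commute (z : G) a := by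
    intro z hz a ha
    rw [← RS.conj_eq_iff]
    refine q.fibre ha (q.h.conj ha.1 z) (mul_mem (mul_mem z.2 (RS.cls_X ha)) (inv_mem z.2)) ?_
    have h1 := mul_mem (hn2.conj_mem z hz ⟨a, RS.cls_X ha⟩) (inv_mem hz)
    have e : (⟨a, RS.cls_X ha⟩ : ↥(XX D d x)) * z * (⟨a, RS.cls_X ha⟩ : ↥(XX D d x))⁻¹ * z⁻¹ =
        (⟨a, RS.cls_X ha⟩ : ↥(XX D d x)) * ⟨z * a * (z : G)⁻¹,
          mul_mem (mul_mem z.2 (RS.cls_X ha)) (inv_mem z.2)⟩ := by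
      apply Subtype.ext
      show a * (z : G) * a⁻¹ * (z : G)⁻¹ = a * (z * a * (z : G)⁻¹)
      rw [q.h.ot.inv ha.1]; group
    rwa [e] at h1
  intro g hg
  refine commute_closure (S := Cls D d ∪ {x}) ?_ hg
  rintro s (hs | hs)
  · exact key z hz s hs
  · rw [Set.mem_singleton_iff.1 hs]
    obtain ⟨g, hg, hgx⟩ := q.exists_g
    have h1 := key _ (hn2.conj_mem z hz ⟨g, hg⟩⁻¹) d ⟨q.hd, Eqv.refl _ _⟩
    have h2 : g⁻¹ * z * g⁻¹⁻¹ * d = d * (g⁻¹ * z * g⁻¹⁻¹) := h1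
    have h3 : (z : G) * (g * d * g⁻¹) = g * d * g⁻¹ * z := by
      calc (z : G) * (g * d * g⁻¹) = g * (g⁻¹ * z * g⁻¹⁻¹ * d) * g⁻¹ := by group
        _ = g * (d * (g⁻¹ * z * g⁻¹⁻¹)) * g⁻¹ := by rw [h2]
        _ = _ := by group
    rw [hgx] at h3
    exact h3

theorem gen : Gen (Im (red (XX D d x)) (Sub D (XX D d x))) (red (XX D d x) ⟨d, q.dX⟩)
    (red (XX D d x) ⟨x, RS.x_X⟩) :=
  gen_red q.h.ot q.hd q.hx (fun h1 => q.nc h1.symm) rfl q.dX RS.x_X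

theorem exists_ne : ∃ a ∈ Cls D d, a ≠ d := by
  obtain ⟨a, ha, had, hadD⟩ := q.h.line d q.hd
  obtain ⟨h1, -, h3⟩ := q.h.line_cls q.hd ha had hadD
  exact ⟨a, h1, h3⟩

theorem isL2Sz : IsL2Sz (↥(XX D d x) ⧸ pCore 2 ↥(XX D d x)) := by
  obtain ⟨a, ha, had⟩ := q.exists_ne
  refine rankOneThm _ _ _ _ (red (XX D d x) ⟨a, RS.cls_X ha⟩) q.gen ?_ ?_
  · have h1 : (⟨a, RS.cls_X ha⟩ : ↥(XX D d x)) ∈ Cls (Sub D (XX D d x)) ⟨d, q.dX⟩ := cls_sub_of ha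
    exact (red_ker2 (XX D d x)).cls_map (sub_ot q.h.ot _) q.hd h1
      (show (⟨x, RS.x_X⟩ : ↥(XX D d x)) ∈ Sub D _ from q.hx)
      (fun h1 => q.nc (commute_coe.2 h1).symm)
  · intro h1
    apply had
    symm
    refine q.fibre ha q.hd q.dX ?_
    rw [← QuotientGroup.eq_one_iff]
    show red (XX D d x) (⟨a, _⟩ * ⟨d, _⟩) = 1
    rw [map_mul, h1, ← map_mul]
    have : (⟨d, q.dX⟩ : ↥(XX D d x)) * ⟨d, q.dX⟩ = 1 := Subtype.ext (q.h.ot.sq d q.hd)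
    rw [this, map_one]

theorem r1 : R1 (↥(XX D d x) ⧸ pCore 2 ↥(XX D d x)) := r1_of q.isL2Sz

theorem sq_red {a : G} (ha : a ∈ D) (haX : a ∈ XX D d x) :
    red (XX D d x) ⟨a, haX⟩ * red (XX D d x) ⟨a, haX⟩ = 1 := by
  rw [← map_mul]
  have : (⟨a, haX⟩ : ↥(XX D d x)) * ⟨a, haX⟩ = 1 := Subtype.ext (q.h.ot.sq a ha)
  rw [this, map_one]

theorem red_ne {a : G} (ha : a ∈ Cls D d) : red (XX D d x) ⟨a, RS.cls_X ha⟩ ≠ 1 := fun h1 =>
  q.not_mem ha ((QuotientGroup.eq_one_iff _).1 h1)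

/-- Involutions of `X / O₂(X)` commuting with `d` are images of members of `E_d`. -/
theorem lift_inv {i : ↥(XX D d x) ⧸ pCore 2 ↥(XX D d x)} (hii : i * i = 1) (hi1 : i ≠ 1)
    (hid : Commute i (red (XX D d x) ⟨d, q.dX⟩)) :
    ∃ c, ∃ hc : c ∈ Cls D d, red (XX D d x) ⟨c, RS.cls_X hc⟩ = i := by
  have hdd : d ∈ Cls D d := ⟨q.hd, Eqv.refl _ _⟩
  obtain ⟨g, hg⟩ := q.r1.conj _ i (q.sq_red q.hd q.dX) (q.red_ne hdd) hii hi1
  obtain ⟨k, rfl⟩ := red_surj (XX D d x) g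
  have hcX : (k : G) * d * (k : G)⁻¹ ∈ XX D d x := mul_mem (mul_mem k.2 q.dX) (inv_mem k.2)
  have hred : red (XX D d x) ⟨(k : G) * d * (k : G)⁻¹, hcX⟩ = i := by
    rw [← hg, ← map_mul, ← map_inv, ← map_mul]
    rfl
  have hcD := q.h.conj q.hd (k : G)
  have hcd : Commute ((k : G) * d * (k : G)⁻¹) d := by
    rw [← q.iff hcX q.dX hcD q.hd, hred]
    exact hid
  have hzX : (k : G) * x * (k : G)⁻¹ ∈ XX D d x := mul_mem (mul_mem k.2 RS.x_X) (inv_mem k.2)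
  have hcc := q.claim2 hcD hcX hcd ⟨_, q.h.conj q.hx (k : G), hzX, by
    intro h1
    apply q.nc
    have h2 : (k : G) * x * (k : G)⁻¹ * (k * d * (k : G)⁻¹) =
      k * d * (k : G)⁻¹ * (k * x * (k : G)⁻¹) := h1
    show d * x = x * d
    calc d * x = (k : G)⁻¹ * (k * d * (k : G)⁻¹ * (k * x * (k : G)⁻¹)) * k := by group
      _ = (k : G)⁻¹ * (k * x * (k : G)⁻¹ * (k * d * (k : G)⁻¹)) * k := by rw [h2]
      _ = x * d := by group⟩
  exact ⟨_, hcc, hred⟩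

/-- **`X / O₂(X)` is not a Suzuki group.** -/
theorem not_suzuki (hc : IsConnectedSet (CommAdj D) D)
    (hSz : Lie.IsoSuzuki (↥(XX D d x) ⧸ pCore 2 ↥(XX D d x))) : False := by
  have hdd : d ∈ Cls D d := ⟨q.hd, Eqv.refl _ _⟩
  have hR1 := q.r1
  obtain ⟨P, hdP⟩ := exists_sylow (q.sq_red q.hd q.dX)
  obtain ⟨s', hs'P, hs1, hs2, hs3⟩ := H803.suzuki_four hSz P
  obtain ⟨s, rfl⟩ := red_surj (XX D d x) s'
  have haP : ∀ a (ha : a ∈ Cls D d), red (XX D d x) ⟨a, RS.cls_X ha⟩ ∈ P := by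
    intro a ha
    obtain ⟨Q, hQa, hQd⟩ := exists_sylow_pair (q.sq_red ha.1 (RS.cls_X ha)) (q.sq_red q.hd q.dX)
      ((q.iff (RS.cls_X ha) q.dX ha.1 q.hd).2 (q.h.cls_comm q.hd a ha d hdd))
    rw [hR1.ti P Q _ hdP hQd (q.red_ne hdd)]
    exact hQa
  have hsc : ∀ a ∈ Cls D d, Commute (s : G) a := by
    intro a ha
    have h1 := hs3 _ (haP a ha) (q.sq_red ha.1 (RS.cls_X ha))
    rw [← RS.conj_eq_iff]
    refine q.fibre ha (q.h.conj ha.1 s) (mul_mem (mul_mem s.2 (RS.cls_X ha)) (inv_mem s.2)) ?_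
    rw [← QuotientGroup.eq_one_iff]
    show red (XX D d x) (⟨a, _⟩ * (s * ⟨a, RS.cls_X ha⟩ * s⁻¹)) = 1
    rw [map_mul, map_mul, map_mul, map_inv, h1.eq, mul_inv_cancel_right, q.sq_red ha.1 (RS.cls_X ha)]
  obtain ⟨b, hb, hbs⟩ := q.lift_inv (i := red (XX D d x) s * red (XX D d x) s) hs2 hs1
    (by
      have h1 := hs3 _ hdP (q.sq_red q.hd q.dX)
      exact h1.mul_left h1)
  -- `s * s = b * z`
  have hz : (⟨b, RS.cls_X hb⟩ : ↥(XX D d x))⁻¹ * (s * s) ∈ pCore 2 ↥(XX D d x) := by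
    rw [← QuotientGroup.eq_one_iff]
    show red (XX D d x) (⟨b, RS.cls_X hb⟩⁻¹ * (s * s)) = 1
    rw [map_mul, map_inv, map_mul, ← hbs, inv_mul_cancel]
  set z : ↥(XX D d x) := (⟨b, RS.cls_X hb⟩ : ↥(XX D d x))⁻¹ * (s * s) with hzdef
  have hssz : (s : G) * s = b * z := by
    rw [hzdef]
    show (s : G) * s = b * (b⁻¹ * (s * s))
    group
  obtain ⟨R, r⟩ := exists_RS' q.h q.hO hc q.hd q.hx q.nc
  have hz2 : ∃ k : ℕ, (z : G) ^ 2 ^ k = 1 := by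
    obtain ⟨k, hk⟩ := (Lib.Cores.pCore_isPGroup (G := ↥(XX D d x)) 2) ⟨z, hz⟩
    refine ⟨k, ?_⟩
    have h1 := congrArg Subtype.val hk
    exact congrArg Subtype.val h1
  have hact := r.center_act z.2 (q.central hz) hz2
  refine RS.SzHyp.false (s := (s : G)) (b := b) ⟨r, s.2, hsc, hb, ?_⟩
  intro u hu
  rw [hssz]
  have e : (b * (z : G) * u * (b * (z : G))⁻¹)⁻¹ * (b * u * b⁻¹) =
      b * (u⁻¹ * (z * u * (z : G)⁻¹))⁻¹ * b⁻¹ := by
    simp only [mul_inv_rev, inv_inv, mul_assoc, inv_mul_cancel_left]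
  rw [e, r.C_conj (inv_mem (hact u hu)) (RS.cls_X hb)]
  exact inv_mem (hact u hu)

end HX

end Cfsg.Agent.H738
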