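import Cfsg.Agent.H738.Ident

/-!
# Odd transpositions: `⟨E_d, x⟩ = L₂(q)`, statement S5052
-/

set_option autoImplicit false

universe u

namespace Cfsg.Agent.H738

open Cfsg.Agent.H737

variable {G : Type u} [Group G] [Finite G] {D : Set G} {d x : G} {R : Subgroup G}

namespace HX

variable (q : HX D d x)
include q

/-- `E_d ∪ {1}` as a subgroup of `X`. -/
def root : Subgroup ↥(XX D d x) where
  carrier := {g | g = 1 ∨ (g : G) ∈ Cls D d}
  one_mem' := Or.inl rfl
  mul_mem' := by
    rintro a b (rfl | ha) (rfl | hb)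
    · left; simp
    · right; simpa using hb
    · right; simpa using ha
    · by_cases hab : a = b
      · left
        rw [hab]
        exact Subtype.ext (q.h.ot.sq b hb.1)
      · right
        exact mul_cls q.h q.hO q.hd q.hx q.nc ha hb (fun h => hab (Subtype.ext h))
  inv_mem' := by
    rintro a (rfl | ha)
    · left; simp
    · right
      show ((a : G))⁻¹ ∈ Cls D d
      rw [q.h.ot.inv ha.1]; exact ha

theorem mem_root {g : ↥(XX D d x)} : g ∈ q.root ↔ g = 1 ∨ (g : G) ∈ Cls D d := Iff.rfl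

/-- `X` is perfect. -/
theorem perfect : commutator ↥(XX D d x) = ⊤ := by
  obtain ⟨g, hg, hgx⟩ := q.exists_g
  set N := commutator ↥(XX D d x) with hN
  have hcomm : ∀ a b : ↥(XX D d x), a * b * a⁻¹ * b⁻¹ ∈ N := fun a b =>
    Subgroup.commutator_mem_commutator (Subgroup.mem_top a) (Subgroup.mem_top b)
  have hNn : N.Normal := by rw [hN]; infer_instance
  let f : ↥(XX D d x) →* ↥(XX D d x) ⧸ N := QuotientGroup.mk' N
  have hf : ∀ y, f y = 1 ↔ y ∈ N := fun y => QuotientGroup.eq_one_iff y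
  have hfc : ∀ a b, f (a * b) = f (b * a) := by
    intro a b
    have h1 := (hf _).2 (hcomm a b)
    have e : a * b * a⁻¹ * b⁻¹ = (a * b) * (b * a)⁻¹ := by group
    rw [e, map_mul, map_inv, mul_inv_eq_one] at h1
    exact h1
  have hdd : d ∈ Cls D d := ⟨q.hd, Eqv.refl _ _⟩
  -- `f a = f d` for `a` in the class
  have hcl : ∀ a (ha : a ∈ Cls D d), f ⟨a, RS.cls_X ha⟩ = f ⟨x, RS.x_X⟩ := by
    intro a ha
    have haX : a ∈ XX D d x := RS.cls_X ha
    obtain ⟨k, hk, hka⟩ := q.h.ot.exists_conj ha.1 q.hx (q.nc_cls ha)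
    have hkX : k ∈ XX D d x := by
      refine (Subgroup.closure_le _).2 ?_ hk
      rintro s (rfl | hs)
      · exact haX
      · rw [Set.mem_singleton_iff.1 hs]; exact RS.x_X
    have e : (⟨x, RS.x_X⟩ : ↥(XX D d x)) = ⟨k, hkX⟩ * ⟨a, haX⟩ * ⟨k, hkX⟩⁻¹ :=
      Subtype.ext hka.symm
    rw [e, hfc]
    congr 1
    group
  have hx1 : f ⟨x, RS.x_X⟩ = 1 := by
    obtain ⟨a, ha, had⟩ := q.exists_ne
    have hadC := mul_cls q.h q.hO q.hd q.hx q.nc ha hdd had
    have h1 := hcl _ hadC
    have e : (⟨a * d, RS.cls_X hadC⟩ : ↥(XX D d x)) = ⟨a, RS.cls_X ha⟩ * ⟨d, RS.cls_X hdd⟩ := rfl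
    rw [e, map_mul, hcl a ha, hcl d hdd] at h1
    exact mul_eq_left.1 h1
  rw [eq_top_iff]
  rintro y -
  have hy : y ∈ Subgroup.closure ({y : ↥(XX D d x) | (y : G) ∈ Cls D d ∪ {x}}) := by
    rw [closure_sub (S := Cls D d ∪ {x}) (Y := XX D d x)
      (T := {y : ↥(XX D d x) | (y : G) ∈ Cls D d ∪ {x}}) rfl (fun y hy => hy)]
    exact Subgroup.mem_top y
  refine (Subgroup.closure_le N).2 ?_ hy
  rintro ⟨z, hzX⟩ (hz | hz)
  · exact (hf _).1 ((hcl z hz).trans hx1)
  · have hz' : z = x := hz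
    have e : (⟨z, hzX⟩ : ↥(XX D d x)) = ⟨x, RS.x_X⟩ := Subtype.ext hz'
    rw [SetLike.mem_coe, e]
    exact (hf _).1 hx1

/-- The conclusion of S5052 for `X`. -/
theorem main (hc : IsConnectedSet (CommAdj D) D) :
    ∃ (F : Type) (_ : Field F) (_ : Fintype F), Fintype.card F = Nat.card q.root ∧
      Nonempty (↥(XX D d x) ≃* Matrix.ProjectiveSpecialLinearGroup (Fin 2) F) := by
  have hdd : d ∈ Cls D d := ⟨q.hd, Eqv.refl _ _⟩
  rcases q.isL2Sz with ⟨F, iF, iF', hF2, hF4, ⟨e⟩⟩ | hSz
  · have hA : ∀ a ∈ q.root, a * a = 1 := by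
      rintro a (rfl | ha)
      · simp
      · exact Subtype.ext (q.h.ot.sq _ ha.1)
    have hAZ : q.root ⊓ pCore 2 ↥(XX D d x) = ⊥ := by
      rw [eq_bot_iff]
      rintro a ⟨ha | ha, haZ⟩
      · exact Subgroup.mem_bot.2 ha
      · exact absurd haZ (q.not_mem ha)
    have hZ : pCore 2 ↥(XX D d x) ≤ Subgroup.center ↥(XX D d x) := by
      intro z hz
      rw [Subgroup.mem_center_iff]
      intro g
      exact Subtype.ext (q.central hz g g.2).symm
    obtain ⟨h1, h2⟩ := H803.l2_split (d := (⟨d, q.dX⟩ : ↥(XX D d x))) q.perfect hZ hF4 e q.root hA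
      hAZ (Or.inr hdd) (fun h => q.h.ot.ne d q.hd (congrArg Subtype.val h)) (by
        intro y hyy hy1 hyd
        obtain ⟨c, hc, hcy⟩ := q.lift_inv hyy hy1 hyd
        exact ⟨⟨c, RS.cls_X hc⟩, Or.inr hc, hcy⟩)
    exact ⟨F, iF, iF', h2, ⟨((QuotientGroup.quotientMulEquivOfEq h1).trans
      QuotientGroup.quotientBot).symm.trans e⟩⟩
  · exact (q.not_suzuki hc hSz).elim

theorem closure_coe : (Subgroup.closure (Cls D d) : Set G) = Cls D d ∪ {1} := by
  ext y
  constructor
  · intro hy
    rw [SetLike.mem_coe] at hy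
    induction hy using Subgroup.closure_induction with
    | mem y hy => exact Or.inl hy
    | one => exact Or.inr rfl
    | mul a b _ _ iha ihb =>
      rcases iha with ha | ha
      · rcases ihb with hb | hb
        · by_cases hab : a = b
          · right
            rw [hab]; exact q.h.ot.sq b hb.1
          · left
            exact mul_cls q.h q.hO q.hd q.hx q.nc ha hb hab
        · left
          rw [Set.mem_singleton_iff.1 hb, mul_one]; exact ha
      · rw [Set.mem_singleton_iff.1 ha, one_mul]; exact ihb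
    | inv a _ iha =>
      rcases iha with ha | ha
      · left
        rw [q.h.ot.inv ha.1]; exact ha
      · right
        rw [Set.mem_singleton_iff.1 ha]; simp
  · rintro (hy | hy)
    · exact Subgroup.subset_closure hy
    · rw [Set.mem_singleton_iff.1 hy]; exact one_mem _

theorem card_root : Nat.card q.root = Nat.card ↥(Subgroup.closure (Cls D d)) := by
  have hmem : ∀ y : G, y ∈ Subgroup.closure (Cls D d) ↔ y ∈ Cls D d ∨ y = 1 := by
    intro y
    rw [← SetLike.mem_coe, q.closure_coe]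
    exact Iff.rfl
  have e : q.root.map (XX D d x).subtype = Subgroup.closure (Cls D d) := by
    ext y
    rw [hmem]
    constructor
    · rintro ⟨z, hz | hz, rfl⟩
      · right; rw [hz]; rfl
      · left; exact hz
    · rintro (hy | hy)
      · exact ⟨⟨y, RS.cls_X hy⟩, Or.inr hy, rfl⟩
      · exact ⟨1, one_mem _, by rw [hy]; rfl⟩
  rw [← e]
  exact (Nat.card_congr (Subgroup.equivMapOfInjective _ _ (XX D d x).subtype_injective).toEquiv)

end HX

/-- Not all members of `D` commute with `d`, if the centre is trivial. -/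
theorem exists_noncomm (h : Hyp D) (hZ : Subgroup.center G = ⊥) (hd : d ∈ D) :
    ∃ x ∈ D, ¬ Commute d x := by
  by_contra hcon
  push Not at hcon
  have h1 : d ∈ Subgroup.center G := by
    rw [Subgroup.mem_center_iff]
    intro g
    have hg : g ∈ Subgroup.closure D := by rw [h.gen]; exact Subgroup.mem_top g
    exact (commute_closure hcon hg).symm
  rw [hZ, Subgroup.mem_bot] at h1
  exact h.ot.ne d hd h1

theorem hyp_of (hD : IsOddTranspositionSet D) (hcl : IsRootInvolutionClass D)
    (hDD : (D ∩ commutingProducts D).Nonempty) : Hyp D where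
  ot := ot_of hD
  gen := hD.1.generates
  cls := fun y hy z hz => by
    obtain ⟨g, hg⟩ := hcl.2.2 y hy z hz
    exact ⟨g, hg.symm⟩
  line := line_of hcl hDD

end Cfsg.Agent.H738
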