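import Cfsg.Agent.H738.RS

/-!
# Odd transpositions: the line lemma

* `RS.line`: in the situation of `RS`, there are `c, c2 ∈ D` commuting with `d`, not equivalent to
  `d`, such that every member commuting with both commutes with `d`.
* `exists_far`: for noncommuting `d, x` some `f ∈ D` commutes with `d`, is not equivalent to `d` and
  does not commute with `x`.
* `exists_RS'`: existence of `R` with `RS D d x R`.
-/

set_option autoImplicit false

universe u

namespace Cfsg.Agent.H738

open Cfsg.Agent.H737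

variable {G : Type u} [Group G] {D : Set G} {d x : G} {R : Subgroup G}

theorem conj_mem_of_closure {S T : Set G} (hT : ∀ t ∈ T, t * t = 1)
    (h : ∀ t ∈ T, ∀ s ∈ S, t * s * t ∈ S) {g : G} (hg : g ∈ Subgroup.closure T) :
    ∀ s ∈ S, g * s * g⁻¹ ∈ S := by
  have key : ∀ g ∈ Subgroup.closure T, ∀ a ∈ S, g * a * g⁻¹ ∈ S ∧ g⁻¹ * a * g ∈ S := by
    intro g hg
    induction hg using Subgroup.closure_induction with
    | mem b hb =>
      intro a ha
      rw [inv_of_sq (hT b hb)]
      exact ⟨h b hb a ha, h b hb a ha⟩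
    | one => intro a ha; simpa using ha
    | mul x y _ _ hx hy =>
      intro a ha
      refine ⟨?_, ?_⟩
      · have := (hx _ (hy a ha).1).1
        have e : x * (y * a * y⁻¹) * x⁻¹ = x * y * a * (x * y)⁻¹ := by group
        rwa [e] at this
      · have := (hy _ (hx a ha).2).2
        have e : y⁻¹ * (x⁻¹ * a * x) * y = (x * y)⁻¹ * a * (x * y) := by group
        rwa [e] at this
    | inv x _ hx =>
      intro a ha
      rw [inv_inv]
      exact ⟨(hx a ha).2, (hx a ha).1⟩
  exact fun s hs => (key g hg s hs).1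

namespace RS

variable [Finite G]

theorem not_le_K (r : RS D d x R) (h : ∀ u ∈ R, u ∈ K d R) : False := by
  apply r.ncen
  obtain ⟨g, hg, hgd⟩ := r.exists_g
  intro k hk u hu
  have h1 : u ∈ C D d x R := by
    rw [r.mem_C_iff]
    refine ⟨h u hu, ?_⟩
    have h2 : g⁻¹ * u * g ∈ R := by
      have := r.nrm g⁻¹ (inv_mem hg) u hu
      rwa [inv_inv] at this
    have h3 := (mem_K.1 (h _ h2)).2.eq
    rw [← hgd]
    show g * d * g⁻¹ * u = u * (g * d * g⁻¹)
    calc g * d * g⁻¹ * u = g * (d * (g⁻¹ * u * g)) * g⁻¹ := by group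
      _ = g * (g⁻¹ * u * g * d) * g⁻¹ := by rw [h3]
      _ = _ := by group
  exact (mem_C.1 h1).2 k hk

theorem exists_not_K (r : RS D d x R) : ∃ u ∈ K x R, u ∉ K d R := by
  by_contra hcon
  push Not at hcon
  apply r.not_le_K
  intro w hw
  obtain ⟨l, hl, k, hk, rfl⟩ := r.exists_decomp hw
  exact mul_mem (hcon l hl) hk

/-- `br a (uv) = br a u · u (br a v) u⁻¹`. -/
theorem br_mul {a u v : G} (haa : a * a = 1) :
    br a (u * v) = br a u * (u * br a v * u⁻¹) := by
  unfold br
  calc a * (u * v * a * (u * v)⁻¹) = a * (u * (v * a * v⁻¹) * u⁻¹) := by group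
    _ = a * (u * (a * a) * (v * a * v⁻¹) * u⁻¹) := by rw [haa, mul_one]
    _ = _ := by group

/-- **The line lemma.** -/
theorem line (r : RS D d x R) : ∃ c ∈ D, ∃ c2 ∈ D, Commute c d ∧ Commute c2 d ∧ c ∉ Cls D d ∧
    c2 ∉ Cls D d ∧ ∀ y ∈ D, Commute y c → Commute y c2 → Commute y d := by
  obtain ⟨a, ha, had⟩ := r.exists_ne d
  obtain ⟨u, hu, huK⟩ := r.exists_not_K
  have hdd := r.dd
  have huR := (mem_K.1 hu).1
  have hdsq := r.h.ot.sq d r.hd
  -- `v`
  obtain ⟨w, hw, c, hc, hwc⟩ := r.exists_br hdd (r.br_K ha huR)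
  obtain ⟨v, hv, k, hk, rfl⟩ := r.exists_decomp hw
  have hvR := (mem_K.1 hv).1
  have hbrv : br a u = br d v * c := by
    rw [hwc]
    congr 1
    unfold br
    have h1 := (r.mem_K_iff hdd (mem_K.1 hk).1).1 hk
    calc d * (v * k * d * (v * k)⁻¹) = d * (v * (k * d * k⁻¹) * v⁻¹) := by group
      _ = _ := by rw [h1]
  have huv : Commute u v := r.Kx_comm hu hv
  have huvR : u * v ∈ R := mul_mem huR hvR
  -- `u` commutes with `br a u`
  have hself : ∀ (b : G), b ∈ Cls D d → ∀ t : G, t ∈ K x R → Commute t (br b t) := by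
    intro b hb t ht
    have htR := (mem_K.1 ht).1
    have h1 := (mem_C.1 (r.Kx_sq ht)).2 b (cls_X hb)
    have h2 := (r.comm_conj_cls hb hb htR).eq
    have h3 : t * (t * b * t⁻¹) * t⁻¹ = b := by
      calc t * (t * b * t⁻¹) * t⁻¹ = (t * t * b) * (t * t)⁻¹ := by group
        _ = (b * (t * t)) * (t * t)⁻¹ := by rw [h1.eq]
        _ = b := by group
    rw [← conj_eq_iff]
    unfold br
    calc t * (b * (t * b * t⁻¹)) * t⁻¹ = (t * b * t⁻¹) * (t * (t * b * t⁻¹) * t⁻¹) := by group
      _ = (t * b * t⁻¹) * b := by rw [h3]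
      _ = b * (t * b * t⁻¹) := h2
  have hubv : Commute u (br d v) := by
    have h1 : br d v = br a u * c⁻¹ := by rw [hbrv]; group
    rw [h1]
    exact (hself a ha u hu).mul_right (r.central hc huR).inv_right
  -- `v` commutes with `br d u`
  have hvbu : Commute v (br d u) := by
    have h1 : br d (u * v) = br d u * br d v := by
      rw [br_mul hdsq, conj_eq_iff.2 hubv]
    have h2 : br d (v * u) = br d v * (v * br d u * v⁻¹) := br_mul hdsq
    rw [← huv.eq, h1, (r.br_br hdd hdd huR hvR).eq] at h2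
    exact conj_eq_iff.1 (mul_left_cancel h2).symm
  have hcD := r.conjD hdd v
  have hc2D := r.conjD hdd (u * v)
  have hprod : (v * d * v⁻¹) * (u * v * d * (u * v)⁻¹) = d * (u * d * u⁻¹) := by
    calc (v * d * v⁻¹) * (u * v * d * (u * v)⁻¹) = (v * d * v⁻¹) * (v * u * d * (v * u)⁻¹) := by
          rw [huv.eq]
      _ = v * br d u * v⁻¹ := by unfold br; group
      _ = br d u := conj_eq_iff.2 hvbu
  refine ⟨_, hcD, _, hc2D, r.comm_conj_cls hdd hdd hvR, r.comm_conj_cls hdd hdd huvR, ?_, ?_, ?_⟩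
  · intro h1
    have h2 := r.conj_cls_self hdd h1 hvR
    have h3 : br d v = 1 := br_eq_one h2 hdsq
    rw [h3, one_mul] at hbrv
    exact huK (r.br_mem_C ha huR (by rw [hbrv]; exact hc))
  · intro h1
    have h2 := r.conj_cls_self hdd h1 huvR
    have h3 : br d (u * v) = 1 := br_eq_one h2 hdsq
    rw [br_mul hdsq, conj_eq_iff.2 hubv] at h3
    have h4 : br d v = br d u := by
      have h5 := r.br_sq hdd huR
      calc br d v = (br d u * br d u) * br d v := by rw [h5, one_mul]
        _ = br d u * (br d u * br d v) := by group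
        _ = br d u := by rw [h3, mul_one]
    have hadC := r.mul a ha d hdd had
    apply huK
    apply r.br_mem_C hadC huR
    have h5 : br (a * d) u = br a u * br d u := by
      have h6 := (r.comm_conj_cls ha hdd huR).eq
      unfold br
      calc a * d * (u * (a * d) * u⁻¹) = a * (d * (u * a * u⁻¹)) * (u * d * u⁻¹) := by group
        _ = a * ((u * a * u⁻¹) * d) * (u * d * u⁻¹) := by rw [h6]
        _ = _ := by group
    rw [h5, ← h4, hbrv]
    have h7 := (r.central hc (r.br_mem hdd hvR)).eq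
    have h8 : br d v * c * br d v = c := by
      calc br d v * c * br d v = (br d v * c) * br d v := rfl
        _ = c * (br d v * br d v) := by rw [h7]; group
        _ = c := by rw [r.br_sq hdd hvR, mul_one]
    rw [h8]; exact hc
  · intro y hy h1 h2
    have h3 : Commute y (d * (u * d * u⁻¹)) := by
      rw [← hprod]; exact h1.mul_right h2
    refine r.h.ot.commute_of_commute_mul r.hd (r.conjD hdd u) (r.comm_conj_cls hdd hdd huR).symm ?_
      hy h3
    intro h4
    exact huK ((r.mem_K_iff hdd huR).2 h4.symm)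

end RS

/-- A member `n` commuting with `d`, not equivalent to `d`, and a member `y` noncommuting with
both. -/
theorem exists_good_pair (h : Hyp D) (hc : IsConnectedSet (CommAdj D) D) (hd : d ∈ D) (hx : x ∈ D)
    (hdx : ¬ Commute d x) : ∃ n ∈ D, ∃ y ∈ D, Commute n d ∧ n ∉ Cls D d ∧ ¬ Commute d y ∧
      ¬ Commute n y := by
  by_contra hcon
  push Not at hcon
  set N : Set G := {n | n ∈ D ∧ Commute n d ∧ n ∉ Cls D d} with hN
  have h1 : ∀ n ∈ N, ∀ y ∈ D, y ∉ N → Commute n y := by
    intro n hn y hy hyN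
    by_cases hyd : Commute d y
    · by_cases hyC : y ∈ Cls D d
      · exact (hyC.2 n hn.1).1 hn.2.1
      · exact absurd ⟨hy, hyd.symm, hyC⟩ hyN
    · exact hcon n hn.1 y hy hn.2.1 hn.2.2 hyd
  have h2 : ∀ g ∈ D, ∀ n ∈ N, g * n * g ∈ N := by
    intro g hg n hn
    have hfix : Commute n g → g * n * g = n := by
      intro h3
      rw [← h3.eq, mul_assoc, h.ot.sq g hg, mul_one]
    by_contra hcon2
    have hgD := h.ot.conj n hn.1 g hg
    by_cases hgN : g ∈ N
    · have h3 := h1 g hgN _ hgD hcon2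
      have h4 : Commute n g := by
        have h5 : g * (g * n * g) = g * n * g * g := h3
        have h6 : n * g = g * n := by
          calc n * g = (g * g) * n * g := by rw [h.ot.sq g hg, one_mul]
            _ = g * (g * n * g) := by group
            _ = g * n * (g * g) := by rw [h5]; group
            _ = g * n := by rw [h.ot.sq g hg, mul_one]
        exact h6
      rw [hfix h4] at hcon2
      exact hcon2 hn
    · rw [hfix (h1 n hn g hg hgN)] at hcon2
      exact hcon2 hn
  have h3 : ∀ n ∈ D, Commute n d → n ∈ Cls D d := by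
    intro n hn hnd
    by_contra hnC
    obtain ⟨g, hg⟩ := h.cls n hn d hd
    have h4 := conj_mem_of_closure (S := N) (T := D) h.ot.sq h2 (g := g)
      (by rw [h.gen]; exact Subgroup.mem_top g) n ⟨hn, hnd, hnC⟩
    rw [hg] at h4
    exact h4.2.2 ⟨hd, Eqv.refl _ _⟩
  have h4 := hc d hd x hx
  have h5 : ∀ y, Relation.ReflTransGen (CommAdj D) d y → y ∈ Cls D d := by
    intro y hy
    induction hy with
    | refl => exact ⟨hd, Eqv.refl _ _⟩
    | tail _ h6 ih =>
      rename_i y z _
      obtain ⟨hy, hz, -, hyz⟩ := h6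
      exact h3 z hz ((ih.2 z hz).2 (show Commute y z from hyz).symm)
  exact hdx ((h.cls_comm hd) d ⟨hd, Eqv.refl _ _⟩ x (h5 x h4))

variable [Finite G]

/-- If `n` commutes with `d`, is not equivalent to `d`, and `y` commutes with neither of them, then
there is `R` with `RS D d y R`. -/
theorem exists_RS_of_pair (h : Hyp D) (hO : pCore 2 G = ⊥) {n y : G} (hd : d ∈ D) (hn : n ∈ D)
    (hy : y ∈ D) (hnd : Commute n d) (hnC : n ∉ Cls D d) (hdy : ¬ Commute d y)
    (hny : ¬ Commute n y) : ∃ R, RS D d y R := by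
  obtain ⟨Q, hQ, hQn, c, hc, e, he, hce⟩ := common_fibre h hy hd hn (fun h1 => hdy h1.symm)
    (fun h1 => hny h1.symm) hnd
  have hle : XX D d y ≤ Subgroup.closure (Cls D d ∪ Cls D n ∪ {y}) := by
    apply Subgroup.closure_mono
    rintro z (hz | hz)
    · exact Or.inl (Or.inl hz)
    · exact Or.inr hz
  have hmul : ∀ a ∈ Cls D d, ∀ b ∈ Cls D d, a ≠ b → a * b ∈ Cls D d := fun a ha b hb hab =>
    mul_cls h hO hd hy hdy ha hb hab
  have hncen : ¬ ∀ g ∈ XX D d y, ∀ u ∈ Q, Commute g u := by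
    intro hcen
    have h1 : Commute y (c * e) := hcen y RS.x_X _ hce
    have hne : c ≠ e := by
      rintro rfl
      apply hnC
      exact ⟨hn, hc.2.trans he.2.symm⟩
    have hced : Commute c e := by
      have h2 : Commute c d := (h.cls_comm hd c hc d ⟨hd, Eqv.refl _ _⟩)
      have h3 : Commute n c := (hc.2 n hn).1 hnd
      exact (he.2 c hc.1).1 h3.symm
    have h2 := h.ot.commute_of_commute_mul hc.1 he.1 hced hne hy h1
    exact hdy ((hc.2 y hy).2 h2).symm
  obtain ⟨R, -, hR⟩ := exists_RS h hd hy hdy hmul hQ (fun g hg => hQn g (hle hg)) hncen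
  exact ⟨R, hR⟩

/-- For noncommuting `d, x` some `f ∈ D` commutes with `d`, is not equivalent to `d` and does not
commute with `x`. -/
theorem exists_far (h : Hyp D) (hO : pCore 2 G = ⊥) (hc : IsConnectedSet (CommAdj D) D)
    (hd : d ∈ D) (hx : x ∈ D) (hdx : ¬ Commute d x) :
    ∃ f ∈ D, Commute f d ∧ f ∉ Cls D d ∧ ¬ Commute f x := by
  obtain ⟨n, hn, y, hy, hnd, hnC, hdy, hny⟩ := exists_good_pair h hc hd hx hdx
  obtain ⟨R, r⟩ := exists_RS_of_pair h hO hd hn hy hnd hnC hdy hny
  obtain ⟨c, hcD, c2, hc2D, h1, h2, h3, h4, h5⟩ := r.line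
  by_cases h6 : Commute c x
  · by_cases h7 : Commute c2 x
    · exact absurd (h5 x hx h6.symm h7.symm).symm hdx
    · exact ⟨c2, hc2D, h2, h4, h7⟩
  · exact ⟨c, hcD, h1, h3, h6⟩

theorem exists_RS' (h : Hyp D) (hO : pCore 2 G = ⊥) (hc : IsConnectedSet (CommAdj D) D)
    (hd : d ∈ D) (hx : x ∈ D) (hdx : ¬ Commute d x) : ∃ R, RS D d x R := by
  obtain ⟨f, hf, h1, h2, h3⟩ := exists_far h hO hc hd hx hdx
  exact exists_RS_of_pair h hO hd hf hx h1 h2 hdx h3

end Cfsg.Agent.H738
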