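import Cfsg.Agent.H738.ShearId

/-!
# Groups of rank one generated by two elementary abelian 2-groups

`RankOne A B`: `A`, `B` elementary abelian 2-subgroups of `Y = ⟨A, B⟩` with `A ∩ B = 1`, products of
nontrivial elements of `A` and `B` of odd order, such that for every `b ∈ B#` there is an `a ∈ A#` with
`a b a = b a b` an element interchanging `A` and `B`.  Then `Y ≅ L₂(q)`, `q = |A| ≥ 4` (`RankOne.ident`).
-/

set_option autoImplicit false

universe u

namespace Cfsg.Agent.H738.Shear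

open Cfsg.Agent.H731

structure RankOne {Y : Type*} [Group Y] (A B : Subgroup Y) : Prop where
  card : 4 ≤ Nat.card A
  sqA : ∀ a ∈ A, a * a = 1
  sqB : ∀ b ∈ B, b * b = 1
  inf : A ⊓ B = ⊥
  odd : ∀ a ∈ A, a ≠ 1 → ∀ b ∈ B, b ≠ 1 → Odd (orderOf (a * b))
  gen : A ⊔ B = ⊤
  exB : ∃ b ∈ B, b ≠ 1
  swap : ∀ b ∈ B, b ≠ 1 → ∃ a ∈ A, a ≠ 1 ∧ a * b * a = b * a * b ∧
    conjBy A (a * b * a) = B ∧ conjBy B (a * b * a) = A

namespace RankOne

variable {Y : Type*} [Group Y] {A B : Subgroup Y} (r : RankOne A B)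
include r

theorem invA {a : Y} (ha : a ∈ A) : a⁻¹ = a := inv_eq_of_mul_eq_one_left (r.sqA a ha)

theorem invB {b : Y} (hb : b ∈ B) : b⁻¹ = b := inv_eq_of_mul_eq_one_left (r.sqB b hb)

theorem commA {a b : Y} (ha : a ∈ A) (hb : b ∈ A) : Commute a b := by
  have h1 := r.sqA (a * b) (mul_mem ha hb)
  show a * b = b * a
  calc a * b = a * b * (a * b) * (b⁻¹ * a⁻¹) := by group
    _ = b * a := by rw [h1, r.invA ha, r.invA hb, one_mul]

theorem eq_one {a : Y} (ha : a ∈ A) (hb : a ∈ B) : a = 1 := by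
  have : a ∈ A ⊓ B := ⟨ha, hb⟩
  rw [r.inf] at this
  exact this

theorem A_ne_B : A ≠ B := by
  rintro h
  have h1 := r.inf
  rw [← h, inf_idem] at h1
  have h2 := r.card
  rw [h1, Subgroup.card_bot] at h2
  omega

/-- Nontrivial elements of `A` do not normalise `B`. -/
theorem not_nrm {a b : Y} (ha : a ∈ A) (hb : b ∈ B) (hb1 : b ≠ 1) (hab : a * b * a⁻¹ ∈ B) :
    a = 1 := by
  by_contra ha1
  have hodd := r.odd a ha ha1 b hb hb1
  have h1 : (a * b) * (a * b) ∈ B := by
    have e : (a * b) * (a * b) = (a * b * a⁻¹) * (a * a) * b := by group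
    rw [e, r.sqA a ha, mul_one]
    exact mul_mem hab hb
  have h3 := r.sqB _ h1
  have h2 : (a * b) ^ (2 ^ 2) = 1 := by
    have e1 : (a * b) ^ (2 ^ 2) = ((a * b) ^ 2) ^ 2 := by rw [← pow_mul]; rfl
    rw [e1, pow_two (a * b), pow_two]
    exact h3
  have h4 : orderOf (a * b) = 1 := by
    have h5 : orderOf (a * b) ∣ 2 ^ 2 := orderOf_dvd_of_pow_eq_one h2
    have h6 : Nat.Coprime (orderOf (a * b)) (2 ^ 2) :=
      Nat.Coprime.pow_right 2 (Nat.coprime_two_right.2 hodd)
    exact Nat.Coprime.eq_one_of_dvd h6 h5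
  rw [orderOf_eq_one_iff] at h4
  apply ha1
  apply r.eq_one ha
  have : a = b := by
    calc a = a * (b * b) := by rw [r.sqB b hb, mul_one]
      _ = (a * b) * b := by group
      _ = b := by rw [h4, one_mul]
  rw [this]; exact hb

theorem conj_eq {a : Y} (ha : a ∈ A) (h : conjBy B a = B) : a = 1 := by
  obtain ⟨b, hb, hb1⟩ := r.exB
  refine r.not_nrm ha hb hb1 ?_
  have h1 : a * b * a⁻¹ ∈ conjBy B a := conj_mem_conjBy hb a
  rwa [h] at h1

theorem conjBy_self {a : Y} (ha : a ∈ A) : conjBy A a = A := by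
  ext x
  rw [mem_conjBy]
  constructor
  · intro h1
    have h2 := mul_mem (mul_mem ha h1) (inv_mem ha)
    have e : a * (a⁻¹ * x * a) * a⁻¹ = x := by group
    rwa [e] at h2
  · intro h1
    exact mul_mem (mul_mem (inv_mem ha) h1) ha

/-- `A` and the conjugates of `B` under `A`. -/
def _root_.Cfsg.Agent.H738.Shear.Pt {Y : Type*} [Group Y] (A B : Subgroup Y) (C : Subgroup Y) :
    Prop := C = A ∨ ∃ a ∈ A, C = conjBy B a

theorem pt_A {a : Y} (ha : a ∈ A) {C : Subgroup Y} (hC : Pt A B C) : Pt A B (conjBy C a) := by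
  rcases hC with rfl | ⟨c, hc, rfl⟩
  · left; exact r.conjBy_self ha
  · right; exact ⟨a * c, mul_mem ha hc, conjBy_conjBy B a c⟩

/-- For `b ∈ B#`: `b = a w a` with `a ∈ A` and `w` an involution interchanging `A` and `B`. -/
theorem decomp {b : Y} (hb : b ∈ B) (hb1 : b ≠ 1) : ∃ a ∈ A, ∃ w : Y, b = a * w * a ∧ w * w = 1 ∧
    conjBy A w = B ∧ conjBy B w = A := by
  obtain ⟨a, ha, ha1, hw, h1, h2⟩ := r.swap b hb hb1
  have haa := r.sqA a ha
  have hbb := r.sqB b hb
  refine ⟨a, ha, a * b * a, ?_, ?_, h1, h2⟩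
  · calc b = (a * a) * b * (a * a) := by rw [haa]; group
      _ = a * (a * b * a) * a := by group
  · calc a * b * a * (a * b * a) = a * b * (a * a) * b * a := by group
      _ = a * (b * b) * a := by rw [haa]; group
      _ = 1 := by rw [hbb, mul_one, haa]

theorem pt_w {w : Y} (h1 : conjBy A w = B) (h2 : conjBy B w = A) {C : Subgroup Y}
    (hC : Pt A B C) : Pt A B (conjBy C w) := by
  rcases hC with rfl | ⟨c, hc, rfl⟩
  · right; exact ⟨1, one_mem _, by rw [h1, conjBy_one]⟩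
  · by_cases hc1 : c = 1
    · left; rw [hc1, conjBy_one]; exact h2
    · -- `w c w⁻¹ ∈ B#`
      set b : Y := w * c * w⁻¹ with hb
      have hbB : b ∈ B := by rw [← h1]; exact conj_mem_conjBy hc w
      have hb1 : b ≠ 1 := by
        intro h
        apply hc1
        calc c = w⁻¹ * b * w := by rw [hb]; group
          _ = 1 := by rw [h]; group
      have e1 : conjBy (conjBy B c) w = conjBy A b := by
        rw [conjBy_conjBy, ← h2, conjBy_conjBy]
        congr 1
        rw [hb]; group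
      rw [e1]
      obtain ⟨a, ha, w', hbw, -, h3, h4⟩ := r.decomp hbB hb1
      rw [hbw, mul_assoc, ← conjBy_conjBy, ← conjBy_conjBy, r.conjBy_self ha, h3]
      exact Or.inr ⟨a, ha, rfl⟩

theorem pt_conj (y : Y) {C : Subgroup Y} (hC : Pt A B C) : Pt A B (conjBy C y) := by
  have hy : y ∈ A ⊔ B := by rw [r.gen]; exact Subgroup.mem_top y
  rw [Subgroup.sup_eq_closure] at hy
  have hinv : ∀ z ∈ (A : Set Y) ∪ (B : Set Y), z⁻¹ = z := by
    rintro z (hz | hz)
    · exact r.invA hz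
    · exact r.invB hz
  have hgen : ∀ z ∈ (A : Set Y) ∪ (B : Set Y), ∀ C : Subgroup Y, Pt A B C → Pt A B (conjBy C z) := by
    rintro z (hz | hz) C hC
    · exact r.pt_A hz hC
    · by_cases hz1 : z = 1
      · rw [hz1, conjBy_one]; exact hC
      · obtain ⟨a, ha, w, hbw, -, h3, h4⟩ := r.decomp hz hz1
        rw [hbw, mul_assoc, ← conjBy_conjBy, ← conjBy_conjBy]
        exact r.pt_A ha (r.pt_w h3 h4 (r.pt_A ha hC))
  induction hy using Subgroup.closure_induction'' generalizing C with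
  | mem x hx => exact hgen x hx C hC
  | inv_mem x hx => rw [hinv x hx]; exact hgen x hx C hC
  | one => rw [conjBy_one]; exact hC
  | mul x y _ _ ihx ihy => rw [← conjBy_conjBy]; exact ihx (ihy hC)

/-- Every conjugate of `A` is `A` or conjugate to `B` under `A`. -/
theorem pt (y : Y) : conjBy A y = A ∨ ∃ a ∈ A, conjBy A y = conjBy B a :=
  r.pt_conj y (Or.inl rfl)

theorem exists_w : ∃ w : Y, conjBy A w = B ∧ conjBy B w = A := by
  obtain ⟨b, hb, hb1⟩ := r.exB
  obtain ⟨a, ha, w, -, -, h1, h2⟩ := r.decomp hb hb1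
  exact ⟨w, h1, h2⟩

theorem mem_nrm {g : Y} : g ∈ Subgroup.normalizer (A : Set Y) ↔ conjBy A g = A := by
  rw [Subgroup.mem_normalizer_iff]
  constructor
  · intro h
    ext x
    rw [mem_conjBy]
    have h1 := h (g⁻¹ * x * g)
    have e : g * (g⁻¹ * x * g) * g⁻¹ = x := by group
    rw [e] at h1
    exact h1
  · intro h x
    constructor
    · intro hx
      have := conj_mem_conjBy hx g
      rw [h] at this
      exact this
    · intro hx
      have hx' : g * x * g⁻¹ ∈ conjBy A g := by rw [h]; exact hx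
      rw [mem_conjBy] at hx'
      have e : g⁻¹ * (g * x * g⁻¹) * g = x := by group
      rwa [e] at hx'

theorem smul_eq_iff {g : Y} : g • ((1 : Y) : Y ⧸ Subgroup.normalizer (A : Set Y)) = (1 : Y) ↔
    conjBy A g = A := by
  rw [MulAction.Quotient.smul_coe, smul_eq_mul, mul_one, QuotientGroup.eq, mul_one, inv_mem_iff,
    r.mem_nrm]

/-- The setup of `ShearId`. -/
theorem setup [Finite Y] :
    Setup A ((1 : Y) : Y ⧸ Subgroup.normalizer (A : Set Y)) := by
  have hne : ∀ g : Y, g • ((1 : Y) : Y ⧸ Subgroup.normalizer (A : Set Y)) ≠ (1 : Y) →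
      ∃ a ∈ A, conjBy A g = conjBy B a := by
    intro g hg
    rw [Ne, r.smul_eq_iff] at hg
    exact (r.pt g).resolve_left hg
  have hcoe : ∀ g : Y, ((g : Y) : Y ⧸ Subgroup.normalizer (A : Set Y)) = g • ((1 : Y) : Y ⧸ Subgroup.normalizer (A : Set Y)) := by
    intro g
    rw [MulAction.Quotient.smul_coe, smul_eq_mul, mul_one]
  refine ⟨r.card, r.sqA, ?_, ?_, ?_, ?_, ?_, ?_, ?_⟩
  · intro a ha
    rw [r.smul_eq_iff]; exact r.conjBy_self ha
  · intro ω ω' hω hω'
    induction ω using QuotientGroup.induction_on with | H g => ?_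
    induction ω' using QuotientGroup.induction_on with | H g' => ?_
    rw [hcoe g] at hω
    rw [hcoe g'] at hω'
    obtain ⟨a, ha, h1⟩ := hne g hω
    obtain ⟨a', ha', h1'⟩ := hne g' hω'
    refine ⟨a' * a⁻¹, mul_mem ha' (inv_mem ha), ?_⟩
    rw [MulAction.Quotient.smul_coe, smul_eq_mul, QuotientGroup.eq, r.mem_nrm, ← conjBy_conjBy, h1',
      conjBy_conjBy]
    have e : (a' * a⁻¹ * g)⁻¹ * a' = g⁻¹ * a := by group
    rw [e, ← conjBy_conjBy, ← h1, conjBy_conjBy, inv_mul_cancel, conjBy_one]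
  · intro a ha ω hω haω
    induction ω using QuotientGroup.induction_on with | H g => ?_
    rw [hcoe g] at hω
    obtain ⟨c, hc, h1⟩ := hne g hω
    rw [MulAction.Quotient.smul_coe, smul_eq_mul, QuotientGroup.eq, r.mem_nrm] at haω
    -- `a` normalises `g A g⁻¹ = c B c⁻¹`
    have h2 : conjBy (conjBy A g) a = conjBy A g := by
      rw [conjBy_conjBy]
      have h3 := congrArg (fun C => conjBy C (a * g)) haω
      simp only [conjBy_conjBy] at h3
      have e : a * g * ((a * g)⁻¹ * g) = g := by group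
      rw [e] at h3
      exact h3.symm
    rw [h1, conjBy_conjBy] at h2
    have h3 := congrArg (fun C => conjBy C c⁻¹) h2
    simp only [conjBy_conjBy] at h3
    have e : c⁻¹ * (a * c) = a := by
      rw [(r.commA ha hc).eq]; group
    rw [e, inv_mul_cancel, conjBy_one] at h3
    exact r.conj_eq ha h3
  · intro g hg a ha
    rw [r.smul_eq_iff] at hg
    rw [← hg]; exact conj_mem_conjBy ha g
  · intro a ha ha1 b hb hb1 g hg
    obtain ⟨c, hc, h1⟩ := hne g hg
    have h2 : g * b * g⁻¹ ∈ conjBy B c := by rw [← h1]; exact conj_mem_conjBy hb g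
    rw [mem_conjBy] at h2
    set b' : Y := c⁻¹ * (g * b * g⁻¹) * c with hb'
    have hb'1 : b' ≠ 1 := by
      intro h3
      apply hb1
      calc b = g⁻¹ * (c * b' * c⁻¹) * g := by rw [hb']; group
        _ = 1 := by rw [h3]; group
    have h3 := r.odd a ha ha1 b' h2 hb'1
    have e : a * (g * b * g⁻¹) = c * (a * b') * c⁻¹ := by
      rw [hb']
      calc a * (g * b * g⁻¹) = c * (c⁻¹ * a * c) * (c⁻¹ * (g * b * g⁻¹) * c) * c⁻¹ := by group
        _ = c * a * (c⁻¹ * (g * b * g⁻¹) * c) * c⁻¹ := by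
          have : c⁻¹ * a * c = a := by
            rw [mul_assoc, (r.commA ha hc).eq]; group
          rw [this]
        _ = _ := by group
    rw [e, ← MulAut.conj_apply, MulEquiv.orderOf_eq]
    exact h3
  · obtain ⟨w, h1, h2⟩ := r.exists_w
    refine ⟨w, ?_, ?_⟩
    · rw [Ne, r.smul_eq_iff, h1]
      exact fun h => r.A_ne_B h.symm
    · rw [h1]; exact r.gen
  · obtain ⟨b, hb, hb1⟩ := r.exB
    obtain ⟨a, ha, ha1, hw, -, -⟩ := r.swap b hb hb1
    have hf : Fact (Nat.Prime 3) := ⟨Nat.prime_three⟩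
    have h1 : orderOf (a * b) = 3 := by
      refine orderOf_eq_prime ?_ ?_
      · calc (a * b) ^ 3 = a * b * (a * b) * (a * b) := by rw [pow_succ, pow_two]
          _ = (a * b * a) * (b * a * b) := by group
          _ = (a * b * a) * (a * b * a) := by rw [hw]
          _ = a * b * (a * a) * b * a := by group
          _ = a * (b * b) * a := by rw [r.sqA a ha]; group
          _ = 1 := by rw [r.sqB b hb, mul_one, r.sqA a ha]
      · intro h
        apply ha1
        apply r.eq_one ha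
        have : a = b := by
          calc a = a * (b * b) := by rw [r.sqB b hb, mul_one]
            _ = (a * b) * b := by group
            _ = b := by rw [h, one_mul]
        rw [this]; exact hb
    rw [← h1]; exact orderOf_dvd_natCard _

end RankOne

/-! ### `O₂` is central -/

namespace Setup

variable {X : Type*} {Ω : Type*} [Group X] [Finite X] [MulAction X Ω] {A : Subgroup X} {p : Ω}
variable (s : Setup A p)
include s

theorem core_fix {u : X} (hu : u ∈ pCore 2 X) (g : X) : u • (g • p) = g • p := by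
  have hf : Fact (Nat.Prime 2) := ⟨Nat.prime_two⟩
  have key : ∀ u ∈ pCore 2 X, u • p = p := by
    intro u hu
    by_contra hne
    obtain ⟨a, ha, ha1⟩ := s.exists_ne_one
    have h1 := s.odd a ha ha1 a ha ha1 u hne
    have h2 : a * (u * a * u⁻¹) ∈ pCore 2 X := by
      have h3 : a * u * a⁻¹ ∈ pCore 2 X := Subgroup.Normal.conj_mem inferInstance u hu a
      have e : a * (u * a * u⁻¹) = (a * u * a⁻¹) * u⁻¹ := by
        rw [s.inv ha]; group
      rw [e]; exact mul_mem h3 (inv_mem hu)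
    have h4 : a * (u * a * u⁻¹) = 1 := by
      obtain ⟨k, hk⟩ := (Lib.Cores.pCore_isPGroup (G := X) 2) ⟨_, h2⟩
      have h5 : (a * (u * a * u⁻¹)) ^ 2 ^ k = 1 := congrArg Subtype.val hk
      have h6 : orderOf (a * (u * a * u⁻¹)) ∣ 2 ^ k := orderOf_dvd_of_pow_eq_one h5
      have h7 : Nat.Coprime (orderOf (a * (u * a * u⁻¹))) (2 ^ k) :=
        Nat.Coprime.pow_right k (Nat.coprime_two_right.2 h1)
      exact orderOf_eq_one_iff.1 (Nat.Coprime.eq_one_of_dvd h7 h6)
    have h8 : u * a * u⁻¹ = a := by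
      calc u * a * u⁻¹ = a⁻¹ * (a * (u * a * u⁻¹)) := by group
        _ = a := by rw [h4, mul_one, s.inv ha]
    apply hne
    have h9 : (u * a * u⁻¹) • p = p := by rw [h8]; exact s.fix a ha
    exact ((s.fix_iff ha ha1 p).1 h9).symm
  have h1 : g⁻¹ * u * g ∈ pCore 2 X := by
    have := Subgroup.Normal.conj_mem (inferInstance : (pCore 2 X).Normal) u hu g⁻¹
    rwa [inv_inv] at this
  have h2 := key _ h1
  rw [mul_smul, mul_smul, inv_smul_eq_iff] at h2
  exact h2

theorem inf_core : A ⊓ pCore 2 X = ⊥ := by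
  rw [Subgroup.eq_bot_iff_forall]
  rintro a ⟨ha, hau⟩
  obtain ⟨g, hg, -⟩ := s.gen
  exact s.free a ha _ hg (s.core_fix hau g)

theorem core_le_center : pCore 2 X ≤ Subgroup.center X := by
  intro u hu
  obtain ⟨g₀, hg₀, hgen⟩ := s.gen
  have key : ∀ u ∈ pCore 2 X, ∀ a ∈ A, Commute u a := by
    intro u hu a ha
    have h1 : u * a * u⁻¹ ∈ A := by
      refine s.stab u ?_ a ha
      have := s.core_fix hu 1
      rwa [one_smul] at this
    have h2 : u * a * u⁻¹ * a⁻¹ ∈ A ⊓ pCore 2 X := by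
      refine Subgroup.mem_inf.2 ⟨mul_mem h1 (inv_mem ha), ?_⟩
      have h3 : a * u⁻¹ * a⁻¹ ∈ pCore 2 X := Subgroup.Normal.conj_mem inferInstance _ (inv_mem hu) a
      have e : u * a * u⁻¹ * a⁻¹ = u * (a * u⁻¹ * a⁻¹) := by group
      rw [e]; exact mul_mem hu h3
    rw [s.inf_core, Subgroup.mem_bot] at h2
    show u * a = a * u
    calc u * a = (u * a * u⁻¹ * a⁻¹) * (a * u) := by group
      _ = a * u := by rw [h2, one_mul]
  have hle : A ⊔ conjBy A g₀ ≤ Subgroup.centralizer {u} := by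
    refine sup_le ?_ ?_
    · intro a ha
      rw [Subgroup.mem_centralizer_singleton_iff]
      exact (key u hu a ha).symm.eq
    · rintro _ ⟨a, ha, rfl⟩
      rw [Subgroup.mem_centralizer_singleton_iff]
      have h1 : g₀⁻¹ * u * g₀ ∈ pCore 2 X := by
        have := Subgroup.Normal.conj_mem (inferInstance : (pCore 2 X).Normal) u hu g₀⁻¹
        rwa [inv_inv] at this
      have h2 := (key _ h1 a ha).eq
      show g₀ * a * g₀⁻¹ * u = u * (g₀ * a * g₀⁻¹)
      calc g₀ * a * g₀⁻¹ * u = g₀ * (a * (g₀⁻¹ * u * g₀)) * g₀⁻¹ := by group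
        _ = g₀ * ((g₀⁻¹ * u * g₀) * a) * g₀⁻¹ := by rw [h2]
        _ = _ := by group
  rw [Subgroup.mem_center_iff]
  intro g
  have hg : g ∈ Subgroup.centralizer {u} := hle (by rw [hgen]; exact Subgroup.mem_top g)
  rw [Subgroup.mem_centralizer_singleton_iff] at hg
  exact hg

/-- `X` is perfect. -/
theorem perfect : commutator X = ⊤ := by
  have hD := s.odd_transpositions
  obtain ⟨d, hd, hd1⟩ := s.exists_ne_one
  obtain ⟨g₀, hg₀, -⟩ := s.gen
  have hAD : ∀ a ∈ A, a ≠ 1 → a ∈ DD A := fun a ha ha1 => ⟨1, a, ha, ha1, by group⟩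
  have hDD : (DD A ∩ Cfsg.commutingProducts (DD A)).Nonempty := by
    have h1 : ∃ b ∈ A, b ≠ 1 ∧ b ≠ d := by
      by_contra hcon
      push Not at hcon
      have h2 : (A : Set X) ⊆ {1, d} := by
        intro b hb
        by_cases hb1 : b = 1
        · exact Or.inl hb1
        · exact Or.inr (hcon b hb hb1)
      have h3 := Set.ncard_le_ncard h2 (Set.toFinite _)
      have h4 : ({1, d} : Set X).ncard ≤ 2 := by
        have := Set.ncard_insert_le (1 : X) {d}
        rw [Set.ncard_singleton] at this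
        exact this
      have h5 : Nat.card A = (A : Set X).ncard := rfl
      have h6 := s.card
      omega
    obtain ⟨b, hb, hb1, hbd⟩ := h1
    have hne : d * b ≠ 1 := by
      intro h
      apply hbd
      have : d * (d * b) = d := by rw [h, mul_one]
      rw [← mul_assoc, s.sq d hd, one_mul] at this
      exact this
    exact ⟨d * b, hAD _ (A.mul_mem hd hb) hne, d, hAD d hd hd1, b, hAD b hb hb1,
      (s.comm hd hb).eq, hne, rfl⟩
  have hdis : ¬ Cfsg.IsConnectedSet (Cfsg.CommAdj (DD A)) (DD A) := by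
    intro hc
    have h1 := hc d (hAD d hd hd1) (g₀ * d * g₀⁻¹) ⟨g₀, d, hd, hd1, rfl⟩
    have h2 : ∀ y, Relation.ReflTransGen (Cfsg.CommAdj (DD A)) d y → y • p = p := by
      intro y hy
      induction hy with
      | refl => exact s.fix d hd
      | tail _ hbc ih =>
        obtain ⟨⟨g, a, ha, ha1, rfl⟩, ⟨h, b, hb, hb1, rfl⟩, -, hcomm⟩ := hbc
        have h3 := (s.comm_iff ha ha1 hb hb1).1 hcomm
        have h4 := (s.fix_iff ha ha1 p).1 ih
        exact (s.fix_iff hb hb1 p).2 (h4.trans h3)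
    have h3 := (s.fix_iff hd hd1 p).1 (h2 _ h1)
    exact hg₀ h3.symm
  have hodd := Cfsg.Agent.H736.RootDisc.isConnectedSet_oddAdj hD.1 hdis
  exact Cfsg.Agent.H737.commutator_eq_top hD.1 hodd hDD

end Setup

namespace RankOne

variable {Y : Type*} [Group Y] [Finite Y] {A B : Subgroup Y} (r : RankOne A B)
include r

/-- The conditions pass to the quotient by a normal 2-subgroup. -/
theorem quot {P : Subgroup Y} [P.Normal] (hP : IsPGroup 2 P) (hAP : A ⊓ P = ⊥) (hBP : B ⊓ P = ⊥) :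
    RankOne (A.map (QuotientGroup.mk' P)) (B.map (QuotientGroup.mk' P)) := by
  have hf : Fact (Nat.Prime 2) := ⟨Nat.prime_two⟩
  have hmap : ∀ (C : Subgroup Y) (g : Y), conjBy (C.map (QuotientGroup.mk' P)) (QuotientGroup.mk' P g) =
      (conjBy C g).map (QuotientGroup.mk' P) := by
    intro C g
    ext x
    constructor
    · rintro ⟨_, ⟨c, hc, rfl⟩, rfl⟩
      refine ⟨g * c * g⁻¹, conj_mem_conjBy hc g, ?_⟩
      rw [map_mul, map_mul, map_inv]; rfl
    · rintro ⟨_, ⟨c, hc, rfl⟩, rfl⟩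
      refine ⟨QuotientGroup.mk' P c, ⟨c, hc, rfl⟩, ?_⟩
      show QuotientGroup.mk' P g * QuotientGroup.mk' P c * (QuotientGroup.mk' P g)⁻¹ =
        QuotientGroup.mk' P (g * c * g⁻¹)
      rw [map_mul, map_mul, map_inv]
  have hker : ∀ {y : Y}, QuotientGroup.mk' P y = 1 ↔ y ∈ P := by
    intro y
    rw [← MonoidHom.mem_ker, QuotientGroup.ker_mk']
  refine ⟨?_, ?_, ?_, ?_, ?_, ?_, ?_, ?_⟩
  · have hinj : Function.Injective ((QuotientGroup.mk' P).comp A.subtype) := by
      rw [injective_iff_map_eq_one]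
      rintro ⟨a, ha⟩ h
      have h1 : a ∈ A ⊓ P := ⟨ha, hker.1 h⟩
      rw [hAP, Subgroup.mem_bot] at h1
      exact Subtype.ext h1
    have e : A.map (QuotientGroup.mk' P) = ((QuotientGroup.mk' P).comp A.subtype).range := by
      rw [MonoidHom.range_comp, Subgroup.range_subtype]
    rw [e, ← Nat.card_congr (MonoidHom.ofInjective hinj).toEquiv]
    exact r.card
  · rintro _ ⟨a, ha, rfl⟩
    rw [← map_mul, r.sqA a ha, map_one]
  · rintro _ ⟨b, hb, rfl⟩
    rw [← map_mul, r.sqB b hb, map_one]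
  · rw [Subgroup.eq_bot_iff_forall]
    rintro _ ⟨⟨a, ha, rfl⟩, ⟨b, hb, hab⟩⟩
    by_cases ha1 : a = 1
    · rw [ha1, map_one]
    by_cases hb1 : b = 1
    · rw [← hab, hb1, map_one]
    have h1 : a * b ∈ P := by
      rw [← hker, map_mul, hab, ← map_mul, r.sqA a ha, map_one]
    obtain ⟨k, hk⟩ := hP ⟨_, h1⟩
    have h5 : (a * b) ^ 2 ^ k = 1 := congrArg Subtype.val hk
    have h6 : orderOf (a * b) ∣ 2 ^ k := orderOf_dvd_of_pow_eq_one h5
    have h7 : Nat.Coprime (orderOf (a * b)) (2 ^ k) :=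
      Nat.Coprime.pow_right k (Nat.coprime_two_right.2 (r.odd a ha ha1 b hb hb1))
    have h8 := orderOf_eq_one_iff.1 (Nat.Coprime.eq_one_of_dvd h7 h6)
    exfalso
    apply ha1
    apply r.eq_one ha
    have : a = b := by
      calc a = a * (b * b) := by rw [r.sqB b hb, mul_one]
        _ = (a * b) * b := by group
        _ = b := by rw [h8, one_mul]
    rw [this]; exact hb
  · rintro _ ⟨a, ha, rfl⟩ ha1 _ ⟨b, hb, rfl⟩ hb1
    have ha1' : a ≠ 1 := by rintro rfl; exact ha1 (map_one _)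
    have hb1' : b ≠ 1 := by rintro rfl; exact hb1 (map_one _)
    have h1 := r.odd a ha ha1' b hb hb1'
    rw [← map_mul]
    exact h1.of_dvd_nat (orderOf_map_dvd _ _)
  · rw [← Subgroup.map_sup, r.gen, ← MonoidHom.range_eq_map]
    exact MonoidHom.range_eq_top.2 (QuotientGroup.mk'_surjective P)
  · obtain ⟨b, hb, hb1⟩ := r.exB
    refine ⟨QuotientGroup.mk' P b, ⟨b, hb, rfl⟩, fun h => hb1 ?_⟩
    have h1 : b ∈ B ⊓ P := ⟨hb, hker.1 h⟩
    rw [hBP, Subgroup.mem_bot] at h1
    exact h1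
  · rintro _ ⟨b, hb, rfl⟩ hb1
    have hb1' : b ≠ 1 := by rintro rfl; exact hb1 (map_one _)
    obtain ⟨a, ha, ha1, hw, h1, h2⟩ := r.swap b hb hb1'
    refine ⟨QuotientGroup.mk' P a, ⟨a, ha, rfl⟩, ?_, ?_, ?_, ?_⟩
    · intro h
      have h1 : a ∈ A ⊓ P := ⟨ha, hker.1 h⟩
      rw [hAP, Subgroup.mem_bot] at h1
      exact ha1 h1
    · rw [← map_mul, ← map_mul, ← map_mul, ← map_mul, hw]
    · rw [← map_mul, ← map_mul, hmap, h1]
    · rw [← map_mul, ← map_mul, hmap, h2]

/-- **Identification.** -/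
theorem ident : ∃ (F : Type) (_ : Field F) (_ : Fintype F), CharP F 2 ∧
    Fintype.card F = Nat.card A ∧
    Nonempty (Y ≃* Matrix.ProjectiveSpecialLinearGroup (Fin 2) F) := by
  classical
  have hf : Fact (Nat.Prime 2) := ⟨Nat.prime_two⟩
  have s := r.setup
  suffices hO : pCore 2 Y = ⊥ from s.ident hO
  -- the quotient by `O₂`
  have hAP := s.inf_core
  have hBP : B ⊓ pCore 2 Y = ⊥ := by
    obtain ⟨w, h1, h2⟩ := r.exists_w
    rw [Subgroup.eq_bot_iff_forall]
    rintro b ⟨hb, hbP⟩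
    have h3 : w * b * w⁻¹ ∈ A ⊓ pCore 2 Y := by
      refine ⟨?_, Subgroup.Normal.conj_mem inferInstance b hbP w⟩
      rw [← h2]; exact conj_mem_conjBy hb w
    rw [hAP, Subgroup.mem_bot] at h3
    calc b = w⁻¹ * (w * b * w⁻¹) * w := by group
      _ = 1 := by rw [h3]; group
  have rq := r.quot (Lib.Cores.pCore_isPGroup (G := Y) 2) hAP hBP
  obtain ⟨F, iF, iF', hF2, hF, ⟨e⟩⟩ := rq.setup.ident (Lib.Cores.pCore_quotient_pCore 2)
  set Ab : Subgroup (Y ⧸ pCore 2 Y) := A.map (QuotientGroup.mk' (pCore 2 Y)) with hAb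
  have hF4 : 4 ≤ Fintype.card F := by rw [hF]; exact rq.card
  obtain ⟨d, hd, hd1⟩ := s.exists_ne_one
  -- `Ab` is a Sylow 2-subgroup
  have hPA : IsPGroup 2 Ab := by
    rintro ⟨a, ha⟩
    exact ⟨1, Subtype.ext (by show a ^ 2 ^ 1 = 1; rw [pow_one, pow_two]; exact rq.sqA a ha)⟩
  obtain ⟨S, hS⟩ := hPA.exists_le_sylow
  have hSA : (S : Subgroup (Y ⧸ pCore 2 Y)) = Ab := by
    refine (Subgroup.eq_of_le_of_card_ge hS ?_).symm
    rw [(H803.psl_sylow e S).2.2, hF]
  have hR1 : H803.RankOneFacts.R1 (Y ⧸ pCore 2 Y) := H803.RankOneFacts.R1.of_psl ⟨e⟩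
  have hdS : (QuotientGroup.mk d : Y ⧸ pCore 2 Y) ∈ S := hS ⟨d, hd, rfl⟩
  have hd1' : (QuotientGroup.mk d : Y ⧸ pCore 2 Y) ≠ 1 := by
    intro h
    have h1 : d ∈ A ⊓ pCore 2 Y := ⟨hd, (QuotientGroup.eq_one_iff d).1 h⟩
    rw [hAP, Subgroup.mem_bot] at h1
    exact hd1 h1
  refine (H803.l2_split s.perfect s.core_le_center hF4 e A s.sq hAP hd hd1 ?_).1
  intro y hyy hy1 hyd
  -- `⟨y, d⟩` is a 2-group
  have hP2 : IsPGroup 2 (Subgroup.closure {y, (QuotientGroup.mk d : Y ⧸ pCore 2 Y)}) := by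
    have hdd : (QuotientGroup.mk d : Y ⧸ pCore 2 Y) * QuotientGroup.mk d = 1 := by
      rw [← QuotientGroup.mk_mul, s.sq d hd]; rfl
    have hcomm : ∀ u ∈ Subgroup.closure {y, (QuotientGroup.mk d : Y ⧸ pCore 2 Y)},
        ∀ v ∈ ({y, (QuotientGroup.mk d : Y ⧸ pCore 2 Y)} : Set (Y ⧸ pCore 2 Y)), Commute u v := by
      intro u hu v hv
      induction hu using Subgroup.closure_induction with
      | mem u hu =>
        rcases hu with hu | hu <;> rcases hv with hv | hv
        · rw [hu, hv]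
        · rw [hu, hv]; exact hyd
        · rw [hu, hv]; exact hyd.symm
        · rw [hu, hv]
      | one => exact Commute.one_left v
      | mul a b _ _ iha ihb => exact iha.mul_left ihb
      | inv a _ iha => exact iha.inv_left
    rintro ⟨u, hu⟩
    refine ⟨1, Subtype.ext ?_⟩
    show u ^ 2 ^ 1 = 1
    rw [pow_one, pow_two]
    induction hu using Subgroup.closure_induction with
    | mem u hu =>
      rcases hu with hu | hu
      · rw [hu]; exact hyy
      · rw [hu]; exact hdd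
    | one => exact one_mul 1
    | mul a b ha hb iha ihb =>
      have hab : Commute a b := by
        clear iha ihb
        induction hb using Subgroup.closure_induction with
        | mem v hv => exact hcomm a ha v hv
        | one => exact Commute.one_right a
        | mul x y _ _ ihx ihy => exact ihx.mul_right ihy
        | inv x _ ihx => exact ihx.inv_right
      calc a * b * (a * b) = a * (b * a) * b := by group
        _ = a * (a * b) * b := by rw [← hab.eq]
        _ = (a * a) * (b * b) := by group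
        _ = 1 := by rw [iha, ihb, one_mul]
    | inv a _ iha =>
      rw [← mul_inv_rev, iha, inv_one]
  obtain ⟨T, hT⟩ := hP2.exists_le_sylow
  have hyT : y ∈ T := hT (Subgroup.subset_closure (Or.inl rfl))
  have hdT : (QuotientGroup.mk d : Y ⧸ pCore 2 Y) ∈ T := hT (Subgroup.subset_closure (Or.inr rfl))
  have hTS : T = S := by
    by_contra hne
    have h1 := hR1.ti T S hne
    have h2 : (QuotientGroup.mk d : Y ⧸ pCore 2 Y) ∈
        (T : Subgroup (Y ⧸ pCore 2 Y)) ⊓ (S : Subgroup (Y ⧸ pCore 2 Y)) := ⟨hdT, hdS⟩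
    rw [h1, Subgroup.mem_bot] at h2
    exact hd1' h2
  rw [hTS] at hyT
  have hyA : y ∈ Ab := by rw [← hSA]; exact hyT
  obtain ⟨a, ha, hay⟩ := hyA
  exact ⟨a, ha, hay⟩

end RankOne

end Cfsg.Agent.H738.Shear
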