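import Mathlib
import Cfsg.Agent.H737.RootInv

/-!
# Odd transpositions: basic calculus

`OT D`: `D` is a set of involutions, closed under conjugation by its members, such that two members
commute or have product of odd order.

* `OT.line`: if `a, b, ab ∈ D` (commuting), every member commuting with `a` commutes with `b`.
* `OT.commute_of_commute_mul`: a member commuting with `ab` (`a ≠ b` commuting members) commutes
  with `a`.
* `OT.tri`: for an involution `t` and `x ∈ D`: `t` centralizes `x`, or `x ≠ x^t` commute, or there is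
  a unique member `c ∈ ⟨x, x^t⟩` with `x^c = x^t`, and it commutes with `t`.
-/

set_option autoImplicit false

namespace Cfsg.Agent.H738

open Cfsg.Agent.H737

variable {G : Type*} [Group G]

/-- A set of odd transpositions, closed under conjugation by its members. -/
structure OT (D : Set G) : Prop where
  sq : ∀ a ∈ D, a * a = 1
  ne : ∀ a ∈ D, a ≠ 1
  conj : ∀ a ∈ D, ∀ b ∈ D, b * a * b ∈ D
  pair : ∀ a ∈ D, ∀ b ∈ D, Commute a b ∨ Odd (orderOf (a * b))

/-- `a` and `b` commute with the same members of `D`. -/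
def Eqv (D : Set G) (a b : G) : Prop := ∀ y ∈ D, Commute y a ↔ Commute y b

theorem Eqv.refl (D : Set G) (a : G) : Eqv D a a := fun _ _ => Iff.rfl

theorem Eqv.symm {D : Set G} {a b : G} (h : Eqv D a b) : Eqv D b a := fun y hy => (h y hy).symm

theorem Eqv.trans {D : Set G} {a b c : G} (h : Eqv D a b) (h' : Eqv D b c) : Eqv D a c :=
  fun y hy => (h y hy).trans (h' y hy)

/-- For involutions `x`, `t`: `x` commutes with `t x t` iff `t` commutes with `x t x`. -/
theorem commute_conj_iff {x t : G} : Commute x (t * x * t) ↔ Commute t (x * t * x) := by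
  constructor
  · intro h
    have h1 : x * (t * x * t) = t * x * t * x := h
    show t * (x * t * x) = x * t * x * t
    calc t * (x * t * x) = t * x * t * x := by group
      _ = x * (t * x * t) := h1.symm
      _ = x * t * x * t := by group
  · intro h
    have h1 : t * (x * t * x) = x * t * x * t := h
    show x * (t * x * t) = t * x * t * x
    calc x * (t * x * t) = x * t * x * t := by group
      _ = t * (x * t * x) := h1.symm
      _ = t * x * t * x := by group

theorem commute_conj_of_sq {t a b : G} (ht : t * t = 1) (h : Commute a b) :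
    Commute (t * a * t) (t * b * t) := by
  show t * a * t * (t * b * t) = t * b * t * (t * a * t)
  calc t * a * t * (t * b * t) = t * a * (t * t) * b * t := by group
    _ = t * (a * b) * t := by rw [ht]; group
    _ = t * (b * a) * t := by rw [h.eq]
    _ = t * b * (t * t) * a * t := by rw [ht]; group
    _ = _ := by group

theorem conj_conj_of_sq {t a : G} (ht : t * t = 1) : t * (t * a * t) * t = a := by
  calc t * (t * a * t) * t = (t * t) * a * (t * t) := by group
    _ = a := by rw [ht]; group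

/-- An element of odd order which is an involution times a commuting element. -/
theorem eq_one_of_odd_mul {t z : G} (ht : t * t = 1) (hc : Commute t z)
    (hz : Odd (orderOf z)) (htz : Odd (orderOf (t * z))) : t = 1 := by
  obtain ⟨k, hk⟩ := hz
  obtain ⟨l, hl⟩ := htz
  have h1 : (t * z) ^ ((2 * k + 1) * (2 * l + 1)) = 1 := by
    rw [mul_comm, pow_mul, ← hl, pow_orderOf_eq_one, one_pow]
  rw [hc.mul_pow] at h1
  have h2 : z ^ ((2 * k + 1) * (2 * l + 1)) = 1 := by
    rw [pow_mul, ← hk, pow_orderOf_eq_one, one_pow]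
  rw [h2, mul_one] at h1
  have h3 : (2 * k + 1) * (2 * l + 1) = 2 * (2 * k * l + k + l) + 1 := by ring
  rw [h3, pow_succ, pow_mul, pow_two, ht, one_pow, one_mul] at h1
  exact h1

namespace OT

variable {D : Set G}

theorem inv (hD : OT D) {a : G} (ha : a ∈ D) : a⁻¹ = a := inv_of_sq (hD.sq a ha)

theorem odd_of (hD : OT D) {a b : G} (ha : a ∈ D) (hb : b ∈ D) (h : ¬ Commute a b) :
    Odd (orderOf (a * b)) := (hD.pair a ha b hb).resolve_left h

/-- If the product of two members squares to one, they commute. -/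
theorem commute_of_sq (hD : OT D) {a b : G} (ha : a ∈ D) (hb : b ∈ D) (h : (a * b) * (a * b) = 1) :
    Commute a b := by
  have h1 := inv_of_sq h
  rw [mul_inv_rev, hD.inv ha, hD.inv hb] at h1
  exact h1.symm

/-- The product of two members is not the product of an element of odd order `> 1` and a
commuting involution. -/
theorem key (hD : OT D) {a b z t : G} (ha : a ∈ D) (hb : b ∈ D)
    (hz : Odd (orderOf z)) (hz1 : z ≠ 1) (ht : t * t = 1) (ht1 : t ≠ 1) (hc : Commute t z)
    (he : a * b = t * z) : False := by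
  rcases hD.pair a ha b hb with h1 | h1
  · have h2 : (a * b) * (a * b) = 1 := by
      calc a * b * (a * b) = a * (b * a) * b := by group
        _ = a * (a * b) * b := by rw [h1.eq]
        _ = (a * a) * (b * b) := by group
        _ = 1 := by rw [hD.sq a ha, hD.sq b hb, one_mul]
    rw [he] at h2
    have h3 : z * z = 1 := by
      calc z * z = (t * t) * (z * z) := by rw [ht, one_mul]
        _ = t * (t * z) * z := by group
        _ = t * (z * t) * z := by rw [hc.eq]
        _ = t * z * (t * z) := by group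
        _ = 1 := h2
    exact hz1 (eq_one_of_odd_of_sq hz h3)
  · rw [he] at h1
    exact ht1 (eq_one_of_odd_mul ht hc hz h1)

/-- **L1.** On a line `{a, b, ab} ⊆ D`, members commuting with `a` commute with `b`. -/
theorem line (hD : OT D) {a b y : G} (ha : a ∈ D) (hb : b ∈ D) (hab : Commute a b)
    (habD : a * b ∈ D) (hy : y ∈ D) (hya : Commute y a) : Commute y b := by
  by_contra hcon
  have h1 := hD.odd_of hy hb hcon
  refine hD.key hy habD h1 ?_ (hD.sq a ha) (hD.ne a ha) ?_ ?_
  · intro h2
    apply hcon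
    have : y = b := by
      calc y = (y * b) * b := by rw [mul_assoc, hD.sq b hb, mul_one]
        _ = b := by rw [h2, one_mul]
    rw [this]
  · exact (hya.symm.mul_right hab)
  · have h3 := hya.eq
    calc y * (a * b) = (y * a) * b := by group
      _ = (a * y) * b := by rw [h3]
      _ = a * (y * b) := by group

theorem line_eqv (hD : OT D) {a b : G} (ha : a ∈ D) (hb : b ∈ D) (hab : Commute a b)
    (habD : a * b ∈ D) : Eqv D a b := by
  intro y hy
  refine ⟨hD.line ha hb hab habD hy, hD.line hb ha hab.symm ?_ hy⟩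
  rwa [← hab.eq]

theorem line_eqv_mul (hD : OT D) {a b : G} (ha : a ∈ D) (hb : b ∈ D) (hab : Commute a b)
    (habD : a * b ∈ D) : Eqv D a (a * b) := by
  refine hD.line_eqv ha habD ((Commute.refl a).mul_right hab) ?_
  have : a * (a * b) = b := by rw [← mul_assoc, hD.sq a ha, one_mul]
  rwa [this]

/-- **L2.** A member commuting with `ab`, `a ≠ b` commuting members, commutes with `a`. -/
theorem commute_of_commute_mul (hD : OT D) {a b y : G} (ha : a ∈ D) (hb : b ∈ D)
    (hab : Commute a b) (hne : a ≠ b) (hy : y ∈ D) (h : Commute y (a * b)) : Commute y a := by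
  by_contra hcon
  have h1 := hD.odd_of ha hy (fun h' => hcon h'.symm)
  have haa := hD.sq a ha
  have hbb := hD.sq b hb
  have hyy := hD.sq y hy
  have hz : Odd (orderOf ((a * y) * (a * y))) := by
    have h2 : orderOf ((a * y) * (a * y)) ∣ orderOf (a * y) := by
      rw [← pow_two]; exact orderOf_pow_dvd 2
    exact Odd.of_dvd_nat h1 h2
  have hz1 : (a * y) * (a * y) ≠ 1 := fun h2 => hcon (hD.commute_of_sq ha hy h2).symm
  have ht : (a * b) * (a * b) = 1 := by
    calc a * b * (a * b) = a * (b * a) * b := by group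
      _ = a * (a * b) * b := by rw [hab.eq]
      _ = (a * a) * (b * b) := by group
      _ = 1 := by rw [haa, hbb, one_mul]
  have ht1 : a * b ≠ 1 := by
    intro h2
    apply hne
    calc a = a * (b * b) := by rw [hbb, mul_one]
      _ = (a * b) * b := by group
      _ = b := by rw [h2, one_mul]
  have hta : Commute (a * b) a := (Commute.refl a).mul_left hab.symm
  have hc : Commute (a * b) (a * y * (a * y)) :=
    (hta.mul_right h.symm).mul_right (hta.mul_right h.symm)
  refine hD.key ha (hD.conj b hb y hy) hz hz1 ht ht1 hc ?_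
  rw [hc.eq]
  calc a * (y * b * y) = a * y * (a * a) * b * y := by rw [haa]; group
    _ = a * y * a * ((a * b) * y) := by group
    _ = a * y * a * (y * (a * b)) := by rw [h.eq]
    _ = a * y * (a * y) * (a * b) := by group

theorem commute_of_commute_mul' (hD : OT D) {a b y : G} (ha : a ∈ D) (hb : b ∈ D)
    (hab : Commute a b) (hne : a ≠ b) (hy : y ∈ D) (h : Commute y (a * b)) : Commute y b :=
  hD.commute_of_commute_mul hb ha hab.symm hne.symm hy (by rwa [← hab.eq])

/-- If `a` commutes with `y a y`, then `a` commutes with `y`. -/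
theorem commute_of_commute_conj (hD : OT D) {a y : G} (ha : a ∈ D) (hy : y ∈ D)
    (h : Commute a (y * a * y)) : Commute a y := by
  rcases hD.pair a ha y hy with h1 | h1
  · exact h1
  · have haa := hD.sq a ha
    have hc := hD.sq _ (hD.conj a ha y hy)
    have h2 : ((a * y) * (a * y)) * ((a * y) * (a * y)) = 1 := by
      have e : (a * y) * (a * y) = a * (y * a * y) := by group
      rw [e]
      calc a * (y * a * y) * (a * (y * a * y)) = a * ((y * a * y) * a) * (y * a * y) := by group
        _ = a * (a * (y * a * y)) * (y * a * y) := by rw [h.eq]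
        _ = (a * a) * ((y * a * y) * (y * a * y)) := by group
        _ = 1 := by rw [haa, hc, one_mul]
    have h3 : (a * y) * (a * y) = 1 := by
      refine eq_one_of_odd_of_sq ?_ h2
      have h4 : orderOf ((a * y) * (a * y)) ∣ orderOf (a * y) := by
        rw [← pow_two]; exact orderOf_pow_dvd 2
      exact Odd.of_dvd_nat h1 h4
    exact hD.commute_of_sq ha hy h3

/-- `D` is closed under conjugation by `⟨D⟩`. -/
theorem conj_closure (hD : OT D) {g a : G} (hg : g ∈ Subgroup.closure D) (ha : a ∈ D) :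
    g * a * g⁻¹ ∈ D := by
  have key : ∀ g ∈ Subgroup.closure D, ∀ a ∈ D, g * a * g⁻¹ ∈ D ∧ g⁻¹ * a * g ∈ D := by
    intro g hg
    induction hg using Subgroup.closure_induction with
    | mem b hb =>
      intro a ha
      rw [hD.inv hb]
      exact ⟨hD.conj a ha b hb, hD.conj a ha b hb⟩
    | one => intro a ha; simpa using ha
    | mul x y _ _ hx hy =>
      intro a ha
      refine ⟨?_, ?_⟩
      · have := (hx _ (hy a ha).1).1
        have e : x * (y * a * y⁻¹) * x⁻¹ = x * y * a * (x * y)⁻¹ := by group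
        rwa [e] at this
      · have := (hy _ (hx a ha).2).2
        have e : y⁻¹ * (x⁻¹ * a * x) * y = (x * y)⁻¹ * a * (x * y) := by group
        rwa [e] at this
    | inv x _ hx =>
      intro a ha
      rw [inv_inv]
      exact ⟨(hx a ha).2, (hx a ha).1⟩
  exact (key g hg a ha).1

/-- **L3 (trichotomy).** -/
theorem tri (hD : OT D) {x t : G} (hx : x ∈ D) (ht : t * t = 1) (hxt : t * x * t ∈ D) :
    Commute t x ∨ (¬ Commute t x ∧ Commute x (t * x * t)) ∨
    ∃ c ∈ D, Commute c t ∧ c * x * c = t * x * t ∧ Commute (t * c) x ∧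
      c ∈ Subgroup.closure {x, t * x * t} ∧ ¬ Commute x (t * x * t) := by
  have hxx := hD.sq x hx
  by_cases hc : Commute t x
  · exact Or.inl hc
  by_cases hc2 : Commute x (t * x * t)
  · exact Or.inr (Or.inl ⟨hc, hc2⟩)
  refine Or.inr (Or.inr ?_)
  set x' : G := t * x * t with hx'
  have hodd := hD.odd_of hx hxt hc2
  set u : G := x * x' with hu
  obtain ⟨k, hk⟩ := exists_pow_sq hodd
  set s : G := u ^ k with hs
  have hss : s * s = u := by
    rw [hs, ← pow_two, ← pow_mul, mul_comm, pow_mul]; exact hk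
  set w : G := s ^ k with hw
  have hww : w * w = s := by
    rw [hw, ← pow_two, ← pow_mul, mul_comm, pow_mul, pow_two, hss]
  have hx'x' := hD.sq x' hxt
  -- `x` and `t` invert `u`
  have hxu : x * u * x⁻¹ = u⁻¹ := by
    rw [hu, mul_inv_rev, hD.inv hx, hD.inv hxt]
    calc x * (x * x') * x = (x * x) * x' * x := by group
      _ = x' * x := by rw [hxx, one_mul]
  have htinv : t⁻¹ = t := inv_of_sq ht
  have htu : t * u * t⁻¹ = u⁻¹ := by
    rw [hu, mul_inv_rev, hD.inv hx, hD.inv hxt, htinv, hx']
    calc t * (x * (t * x * t)) * t = t * x * t * x * (t * t) := by group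
      _ = t * x * t * x := by rw [ht, mul_one]
  have hxw : x * w * x⁻¹ = w⁻¹ := by
    rw [hw, hs, ← conj_pow, ← conj_pow, hxu, inv_pow, inv_pow]
  have hxs : x * s * x⁻¹ = s⁻¹ := by rw [hs, ← conj_pow, hxu, inv_pow]
  have hts : t * s * t⁻¹ = s⁻¹ := by rw [hs, ← conj_pow, htu, inv_pow]
  have hxu' : x * u = x' := by rw [hu, ← mul_assoc, hxx, one_mul]
  have hucl : u ∈ Subgroup.closure {x, x'} :=
    mul_mem (Subgroup.subset_closure (by simp)) (Subgroup.subset_closure (by simp))
  have hscl : s ∈ Subgroup.closure {x, x'} := pow_mem hucl k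
  have hwcl : w ∈ Subgroup.closure {x, x'} := pow_mem hscl k
  have hsub : Subgroup.closure {x, x'} ≤ Subgroup.closure D := by
    rw [Subgroup.closure_le]
    intro y hy
    rcases hy with rfl | hy
    · exact Subgroup.subset_closure hx
    · rw [Set.mem_singleton_iff] at hy
      rw [hy]; exact Subgroup.subset_closure hxt
  have hceq : x * s = w⁻¹ * x * w := by
    calc x * s = x * w * x⁻¹ * x * w := by rw [← hww]; group
      _ = w⁻¹ * x * w := by rw [hxw]
  have hcD : x * s ∈ D := by
    rw [hceq]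
    have := hD.conj_closure (inv_mem (hsub hwcl)) hx
    rwa [inv_inv] at this
  have hcx : x * s * x * (x * s) = x' := by
    calc x * s * x * (x * s) = x * s * (x * x) * s := by group
      _ = x * (s * s) := by rw [hxx]; group
      _ = x' := by rw [hss, hxu']
  have hct : Commute (x * s) t := by
    have h1 : t * (x * s) * t⁻¹ = x * s := by
      calc t * (x * s) * t⁻¹ = (t * x * t⁻¹) * (t * s * t⁻¹) := by group
        _ = x' * s⁻¹ := by rw [hts, htinv]
        _ = x * (s * s) * s⁻¹ := by rw [hss, hxu']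
        _ = x * s := by group
    have h2 : t * (x * s) = x * s * t := by
      calc t * (x * s) = t * (x * s) * t⁻¹ * t := by group
        _ = x * s * t := by rw [h1]
    exact h2.symm
  refine ⟨x * s, hcD, hct, hcx, ?_, ?_, hc2⟩
  · have hcc := hD.sq _ hcD
    show t * (x * s) * x = x * (t * (x * s))
    calc t * (x * s) * x = t * ((x * s) * x * (x * s)) * (x * s) * ((x * s) * (x * s))⁻¹ *
          ((x * s) * (x * s)) * ((x * s) * (x * s))⁻¹ * ((x*s) * (x*s)) := by
          rw [hcc]
          calc t * (x * s) * x = t * ((x * s) * x * ((x * s) * (x * s))) := by rw [hcc]; group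
            _ = _ := by group
      _ = t * (t * x * t) * (x * s) := by rw [hcx, hcc, hx']; group
      _ = (t * t) * x * t * (x * s) := by group
      _ = x * (t * (x * s)) := by rw [ht]; group
  · exact mul_mem (Subgroup.subset_closure (by simp)) hscl

/-- The core configuration: both `x^{a₁b}` and `x^{a₁a₂b}` cannot commute with `x`. -/
theorem no_two_bad (hD : OT D) {a₁ a₂ b x : G} (h1 : a₁ ∈ D) (h2 : a₂ ∈ D) (h12 : Commute a₁ a₂)
    (h12D : a₁ * a₂ ∈ D) (hb : b ∈ D) (hb1 : Commute b a₁) (hne1 : a₁ ≠ b) (hne2 : a₁ * a₂ ≠ b)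
    (hx : x ∈ D) (hxa : ¬ Commute x a₂)
    (hc1 : Commute x (a₁ * b * x * (a₁ * b)))
    (hc2 : Commute x (a₁ * a₂ * b * x * (a₁ * a₂ * b))) : False := by
  have hxx := hD.sq x hx
  have hb2 : Commute b a₂ := hD.line h1 h2 h12 h12D hb hb1
  have hb12 : Commute b (a₁ * a₂) := hb1.mul_right hb2
  rw [commute_conj_iff] at hc1 hc2
  set w₁ : G := x * (a₁ * b) * x with hw₁
  set w₂ : G := x * (a₁ * a₂ * b) * x with hw₂
  -- conjugation by `w₁`, `w₂` preserves the members commuting with `a₁ b`, `a₁ a₂ b`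
  have hw₁1 : w₁ * w₁ = 1 := by
    calc w₁ * w₁ = x * (a₁ * b) * (x * x) * (a₁ * b) * x := by rw [hw₁]; group
      _ = x * (a₁ * (b * a₁) * b) * x := by rw [hxx]; group
      _ = x * (a₁ * (a₁ * b) * b) * x := by rw [hb1.eq]
      _ = x * ((a₁ * a₁) * (b * b)) * x := by group
      _ = 1 := by rw [hD.sq _ h1, hD.sq _ hb, one_mul, mul_one, hxx]
  have hw₂1 : w₂ * w₂ = 1 := by
    calc w₂ * w₂ = x * ((a₁ * a₂) * b) * (x * x) * ((a₁ * a₂) * b) * x := by rw [hw₂]; group
      _ = x * ((a₁ * a₂) * (b * (a₁ * a₂)) * b) * x := by rw [hxx]; group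
      _ = x * ((a₁ * a₂) * ((a₁ * a₂) * b) * b) * x := by rw [hb12.eq]
      _ = x * (((a₁ * a₂) * (a₁ * a₂)) * (b * b)) * x := by group
      _ = 1 := by rw [hD.sq _ h12D, hD.sq _ hb, one_mul, mul_one, hxx]
  have hw12 : w₂ * w₁ = x * a₂ * x := by
    calc w₂ * w₁ = x * (a₁ * a₂ * b) * (x * x) * (a₁ * b) * x := by rw [hw₁, hw₂]; group
      _ = x * (a₁ * a₂ * (b * a₁) * b) * x := by rw [hxx]; group
      _ = x * ((a₁ * a₂) * a₁ * (b * b)) * x := by rw [hb1.eq]; group
      _ = x * ((a₂ * a₁) * a₁) * x := by rw [hD.sq _ hb, mul_one, h12.eq]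
      _ = x * (a₂ * (a₁ * a₁)) * x := by group
      _ = x * a₂ * x := by rw [hD.sq _ h1, mul_one]
  have hw21 : w₁ * w₂ = x * a₂ * x := by
    have h3 := congrArg (·⁻¹) hw12
    simp only [mul_inv_rev] at h3
    rw [inv_of_sq hw₁1, inv_of_sq hw₂1, hD.inv hx, hD.inv h2] at h3
    rw [h3]; group
  have hcl : ∀ y ∈ D, w₁ * y * w₁ ∈ D ∧ w₂ * y * w₂ ∈ D := by
    intro y hy
    constructor
    · have e : w₁ * y * w₁ = x * (a₁ * (b * (x * y * x) * b) * a₁) * x := by
        rw [hw₁]
        calc x * (a₁ * b) * x * y * (x * (a₁ * b) * x)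
            = x * (a₁ * b) * x * y * x * (a₁ * b) * x := by group
          _ = x * (a₁ * b) * x * y * x * (b * a₁) * x := by rw [hb1.eq]
          _ = _ := by group
      rw [e]
      exact hD.conj _ (hD.conj _ (hD.conj _ (hD.conj _ hy _ hx) _ hb) _ h1) _ hx
    · have e : w₂ * y * w₂ = x * ((a₁ * a₂) * (b * (x * y * x) * b) * (a₁ * a₂)) * x := by
        rw [hw₂]
        calc x * (a₁ * a₂ * b) * x * y * (x * (a₁ * a₂ * b) * x)
            = x * (a₁ * a₂ * b) * x * y * x * ((a₁ * a₂) * b) * x := by group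
          _ = x * (a₁ * a₂ * b) * x * y * x * (b * (a₁ * a₂)) * x := by rw [hb12.eq]
          _ = _ := by group
      rw [e]
      exact hD.conj _ (hD.conj _ (hD.conj _ (hD.conj _ hy _ hx) _ hb) _ h12D) _ hx
  have ha2t : Commute a₂ (a₁ * b) := h12.symm.mul_right hb2.symm
  have k1 : Commute (w₁ * a₂ * w₁) (a₁ * b) := by
    have h3 := commute_conj_of_sq hw₁1 ha2t
    have e : w₁ * (a₁ * b) * w₁ = a₁ * b := by
      rw [mul_assoc, hc1.eq, ← mul_assoc, hw₁1, one_mul]
    rwa [e] at h3
  have k2 : Commute (w₁ * a₂ * w₁) a₁ :=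
    hD.commute_of_commute_mul h1 hb hb1.symm hne1 (hcl a₂ h2).1 k1
  have k3 : Commute (w₁ * a₂ * w₁) b :=
    hD.commute_of_commute_mul' h1 hb hb1.symm hne1 (hcl a₂ h2).1 k1
  have k4 : Commute (w₁ * a₂ * w₁) a₂ := hD.line h1 h2 h12 h12D (hcl a₂ h2).1 k2
  have k5 : Commute (w₁ * a₂ * w₁) (a₁ * a₂ * b) := (k2.mul_right k4).mul_right k3
  have k6 : Commute (w₂ * (w₁ * a₂ * w₁) * w₂) (a₁ * a₂ * b) := by
    have h3 := commute_conj_of_sq hw₂1 k5
    have e : w₂ * (a₁ * a₂ * b) * w₂ = a₁ * a₂ * b := by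
      rw [mul_assoc, hc2.eq, ← mul_assoc, hw₂1, one_mul]
    rwa [e] at h3
  have k7D : w₂ * (w₁ * a₂ * w₁) * w₂ ∈ D := (hcl _ (hcl a₂ h2).1).2
  have k7 : Commute (w₂ * (w₁ * a₂ * w₁) * w₂) (a₁ * a₂) :=
    hD.commute_of_commute_mul h12D hb hb12.symm hne2 k7D k6
  have k8 : Commute (w₂ * (w₁ * a₂ * w₁) * w₂) a₂ := by
    have h3 : Commute (a₁ * a₂) a₂ := h12.mul_left (Commute.refl a₂)
    refine hD.line h12D h2 h3 ?_ k7D k7
    have : a₁ * a₂ * a₂ = a₁ := by rw [mul_assoc, hD.sq _ h2, mul_one]
    rwa [this]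
  have e9 : w₂ * (w₁ * a₂ * w₁) * w₂ = (x * a₂ * x) * a₂ * (x * a₂ * x) := by
    calc w₂ * (w₁ * a₂ * w₁) * w₂ = (w₂ * w₁) * a₂ * (w₁ * w₂) := by group
      _ = _ := by rw [hw12, hw21]
  rw [e9] at k8
  have k10 : Commute a₂ (x * a₂ * x) :=
    hD.commute_of_commute_conj h2 (hD.conj _ h2 _ hx) k8.symm
  exact hxa (hD.commute_of_commute_conj h2 hx k10).symm

end OT

end Cfsg.Agent.H738
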