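import Cfsg.Agent.H738.TheoremB
import Cfsg.Agent.Lib.Cores
import Cfsg.Prelude.Def_RootSubgroups

/-!
# Odd transpositions: images modulo 2-groups, the groups `⟨E_d, E_e, x⟩`

* `Im f D`: the nontrivial images of the members of `D`; `OT` passes to it, and commuting is
  reflected if the kernel is a 2-group.
* `Gen.trans`: in the situation of `Gen` with `E ≠ {d}`, commuting is transitive on `D`.
* `eqv_of_gen2`: in `⟨E_d, E_e, x⟩` (`O₂ = 1`, `d` on a line), `d` and `e` are equivalent.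
* `trans_of_gen2`: commuting is transitive on the noncentral members of `⟨E_d, E_e, x⟩`.
* `mem_cls_of_commute`: **Claim 2**: noncentral members of `X = ⟨E_d, x⟩` commuting with `d` lie in
  `E_d`.
-/

set_option autoImplicit false

namespace Cfsg.Agent.H738

open Cfsg.Agent.H737

/-! ### Images -/

section Image

variable {X K : Type*} [Group X] [Group K] {D : Set X} (f : X →* K)

/-- The nontrivial images of the members of `D`. -/
def Im (f : X →* K) (D : Set X) : Set K := {y | y ≠ 1 ∧ ∃ a ∈ D, f a = y}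

theorem im_ot (hD : OT D) : OT (Im f D) where
  sq := by
    rintro _ ⟨-, a, ha, rfl⟩
    rw [← map_mul, hD.sq a ha, map_one]
  ne := fun _ h => h.1
  conj := by
    rintro _ ⟨ha1, a, ha, rfl⟩ _ ⟨hb1, b, hb, rfl⟩
    refine ⟨?_, b * a * b, hD.conj a ha b hb, by rw [map_mul, map_mul]⟩
    intro h1
    apply ha1
    have hbb : f b * f b = 1 := by rw [← map_mul, hD.sq b hb, map_one]
    have h2 : f b * (f b * f a * f b) * f b = f a := conj_conj_of_sq hbb
    rw [← h2, h1, mul_one, hbb]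
  pair := by
    rintro _ ⟨-, a, ha, rfl⟩ _ ⟨-, b, hb, rfl⟩
    rcases hD.pair a ha b hb with h1 | h1
    · exact Or.inl (h1.map f)
    · refine Or.inr ?_
      rw [← map_mul]
      exact Odd.of_dvd_nat h1 (orderOf_map_dvd f _)

/-- The kernel of `f` is a 2-group. -/
def Ker2 (f : X →* K) : Prop := ∀ g : X, f g = 1 → ∃ k : ℕ, g ^ 2 ^ k = 1

variable {f}

theorem Ker2.eq_one_of_odd (hf : Ker2 f) {g : X} (hg : Odd (orderOf g)) (h : f g = 1) : g = 1 := by
  obtain ⟨k, hk⟩ := hf g h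
  have h1 : orderOf g ∣ 2 ^ k := orderOf_dvd_of_pow_eq_one hk
  have h2 : Nat.Coprime (orderOf g) (2 ^ k) := Nat.Coprime.pow_right _ hg.coprime_two_right
  exact orderOf_eq_one_iff.1 (Nat.Coprime.eq_one_of_dvd h2 h1)

theorem Ker2.commute_iff (hf : Ker2 f) (hD : OT D) {a b : X} (ha : a ∈ D) (hb : b ∈ D) :
    Commute (f a) (f b) ↔ Commute a b := by
  refine ⟨fun h => ?_, fun h => h.map f⟩
  rcases hD.pair a ha b hb with h1 | h1
  · exact h1
  · have h2 : f ((a * b) * (a * b)) = 1 := by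
      calc f ((a * b) * (a * b)) = f a * (f b * f a) * f b := by simp only [map_mul]; group
        _ = f a * (f a * f b) * f b := by rw [h.eq]
        _ = f (a * a) * f (b * b) := by simp only [map_mul]; group
        _ = 1 := by rw [hD.sq a ha, hD.sq b hb, map_one, one_mul]
    have h3 : (a * b) * (a * b) = 1 := by
      refine hf.eq_one_of_odd ?_ h2
      refine Odd.of_dvd_nat h1 ?_
      rw [← pow_two]; exact orderOf_pow_dvd 2
    exact hD.commute_of_sq ha hb h3

theorem Ker2.map_mem (hf : Ker2 f) (hD : OT D) {a b : X} (ha : a ∈ D) (hb : b ∈ D)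
    (h : ¬ Commute b a) : f a ∈ Im f D := by
  refine ⟨?_, a, ha, rfl⟩
  intro h1
  apply h
  rw [← hf.commute_iff hD hb ha, h1]
  exact Commute.one_right _

theorem Ker2.cls_map (hf : Ker2 f) (hD : OT D) {d a b : X} (hd : d ∈ D)
    (ha : a ∈ Cls D d) (hb : b ∈ D) (h : ¬ Commute b d) : f a ∈ Cls (Im f D) (f d) := by
  have hba : ¬ Commute b a := fun h1 => h ((ha.2 b hb).2 h1)
  refine ⟨hf.map_mem hD ha.1 hb hba, ?_⟩
  rintro _ ⟨-, c, hc, rfl⟩
  rw [hf.commute_iff hD hc hd, hf.commute_iff hD hc ha.1]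
  exact ha.2 c hc

theorem ker2_mk (P : Subgroup X) [P.Normal] (hP : IsPGroup 2 P) : Ker2 (QuotientGroup.mk' P) := by
  intro g hg
  have h1 : g ∈ P := (QuotientGroup.eq_one_iff g).1 hg
  obtain ⟨k, hk⟩ := hP ⟨g, h1⟩
  refine ⟨k, ?_⟩
  have := congrArg Subtype.val hk
  simpa using this

end Image

/-! ### Transitivity of commuting -/

section

variable {G : Type*} [Group G] {D : Set G}

theorem Gen.cls_conj {d x : G} (h : Gen D d x) {a b g : G} (hab : a ∈ Cls D b) :
    g * a * g⁻¹ ∈ Cls D (g * b * g⁻¹) := by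
  refine ⟨h.conj_mem hab.1 g, ?_⟩
  intro y hy
  have e : ∀ c : G, Commute y (g * c * g⁻¹) ↔ Commute (g⁻¹ * y * g) c := by
    intro c
    constructor
    · intro h1
      show g⁻¹ * y * g * c = c * (g⁻¹ * y * g)
      calc g⁻¹ * y * g * c = g⁻¹ * (y * (g * c * g⁻¹)) * g := by group
        _ = g⁻¹ * ((g * c * g⁻¹) * y) * g := by rw [h1.eq]
        _ = _ := by group
    · intro h1
      show y * (g * c * g⁻¹) = g * c * g⁻¹ * y
      calc y * (g * c * g⁻¹) = g * ((g⁻¹ * y * g) * c) * g⁻¹ := by group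
        _ = g * (c * (g⁻¹ * y * g)) * g⁻¹ := by rw [h1.eq]
        _ = _ := by group
  rw [e, e]
  refine hab.2 _ ?_
  have := h.conj_mem hy g⁻¹
  rwa [inv_inv] at this

/-- Members of `D` that do not commute are conjugate. -/
theorem OT.exists_conj (hD : OT D) {a b : G} (ha : a ∈ D) (hb : b ∈ D) (h : ¬ Commute a b) :
    ∃ g ∈ Subgroup.closure {a, b}, g * a * g⁻¹ = b := by
  have h1 := hD.odd_of ha hb h
  obtain ⟨m, hm⟩ := h1
  set ρ : G := a * b with hρ
  have hbcl : ρ ∈ Subgroup.closure {a, b} :=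
    mul_mem (Subgroup.subset_closure (by simp)) (Subgroup.subset_closure (by simp))
  refine ⟨ρ ^ m, pow_mem hbcl m, ?_⟩
  have haa := hD.sq a ha
  have hinv : a * ρ * a⁻¹ = ρ⁻¹ := by
    rw [hρ, mul_inv_rev, hD.inv ha, hD.inv hb, ← mul_assoc, haa, one_mul]
  have h1 : a * (ρ ^ m)⁻¹ * a⁻¹ = ρ ^ m := by
    rw [← inv_pow, ← conj_pow]
    rw [show a * ρ⁻¹ * a⁻¹ = (a * ρ * a⁻¹)⁻¹ by group, hinv, inv_inv]
  have h2 : a * (ρ ^ m)⁻¹ = ρ ^ m * a := by
    calc a * (ρ ^ m)⁻¹ = (a * (ρ ^ m)⁻¹ * a⁻¹) * a := by group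
      _ = ρ ^ m * a := by rw [h1]
  have h3 : ρ ^ (2 * m + 1) = 1 := by rw [← hm, pow_orderOf_eq_one]
  calc ρ ^ m * a * (ρ ^ m)⁻¹ = ρ ^ m * (a * (ρ ^ m)⁻¹) := by group
    _ = ρ ^ m * (ρ ^ m * a) := by rw [h2]
    _ = (ρ ^ (2 * m + 1)) * ρ⁻¹ * a := by rw [pow_succ, two_mul, pow_add]; group
    _ = b := by
      rw [h3, hρ, mul_inv_rev, hD.inv ha, hD.inv hb, one_mul, mul_assoc, haa, mul_one]

theorem Gen.class {d x a : G} (h : Gen D d x) (ha : a ∈ Cls D d) (had : a ≠ d) {y : G}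
    (hy : y ∈ D) : ∃ g : G, g * d * g⁻¹ = y := by
  obtain ⟨g, -, hg⟩ := h.ot.exists_conj h.hd h.hx (fun h1 => h.nc h1.symm)
  by_cases h1 : Commute y d
  · have h2 := h.eqv_of_commute ha had hy h1
    have h3 : ¬ Commute x y := h.nc_cls h2
    obtain ⟨k, -, hk⟩ := h.ot.exists_conj h.hx hy h3
    exact ⟨k * g, by rw [← hk, ← hg]; group⟩
  · obtain ⟨k, -, hk⟩ := h.ot.exists_conj h.hd hy (fun h2 => h1 h2.symm)
    exact ⟨k, hk⟩

/-- Commuting is transitive on `D`. -/
theorem Gen.trans {d x a : G} (h : Gen D d x) (ha : a ∈ Cls D d) (had : a ≠ d) {y₁ y₂ y₃ : G}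
    (h1 : y₁ ∈ D) (h2 : y₂ ∈ D) (h3 : y₃ ∈ D) (h12 : Commute y₁ y₂) (h23 : Commute y₂ y₃) :
    Commute y₁ y₃ := by
  obtain ⟨g, rfl⟩ := h.class ha had h2
  have e : ∀ c c' : G, Commute c c' ↔ Commute (g⁻¹ * c * g) (g⁻¹ * c' * g) := by
    intro c c'
    constructor
    · intro h1
      show g⁻¹ * c * g * (g⁻¹ * c' * g) = g⁻¹ * c' * g * (g⁻¹ * c * g)
      calc g⁻¹ * c * g * (g⁻¹ * c' * g) = g⁻¹ * (c * c') * g := by group
        _ = g⁻¹ * (c' * c) * g := by rw [h1.eq]
        _ = _ := by group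
    · intro h1
      show c * c' = c' * c
      calc c * c' = g * ((g⁻¹ * c * g) * (g⁻¹ * c' * g)) * g⁻¹ := by group
        _ = g * ((g⁻¹ * c' * g) * (g⁻¹ * c * g)) * g⁻¹ := by rw [h1.eq]
        _ = _ := by group
  have e2 : g⁻¹ * (g * d * g⁻¹) * g = d := by group
  rw [e, e2] at h12 h23
  have c1 : g⁻¹ * y₁ * g ∈ D := by
    have := h.conj_mem h1 g⁻¹
    rwa [inv_inv] at this
  have c3 : g⁻¹ * y₃ * g ∈ D := by
    have := h.conj_mem h3 g⁻¹
    rwa [inv_inv] at this
  rw [e]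
  exact h.commute (h.eqv_of_commute ha had c1 h12) (h.eqv_of_commute ha had c3 h23.symm)

/-- An involution centralizing a generating set is trivial if there are no normal 2-subgroups. -/
theorem eq_one_of_central' {S : Set G} (hS : Subgroup.closure S = ⊤)
    (hO : ∀ N : Subgroup G, N.Normal → IsPGroup 2 N → N = ⊥) {j : G} (hj : j * j = 1)
    (h1 : ∀ e ∈ S, Commute j e) : j = 1 := by
  have hc : ∀ g : G, Commute j g := by
    intro g
    have hg : g ∈ Subgroup.closure S := by rw [hS]; exact Subgroup.mem_top g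
    induction hg using Subgroup.closure_induction with
    | mem y hy => exact h1 y hy
    | one => exact Commute.one_right _
    | mul a b _ _ ha hb => exact ha.mul_right hb
    | inv a _ ha => exact ha.inv_right
  have hn : (Subgroup.closure {j} : Subgroup G).Normal := by
    constructor
    intro n hn g
    have : g * n * g⁻¹ = n := by
      have h3 : Commute n g := by
        induction hn using Subgroup.closure_induction with
        | mem y hy => rw [Set.mem_singleton_iff.1 hy]; exact hc g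
        | one => exact Commute.one_left _
        | mul a b _ _ ha hb => exact ha.mul_left hb
        | inv a _ ha => exact ha.inv_left
      rw [← h3.eq]; group
    rwa [this]
  have hp : IsPGroup 2 (Subgroup.closure {j} : Subgroup G) := by
    apply isPGroup_of_commuting
    · intro s hs; rw [Set.mem_singleton_iff.1 hs]; exact hj
    · intro s hs t ht
      rw [Set.mem_singleton_iff.1 hs, Set.mem_singleton_iff.1 ht]
  have h3 := hO _ hn hp
  have h4 : j ∈ Subgroup.closure {j} := Subgroup.subset_closure rfl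
  rw [h3] at h4
  exact Subgroup.mem_bot.1 h4

/-- **Claim 1 (core).** In `⟨E_d, E_e, x⟩` with `O₂ = 1` and `d` on a line, `d` and `e` are
equivalent. -/
theorem eqv_of_gen2 (hD : OT D) (hO : ∀ N : Subgroup G, N.Normal → IsPGroup 2 N → N = ⊥)
    {d e x a : G} (hd : d ∈ D) (he : e ∈ D) (hde : Commute d e) (hx : x ∈ D)
    (hxd : ¬ Commute x d)
    (hgen : Subgroup.closure (Cls D d ∪ Cls D e ∪ {x}) = ⊤)
    (ha : a ∈ D) (had : Commute a d) (hadD : a * d ∈ D) : Eqv D d e := by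
  by_contra hcon
  have hgt : Subgroup.closure D = ⊤ := by
    rw [eq_top_iff, ← hgen, Subgroup.closure_le]
    rintro y ((hy | hy) | hy)
    · exact Subgroup.subset_closure hy.1
    · exact Subgroup.subset_closure hy.1
    · rw [Set.mem_singleton_iff.1 hy]
      exact Subgroup.subset_closure hx
  have hdc : ∀ y ∈ Cls D d, Commute y d := fun y hy =>
    ((hy.2 d hd).1 (Commute.refl d)).symm
  have hec : ∀ y ∈ Cls D e, Commute y e := fun y hy =>
    ((hy.2 e he).1 (Commute.refl e)).symm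
  -- `E_d`, `E_e` commute elementwise
  have hdd : ∀ y ∈ Cls D d, ∀ z ∈ Cls D d, Commute y z := fun y hy z hz =>
    (hz.2 y hy.1).1 (hdc y hy)
  have hee : ∀ y ∈ Cls D e, ∀ z ∈ Cls D e, Commute y z := fun y hy z hz =>
    (hz.2 y hy.1).1 (hec y hy)
  have hdE : ∀ y ∈ Cls D d, ∀ z ∈ Cls D e, Commute y z := by
    intro y hy z hz
    refine (hz.2 y hy.1).1 ?_
    exact ((hy.2 e he).1 hde.symm).symm
  have haC : a ∈ Cls D d := ⟨ha, hD.line_eqv hd ha had.symm (by rw [← had.eq]; exact hadD)⟩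
  have hadC : a * d ∈ Cls D d := ⟨hadD, haC.2.trans (hD.line_eqv_mul ha hd had hadD)⟩
  have hne : ∀ y ∈ Cls D d, y ≠ e := by
    rintro y hy rfl
    exact hcon hy.2
  have hbad : ∀ y ∈ Cls D d, Commute x (y * e * x * (y * e)) := by
    intro y hy
    have hye : Commute y e := ((hy.2 e he).1 hde.symm).symm
    have ht : (y * e) * (y * e) = 1 := by
      calc y * e * (y * e) = y * (e * y) * e := by group
        _ = y * (y * e) * e := by rw [hye.eq]
        _ = (y * y) * (e * e) := by group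
        _ = 1 := by rw [hD.sq y hy.1, hD.sq e he, one_mul]
    have htS : ∀ z ∈ Cls D d ∪ Cls D e, Commute (y * e) z := by
      rintro z (hz | hz)
      · exact (hdd y hy z hz).mul_left (hdE z hz e ⟨he, Eqv.refl _ _⟩).symm
      · exact (hdE y hy z hz).mul_left (hec z hz).symm
    have hxt : y * e * x * (y * e) ∈ D := by
      have h1 : y * e * x * (y * e)⁻¹ ∈ D :=
        hD.conj_closure (by rw [hgt]; exact Subgroup.mem_top _) hx
      rwa [inv_of_sq ht] at h1
    rcases hD.tri hx ht hxt with h1 | h1 | ⟨c, hc, hct, hcx, htc, -, -⟩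
    · exfalso
      have h2 : y * e = 1 := by
        refine eq_one_of_central' hgen hO ht ?_
        rintro z (hz | hz)
        · exact htS z hz
        · rw [Set.mem_singleton_iff.1 hz]; exact h1
      apply hne y hy
      calc y = y * (e * e) := by rw [hD.sq e he, mul_one]
        _ = (y * e) * e := by group
        _ = e := by rw [h2, one_mul]
    · exact h1.2
    · exfalso
      have hcy : Commute c y := hD.commute_of_commute_mul hy.1 he hye (hne y hy) hc hct
      have hce : Commute c e := hD.commute_of_commute_mul' hy.1 he hye (hne y hy) hc hct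
      have hcd : Commute c d := (hy.2 c hc).2 hcy
      have h2 : (y * e) * c = 1 := by
        refine eq_one_of_central' hgen hO ?_ ?_
        · calc y * e * c * (y * e * c) = (y * e) * (c * (y * e)) * c := by group
            _ = (y * e) * ((y * e) * c) * c := by rw [hct.eq]
            _ = ((y * e) * (y * e)) * (c * c) := by group
            _ = 1 := by rw [ht, hD.sq c hc, one_mul]
        · rintro z ((hz | hz) | hz)
          · exact (htS z (Or.inl hz)).mul_left ((hz.2 c hc).1 hcd)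
          · exact (htS z (Or.inr hz)).mul_left ((hz.2 c hc).1 hce)
          · rw [Set.mem_singleton_iff.1 hz]; exact htc
      have h3 : y * e = c := by
        calc y * e = (y * e) * (c * c) := by rw [hD.sq c hc, mul_one]
          _ = (y * e) * c * c := by group
          _ = c := by rw [h2, one_mul]
      apply hcon
      have h4 : y * e ∈ D := by rw [h3]; exact hc
      exact hy.2.trans (hD.line_eqv hy.1 he hye h4)
  have hea : Commute e a := (haC.2 e he).1 hde.symm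
  exact hD.no_two_bad ha hd had hadD he hea (hne a haC) (hne _ hadC) hx hxd (hbad a haC)
    (hbad _ hadC)

end

/-! ### Subgroups -/

section Sub

variable {G : Type*} [Group G] {D : Set G}

/-- The members of `D` in `Y`. -/
def Sub (D : Set G) (Y : Subgroup G) : Set ↥Y := {y | (y : G) ∈ D}

theorem sub_ot (hD : OT D) (Y : Subgroup G) : OT (Sub D Y) where
  sq := fun a ha => Subtype.ext (hD.sq _ ha)
  ne := fun a ha h => hD.ne _ ha (by rw [h]; rfl)
  conj := fun a ha b hb => hD.conj _ ha _ hb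
  pair := by
    intro a ha b hb
    rcases hD.pair _ ha _ hb with h1 | h1
    · left
      exact Subtype.ext h1
    · right
      rw [← Subgroup.orderOf_coe]
      exact h1

theorem commute_coe {Y : Subgroup G} {a b : ↥Y} : Commute (a : G) (b : G) ↔ Commute a b :=
  ⟨fun h => Subtype.ext h, fun h => congrArg Subtype.val h⟩

theorem cls_sub_of {Y : Subgroup G} {d a : ↥Y} (h : (a : G) ∈ Cls D (d : G)) :
    a ∈ Cls (Sub D Y) d :=
  ⟨h.1, fun y hy => by
    rw [← commute_coe, ← commute_coe]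
    exact h.2 _ hy⟩

/-- A subgroup generated by a set is generated by the same set as a group. -/
theorem closure_sub {S : Set G} {Y : Subgroup G} (hS : Subgroup.closure S = Y) {T : Set ↥Y}
    (hT : ∀ y : ↥Y, (y : G) ∈ S → y ∈ T) : Subgroup.closure T = ⊤ := by
  have hSY : S ⊆ Y := by rw [← hS]; exact Subgroup.subset_closure
  rw [eq_top_iff]
  rintro ⟨y, hy⟩ -
  have hy' : y ∈ Subgroup.closure S := by rw [hS]; exact hy
  have key : ∀ z (hz : z ∈ Subgroup.closure S), ∀ hzY : z ∈ Y, (⟨z, hzY⟩ : ↥Y) ∈ Subgroup.closure T := by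
    intro z hz
    induction hz using Subgroup.closure_induction with
    | mem z hz => intro hzY; exact Subgroup.subset_closure (hT _ hz)
    | one => intro _; exact one_mem _
    | mul a b ha hb iha ihb =>
      intro _
      rw [hS] at ha hb
      exact mul_mem (iha ha) (ihb hb)
    | inv a ha iha =>
      intro _
      rw [hS] at ha
      exact inv_mem (iha ha)
  exact key y hy' hy

theorem closure_image {X K : Type*} [Group X] [Group K] {f : X →* K} (hf : Function.Surjective f)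
    {S : Set X} (hS : Subgroup.closure S = ⊤) {T : Set K} (hT : ∀ s ∈ S, f s ∈ T) :
    Subgroup.closure T = ⊤ := by
  rw [eq_top_iff]
  intro y _
  obtain ⟨x, rfl⟩ := hf y
  have hx : x ∈ Subgroup.closure S := by rw [hS]; exact Subgroup.mem_top x
  induction hx using Subgroup.closure_induction with
  | mem z hz => exact Subgroup.subset_closure (hT z hz)
  | one => rw [map_one]; exact one_mem _
  | mul a b _ _ iha ihb =>
    rw [map_mul]
    exact mul_mem (iha (Subgroup.mem_top _)) (ihb (Subgroup.mem_top _))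
  | inv a _ iha =>
    rw [map_inv]
    exact inv_mem (iha (Subgroup.mem_top _))

/-- The canonical map onto `Y / O₂(Y)`. -/
noncomputable def red (Y : Subgroup G) : ↥Y →* ↥Y ⧸ pCore 2 ↥Y := QuotientGroup.mk' _

theorem red_surj (Y : Subgroup G) : Function.Surjective (red Y) := QuotientGroup.mk'_surjective _

theorem red_ker2 (Y : Subgroup G) : Ker2 (red Y) := ker2_mk _ (Lib.Cores.pCore_isPGroup 2)

theorem red_o2 (Y : Subgroup G) : ∀ N : Subgroup (↥Y ⧸ pCore 2 ↥Y), N.Normal → IsPGroup 2 N → N = ⊥ := by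
  intro N hN hP
  have h1 := Lib.Cores.le_pCore hN hP
  rwa [Lib.Cores.pCore_quotient_pCore, le_bot_iff] at h1

/-- The group `⟨E_d, x⟩` modulo `O₂` satisfies the hypotheses of `Gen`. -/
theorem gen_red (hD : OT D) {d x : G} (hd : d ∈ D) (hx : x ∈ D) (hxd : ¬ Commute x d)
    {Y : Subgroup G} (hY : Subgroup.closure (Cls D d ∪ {x}) = Y) (hdY : d ∈ Y) (hxY : x ∈ Y) :
    Gen (Im (red Y) (Sub D Y)) (red Y ⟨d, hdY⟩) (red Y ⟨x, hxY⟩) := by
  have hS := sub_ot hD Y
  have hK := red_ker2 Y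
  have hnc : ¬ Commute (⟨x, hxY⟩ : ↥Y) ⟨d, hdY⟩ := fun h => hxd (commute_coe.2 h)
  refine ⟨im_ot _ hS, hK.map_mem hS hd hx hnc, hK.map_mem hS hx hd (fun h => hnc h.symm), ?_, ?_,
    red_o2 Y⟩
  · rw [hK.commute_iff hS hx hd]; exact hnc
  · refine closure_image (red_surj Y) (closure_sub (T := Cls (Sub D Y) ⟨d, hdY⟩ ∪ {⟨x, hxY⟩}) hY ?_) ?_
    · rintro ⟨y, hyY⟩ (hy | hy)
      · exact Or.inl (cls_sub_of hy)
      · right
        rw [Set.mem_singleton_iff] at hy ⊢
        exact Subtype.ext hy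
    · rintro y (hy | hy)
      · exact Or.inl (hK.cls_map hS hd hy hx hnc)
      · right
        rw [Set.mem_singleton_iff] at hy ⊢
        rw [hy]

/-- **Claim 1.** The group `⟨E_d, E_e, x⟩` modulo `O₂` satisfies the hypotheses of `Gen`, if
`d` lies on a line. -/
theorem gen_red2 (hD : OT D) {d e x a : G} (hd : d ∈ D) (he : e ∈ D) (hde : Commute d e)
    (hx : x ∈ D) (hxd : ¬ Commute x d) (hxe : ¬ Commute x e)
    (ha : a ∈ D) (had : Commute a d) (hadD : a * d ∈ D)
    {Y : Subgroup G} (hY : Subgroup.closure (Cls D d ∪ Cls D e ∪ {x}) = Y) (hdY : d ∈ Y)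
    (heY : e ∈ Y) (hxY : x ∈ Y) :
    Gen (Im (red Y) (Sub D Y)) (red Y ⟨d, hdY⟩) (red Y ⟨x, hxY⟩) ∧
    Eqv (Im (red Y) (Sub D Y)) (red Y ⟨d, hdY⟩) (red Y ⟨e, heY⟩) ∧
    ∃ a' ∈ Cls (Im (red Y) (Sub D Y)) (red Y ⟨d, hdY⟩), a' ≠ red Y ⟨d, hdY⟩ := by
  have hS := sub_ot hD Y
  have hK := red_ker2 Y
  have hnc : ¬ Commute (⟨x, hxY⟩ : ↥Y) ⟨d, hdY⟩ := fun h => hxd (commute_coe.2 h)
  have hnce : ¬ Commute (⟨x, hxY⟩ : ↥Y) ⟨e, heY⟩ := fun h => hxe (commute_coe.2 h)
  have haC : a ∈ Cls D d := ⟨ha, hD.line_eqv hd ha had.symm (by rw [← had.eq]; exact hadD)⟩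
  have haY : a ∈ Y := by
    rw [← hY]; exact Subgroup.subset_closure (Or.inl (Or.inl haC))
  have haC' : (⟨a, haY⟩ : ↥Y) ∈ Cls (Sub D Y) ⟨d, hdY⟩ := cls_sub_of haC
  have hxa : ¬ Commute (⟨x, hxY⟩ : ↥Y) ⟨a, haY⟩ := fun h => hnc ((haC'.2 _ hx).2 h)
  have hadY : (⟨a, haY⟩ : ↥Y) * ⟨d, hdY⟩ ∈ Sub D Y := hadD
  have hadC : Eqv D d (a * d) := haC.2.trans (hD.line_eqv_mul ha hd had hadD)
  have hxad : ¬ Commute (⟨x, hxY⟩ : ↥Y) (⟨a, haY⟩ * ⟨d, hdY⟩) := by
    intro h
    exact hxd ((hadC x hx).2 (commute_coe.2 h))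
  have hmad := hK.map_mem hS hadY hx hxad
  have hma := hK.map_mem hS (show (⟨a, haY⟩ : ↥Y) ∈ Sub D Y from ha) hx hxa
  have hmd := hK.map_mem hS (show (⟨d, hdY⟩ : ↥Y) ∈ Sub D Y from hd) hx hnc
  have hclos : Subgroup.closure (Cls (Im (red Y) (Sub D Y)) (red Y ⟨d, hdY⟩) ∪
      Cls (Im (red Y) (Sub D Y)) (red Y ⟨e, heY⟩) ∪ {red Y ⟨x, hxY⟩}) = ⊤ := by
    refine closure_image (red_surj Y) (closure_sub
      (T := Cls (Sub D Y) ⟨d, hdY⟩ ∪ Cls (Sub D Y) ⟨e, heY⟩ ∪ {⟨x, hxY⟩}) hY ?_) ?_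
    · rintro ⟨y, hyY⟩ ((hy | hy) | hy)
      · exact Or.inl (Or.inl (cls_sub_of hy))
      · exact Or.inl (Or.inr (cls_sub_of hy))
      · right
        rw [Set.mem_singleton_iff] at hy ⊢
        exact Subtype.ext hy
    · rintro y ((hy | hy) | hy)
      · exact Or.inl (Or.inl (hK.cls_map hS hd hy hx hnc))
      · exact Or.inl (Or.inr (hK.cls_map hS he hy hx hnce))
      · right
        rw [Set.mem_singleton_iff] at hy ⊢
        rw [hy]
  have hncr : ¬ Commute (red Y ⟨x, hxY⟩) (red Y ⟨d, hdY⟩) := by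
    rw [hK.commute_iff hS hx hd]; exact hnc
  have heqv : Eqv (Im (red Y) (Sub D Y)) (red Y ⟨d, hdY⟩) (red Y ⟨e, heY⟩) := by
    refine eqv_of_gen2 (im_ot _ hS) (red_o2 Y) hmd
      (hK.map_mem hS (show (⟨e, heY⟩ : ↥Y) ∈ Sub D Y from he) hx hnce) ?_
      (hK.map_mem hS (show (⟨x, hxY⟩ : ↥Y) ∈ Sub D Y from hx) hd (fun h => hnc h.symm))
      hncr hclos hma ?_ ?_
    · rw [hK.commute_iff hS hd he]; exact commute_coe.1 hde
    · rw [hK.commute_iff hS ha hd]; exact commute_coe.1 had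
    · rw [← map_mul]; exact hmad
  refine ⟨⟨im_ot _ hS, hmd, hK.map_mem hS hx hd (fun h => hnc h.symm), hncr, ?_, red_o2 Y⟩, heqv,
    red Y ⟨a, haY⟩, hK.cls_map hS hd haC' hx hnc, ?_⟩
  · rw [eq_top_iff, ← hclos, Subgroup.closure_le]
    rintro y ((hy | hy) | hy)
    · exact Subgroup.subset_closure (Or.inl hy)
    · exact Subgroup.subset_closure (Or.inl ⟨hy.1, heqv.trans hy.2⟩)
    · exact Subgroup.subset_closure (Or.inr hy)
  · intro h1
    apply hmad.1
    rw [map_mul, h1, ← map_mul]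
    have : (⟨d, hdY⟩ : ↥Y) * ⟨d, hdY⟩ = 1 := Subtype.ext (hD.sq d hd)
    rw [this, map_one]

/-- Commuting is transitive on the noncentral members of `⟨E_d, E_e, x⟩`. -/
theorem trans_of_gen2 (hD : OT D) {d e x a : G} (hd : d ∈ D) (he : e ∈ D) (hde : Commute d e)
    (hx : x ∈ D) (hxd : ¬ Commute x d) (hxe : ¬ Commute x e)
    (ha : a ∈ D) (had : Commute a d) (hadD : a * d ∈ D)
    {Y : Subgroup G} (hY : Subgroup.closure (Cls D d ∪ Cls D e ∪ {x}) = Y)
    {y₁ y₂ y₃ : G} (h1 : y₁ ∈ D) (h1Y : y₁ ∈ Y) (h2 : y₂ ∈ D) (h2Y : y₂ ∈ Y)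
    (h3 : y₃ ∈ D) (h3Y : y₃ ∈ Y) (n1 : ∃ z ∈ D, z ∈ Y ∧ ¬ Commute z y₁)
    (n2 : ∃ z ∈ D, z ∈ Y ∧ ¬ Commute z y₂) (n3 : ∃ z ∈ D, z ∈ Y ∧ ¬ Commute z y₃)
    (h12 : Commute y₁ y₂) (h23 : Commute y₂ y₃) : Commute y₁ y₃ := by
  have hdY : d ∈ Y := by
    rw [← hY]; exact Subgroup.subset_closure (Or.inl (Or.inl ⟨hd, Eqv.refl _ _⟩))
  have heY : e ∈ Y := by
    rw [← hY]; exact Subgroup.subset_closure (Or.inl (Or.inr ⟨he, Eqv.refl _ _⟩))
  have hxY : x ∈ Y := by
    rw [← hY]; exact Subgroup.subset_closure (Or.inr rfl)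
  obtain ⟨hg, -, a', ha', hne⟩ := gen_red2 hD hd he hde hx hxd hxe ha had hadD hY hdY heY hxY
  have hS := sub_ot hD Y
  have hK := red_ker2 Y
  have hm : ∀ y (hy : y ∈ D) (hyY : y ∈ Y), (∃ z ∈ D, z ∈ Y ∧ ¬ Commute z y) →
      red Y ⟨y, hyY⟩ ∈ Im (red Y) (Sub D Y) := by
    rintro y hy hyY ⟨z, hz, hzY, hzy⟩
    exact hK.map_mem hS (show (⟨y, hyY⟩ : ↥Y) ∈ Sub D Y from hy)
      (show (⟨z, hzY⟩ : ↥Y) ∈ Sub D Y from hz) (fun h => hzy (commute_coe.2 h))
  have h5 := hg.trans ha' hne (hm y₁ h1 h1Y n1) (hm y₂ h2 h2Y n2) (hm y₃ h3 h3Y n3)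
    ((commute_coe.1 h12 : Commute (⟨y₁, h1Y⟩ : ↥Y) ⟨y₂, h2Y⟩).map _)
    ((commute_coe.1 h23 : Commute (⟨y₂, h2Y⟩ : ↥Y) ⟨y₃, h3Y⟩).map _)
  rw [hK.commute_iff hS h1 h3] at h5
  exact commute_coe.2 h5

/-- **Claim 2.** Noncentral members of `X = ⟨E_d, x⟩` commuting with `d` lie in `E_d`. -/
theorem mem_cls_of_commute [Finite G] (hD : OT D)
    (hconj : ∀ y ∈ D, ∀ g : G, g * y * g⁻¹ ∈ D)
    {d x a c : G} (hd : d ∈ D)
    (hx : x ∈ D) (hxd : ¬ Commute x d) (ha : a ∈ D) (had : Commute a d) (hadD : a * d ∈ D)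
    (hcl : ∃ g : G, g * d * g⁻¹ = c)
    (hc : c ∈ D) (hcX : c ∈ Subgroup.closure (Cls D d ∪ {x})) (hcd : Commute c d)
    (hcn : ∃ z ∈ D, z ∈ Subgroup.closure (Cls D d ∪ {x}) ∧ ¬ Commute z c) : c ∈ Cls D d := by
  by_contra hcon
  -- there is `y ∈ D` commuting with `d`, but not with `c`
  obtain ⟨y, hy, hyd, hyc⟩ : ∃ y ∈ D, Commute y d ∧ ¬ Commute y c := by
    by_contra hno
    push Not at hno
    have hsub : {y | y ∈ D ∧ Commute y d} ⊆ {y | y ∈ D ∧ Commute y c} :=
      fun y hy => ⟨hy.1, hno y hy.1 hy.2⟩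
    obtain ⟨g, hg⟩ := hcl
    have hcard : ({y | y ∈ D ∧ Commute y c} : Set G).ncard ≤ ({y | y ∈ D ∧ Commute y d} : Set G).ncard := by
      refine Set.ncard_le_ncard_of_injOn (fun y => g⁻¹ * y * g) ?_ ?_ (Set.toFinite _)
      · rintro y ⟨hy, hyc⟩
        refine ⟨?_, ?_⟩
        · have := hconj y hy g⁻¹
          rwa [inv_inv] at this
        · rw [← hg] at hyc
          show g⁻¹ * y * g * d = d * (g⁻¹ * y * g)
          calc g⁻¹ * y * g * d = g⁻¹ * (y * (g * d * g⁻¹)) * g := by group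
            _ = g⁻¹ * ((g * d * g⁻¹) * y) * g := by rw [hyc.eq]
            _ = _ := by group
      · intro y₁ _ y₂ _ h
        have := congrArg (fun z => g * z * g⁻¹) h
        simpa [mul_assoc] using this
    have heq := Set.eq_of_subset_of_ncard_le hsub hcard (Set.toFinite _)
    apply hcon
    refine ⟨hc, fun y hy => ?_⟩
    have := congrArg (fun s => y ∈ s) heq
    simp only [Set.mem_setOf_eq, hy, true_and, eq_iff_iff] at this
    exact this
  have hyx : ¬ Commute x y := by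
    intro hyx
    apply hyc
    -- `y` centralizes `X`
    have hall : ∀ g ∈ Subgroup.closure (Cls D d ∪ {x}), Commute y g := by
      intro g hg
      induction hg using Subgroup.closure_induction with
      | mem z hz =>
        rcases hz with hz | hz
        · exact (hz.2 y hy).1 hyd
        · rw [Set.mem_singleton_iff.1 hz]; exact hyx.symm
      | one => exact Commute.one_right _
      | mul a b _ _ ha hb => exact ha.mul_right hb
      | inv a _ ha => exact ha.inv_right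
    exact hall c hcX
  have hsub : Subgroup.closure (Cls D d ∪ {x}) ≤ Subgroup.closure (Cls D d ∪ Cls D y ∪ {x}) := by
    apply Subgroup.closure_mono
    rintro z (hz | hz)
    · exact Or.inl (Or.inl hz)
    · exact Or.inr hz
  obtain ⟨z, hz, hzX, hzc⟩ := hcn
  have hxX : x ∈ Subgroup.closure (Cls D d ∪ Cls D y ∪ {x}) :=
    Subgroup.subset_closure (Or.inr rfl)
  have h5 : Commute c y := by
    refine trans_of_gen2 hD hd hy hyd.symm hx hxd hyx ha had hadD rfl hc (hsub hcX) hd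
      (hsub (Subgroup.subset_closure (Or.inl ⟨hd, Eqv.refl _ _⟩))) hy
      (Subgroup.subset_closure (Or.inl (Or.inr ⟨hy, Eqv.refl _ _⟩))) ⟨z, hz, hsub hzX, hzc⟩
      ⟨x, hx, hxX, hxd⟩ ⟨x, hx, hxX, hyx⟩ hcd hyd.symm
  exact hyc h5.symm

end Sub

end Cfsg.Agent.H738
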