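import Cfsg.Agent.H738.Root

/-!
# Odd transpositions: minimal 2-groups on which `⟨E_d, x⟩` acts

`RS D d x R`: `R` is a 2-group normalized but not centralized by `X = ⟨E_d, x⟩`, minimal with this
property (`E_d ∪ {1}` a subgroup).  With `C = C_R(X)`, `K = C_R(d)`, `br a u = a (u a u⁻¹)`:

* `comm_mem`: commutators of `R` lie in `C`; `central`: `C ≤ Z(R)`;
* `exists_br`: every element of `K` is `br a u` modulo `C` (for every `a ∈ E_d`);
* `exists_decomp`: `R = C_R(x) K`;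
* `K` is abelian, squares of elements of `R` lie in `C`.
-/

set_option autoImplicit false

universe u

namespace Cfsg.Agent.H738

open Cfsg.Agent.H737

/-- A conjugate of `a` under a 2-group normalized by `a` and `b` commutes with `b`, if `a`
and `b` commute. -/
theorem OT.commute_conj_of_two {G : Type*} [Group G] {D : Set G} (hD : OT D) {P : Subgroup G}
    (hP : IsPGroup 2 P) {a b u : G} (ha : a ∈ D) (hb : b ∈ D) (hab : Commute a b) (hu : u ∈ P)
    (huD : u * a * u⁻¹ ∈ D) (hna : ∀ v ∈ P, a * v * a⁻¹ ∈ P) (hnb : ∀ v ∈ P, b * v * b⁻¹ ∈ P) :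
    Commute (u * a * u⁻¹) b := by
  rcases hD.pair _ huD b hb with h1 | h1
  · exact h1
  have haa := hD.sq a ha
  have hbb := hD.sq b hb
  have h2 : (u * a * u⁻¹ * b) ^ 2 ∈ P := by
    -- `(u a u⁻¹ b)² = (u (a u⁻¹ a)) · (a b) · (u (a u⁻¹ a)) · (a b)`
    have hv : u * (a * u⁻¹ * a⁻¹) ∈ P := mul_mem hu (hna _ (inv_mem hu))
    have hv' : a * b * (u * (a * u⁻¹ * a⁻¹)) * (a * b)⁻¹ ∈ P := by
      have := hna _ (hnb _ hv)
      have e : a * b * (u * (a * u⁻¹ * a⁻¹)) * (a * b)⁻¹ =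
        a * (b * (u * (a * u⁻¹ * a⁻¹)) * b⁻¹) * a⁻¹ := by group
      rwa [e]
    have h3 := mul_mem hv hv'
    have e : (u * a * u⁻¹ * b) ^ 2 =
        u * (a * u⁻¹ * a⁻¹) * (a * b * (u * (a * u⁻¹ * a⁻¹)) * (a * b)⁻¹) := by
      have e1 : u * a * u⁻¹ * b = u * (a * u⁻¹ * a⁻¹) * (a * b) := by group
      have e2 : (a * b) * (a * b) = 1 := by
        calc a * b * (a * b) = a * (b * a) * b := by group
          _ = a * (a * b) * b := by rw [hab.eq]
          _ = (a * a) * (b * b) := by group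
          _ = 1 := by rw [haa, hbb, one_mul]
      rw [pow_two, e1, inv_of_sq e2]
      group
    rw [e]; exact h3
  have h4 := eq_one_of_odd_of_mem hP h1 h2
  have h5 : u * a * u⁻¹ = b := by
    calc u * a * u⁻¹ = (u * a * u⁻¹ * b) * b⁻¹ := by group
      _ = b := by rw [h4, hD.inv hb, one_mul]
  rw [h5]

variable {G : Type u} [Group G] {D : Set G} {d x : G} {R : Subgroup G}

/-- The group `⟨E_d, x⟩`. -/
def XX (D : Set G) (d x : G) : Subgroup G := Subgroup.closure (Cls D d ∪ {x})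

/-- The hypothesis of this file. -/
structure RS (D : Set G) (d x : G) (R : Subgroup G) : Prop where
  h : Hyp D
  hd : d ∈ D
  hx : x ∈ D
  nc : ¬ Commute d x
  mul : ∀ a ∈ Cls D d, ∀ b ∈ Cls D d, a ≠ b → a * b ∈ Cls D d
  pg : IsPGroup 2 R
  nrm : ∀ g ∈ XX D d x, ∀ u ∈ R, g * u * g⁻¹ ∈ R
  ncen : ¬ ∀ g ∈ XX D d x, ∀ u ∈ R, Commute g u
  min : ∀ S : Subgroup G, S ≤ R → (∀ g ∈ XX D d x, ∀ u ∈ S, g * u * g⁻¹ ∈ S) → S ≠ R →
    ∀ g ∈ XX D d x, ∀ u ∈ S, Commute g u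

/-- `a (u a u⁻¹)`. -/
def br (a u : G) : G := a * (u * a * u⁻¹)

namespace RS

/-- `C_R(X)`. -/
def C (D : Set G) (d x : G) (R : Subgroup G) : Subgroup G :=
  R ⊓ Subgroup.centralizer (XX D d x : Set G)

/-- `C_R(d)`. -/
def K (d : G) (R : Subgroup G) : Subgroup G := R ⊓ Subgroup.centralizer {d}

theorem mem_C {u : G} : u ∈ C D d x R ↔ u ∈ R ∧ ∀ g ∈ XX D d x, Commute g u := by
  unfold C
  rw [Subgroup.mem_inf, Subgroup.mem_centralizer_iff]
  rfl

theorem mem_K {u : G} : u ∈ K d R ↔ u ∈ R ∧ Commute u d := by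
  unfold K
  rw [Subgroup.mem_inf, Subgroup.mem_centralizer_singleton_iff]
  exact Iff.rfl

theorem cls_X {a : G} (ha : a ∈ Cls D d) : a ∈ XX D d x := Subgroup.subset_closure (Or.inl ha)

theorem x_X : x ∈ XX D d x := Subgroup.subset_closure (Or.inr rfl)

theorem dd (r : RS D d x R) : d ∈ Cls D d := ⟨r.hd, Eqv.refl _ _⟩

theorem conjD (r : RS D d x R) {a : G} (ha : a ∈ Cls D d) (u : G) : u * a * u⁻¹ ∈ D :=
  r.h.conj ha.1 u

theorem sq_conj (r : RS D d x R) {a : G} (ha : a ∈ Cls D d) (u : G) :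
    (u * a * u⁻¹) * (u * a * u⁻¹) = 1 := r.h.ot.sq _ (r.conjD ha u)

/-- **F1.** -/
theorem comm_conj_cls (r : RS D d x R) {a b u : G} (ha : a ∈ Cls D d) (hb : b ∈ Cls D d)
    (hu : u ∈ R) : Commute (u * a * u⁻¹) b :=
  r.h.ot.commute_conj_of_two r.pg ha.1 hb.1 (r.h.cls_comm r.hd a ha b hb) hu (r.conjD ha u)
    (fun v hv => r.nrm a (cls_X ha) v hv) (fun v hv => r.nrm b (cls_X hb) v hv)

theorem comm_conj_conj (r : RS D d x R) {a b u v : G} (ha : a ∈ Cls D d) (hb : b ∈ Cls D d)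
    (hu : u ∈ R) (hv : v ∈ R) : Commute (u * a * u⁻¹) (v * b * v⁻¹) := by
  have h1 := r.comm_conj_cls ha hb (mul_mem (inv_mem hv) hu)
  show u * a * u⁻¹ * (v * b * v⁻¹) = v * b * v⁻¹ * (u * a * u⁻¹)
  calc u * a * u⁻¹ * (v * b * v⁻¹) = v * ((v⁻¹ * u) * a * (v⁻¹ * u)⁻¹ * b) * v⁻¹ := by group
    _ = v * (b * ((v⁻¹ * u) * a * (v⁻¹ * u)⁻¹)) * v⁻¹ := by rw [h1.eq]
    _ = _ := by group

theorem br_mem (r : RS D d x R) {a u : G} (ha : a ∈ Cls D d) (hu : u ∈ R) : br a u ∈ R := by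
  have h1 := mul_mem (r.nrm a (cls_X ha) u hu) (inv_mem hu)
  have e : br a u = a * u * a⁻¹ * u⁻¹ := by
    unfold br
    rw [r.h.ot.inv ha.1]; group
  rw [e]; exact h1

theorem br_cls (r : RS D d x R) {a b u : G} (ha : a ∈ Cls D d) (hb : b ∈ Cls D d) (hu : u ∈ R) :
    Commute (br a u) b :=
  (r.h.cls_comm r.hd a ha b hb).mul_left (r.comm_conj_cls ha hb hu)

theorem br_br (r : RS D d x R) {a b u v : G} (ha : a ∈ Cls D d) (hb : b ∈ Cls D d) (hu : u ∈ R)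
    (hv : v ∈ R) : Commute (br a u) (br b v) := by
  unfold br
  refine ((r.h.cls_comm r.hd a ha b hb).mul_right (r.comm_conj_cls hb ha hv).symm).mul_left ?_
  exact (r.comm_conj_cls ha hb hu).mul_right (r.comm_conj_conj ha hb hu hv)

theorem br_sq (r : RS D d x R) {a u : G} (ha : a ∈ Cls D d) (hu : u ∈ R) :
    br a u * br a u = 1 := by
  unfold br
  have h1 := (r.comm_conj_cls ha ha hu).eq
  calc a * (u * a * u⁻¹) * (a * (u * a * u⁻¹)) = a * ((u * a * u⁻¹) * a) * (u * a * u⁻¹) := by group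
    _ = a * (a * (u * a * u⁻¹)) * (u * a * u⁻¹) := by rw [h1]
    _ = (a * a) * ((u * a * u⁻¹) * (u * a * u⁻¹)) := by group
    _ = 1 := by rw [r.h.ot.sq a ha.1, r.sq_conj ha, one_mul]

theorem br_K (r : RS D d x R) {a u : G} (ha : a ∈ Cls D d) (hu : u ∈ R) : br a u ∈ K d R :=
  mem_K.2 ⟨r.br_mem ha hu, r.br_cls ha r.dd hu⟩

/-- **R2.** -/
theorem eq_of_commute_x (r : RS D d x R) {a u : G} (ha : a ∈ Cls D d) (hu : u ∈ R)
    (h1 : Commute x (br a u)) : u * a * u⁻¹ = a := by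
  by_contra hne
  have h2 := r.h.ot.commute_of_commute_mul ha.1 (r.conjD ha u) (r.comm_conj_cls ha ha hu).symm
    (fun h3 => hne h3.symm) r.hx h1
  exact r.nc ((ha.2 x r.hx).2 h2).symm

theorem br_eq_one {a u : G} (h : u * a * u⁻¹ = a) (ha : a * a = 1) : br a u = 1 := by
  unfold br
  rw [h, ha]

theorem not_mem (r : RS D d x R) {a : G} (ha : a ∈ Cls D d) : a ∉ R := by
  intro haR
  have hxx := r.h.ot.sq x r.hx
  have hnc : ¬ Commute x a := fun h1 => r.nc ((ha.2 x r.hx).2 h1).symm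
  have hodd := r.h.ot.odd_of r.hx ha.1 hnc
  have h1 : (x * a) ^ 2 ∈ R := by
    have h2 := mul_mem (r.nrm x x_X a haR) haR
    have e : (x * a) ^ 2 = x * a * x⁻¹ * a := by rw [pow_two, r.h.ot.inv r.hx]; group
    rwa [e]
  have h2 := eq_one_of_odd_of_mem r.pg hodd h1
  apply hnc
  have : x = a := by
    calc x = (x * a) * a⁻¹ := by group
      _ = a := by rw [h2, r.h.ot.inv ha.1, one_mul]
  rw [this]

theorem conj_cls_self (r : RS D d x R) {a u : G} (ha : a ∈ Cls D d)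
    (hua : u * a * u⁻¹ ∈ Cls D d) (hu : u ∈ R) : u * a * u⁻¹ = a := by
  by_contra hne
  exact r.not_mem (r.mul a ha _ hua (fun h1 => hne h1.symm)) (r.br_mem ha hu)

/-- **R3.** -/
theorem comm_cls (r : RS D d x R) {a b u : G} (ha : a ∈ Cls D d) (hb : b ∈ Cls D d) (hu : u ∈ R)
    (hua : u * a * u⁻¹ = a) : u * b * u⁻¹ = b := by
  refine r.conj_cls_self hb ?_ hu
  have h1 : b ∈ Cls D a := ⟨hb.1, ha.2.symm.trans hb.2⟩
  have h2 := r.h.cls_conj u h1
  rw [hua] at h2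
  exact ⟨h2.1, ha.2.trans h2.2⟩

theorem conj_eq_iff {a u : G} : u * a * u⁻¹ = a ↔ Commute u a := by
  constructor
  · intro h1
    show u * a = a * u
    calc u * a = (u * a * u⁻¹) * u := by group
      _ = a * u := by rw [h1]
  · intro h1
    rw [h1.eq]; group

theorem mem_K_iff (r : RS D d x R) {a u : G} (ha : a ∈ Cls D d) (hu : u ∈ R) :
    u ∈ K d R ↔ u * a * u⁻¹ = a := by
  rw [mem_K, ← conj_eq_iff]
  constructor
  · rintro ⟨-, h1⟩
    exact r.comm_cls r.dd ha hu h1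
  · intro h1
    exact ⟨hu, r.comm_cls ha r.dd hu h1⟩

theorem mem_C_iff (r : RS D d x R) {u : G} : u ∈ C D d x R ↔ u ∈ K d R ∧ Commute x u := by
  constructor
  · intro h1
    rw [mem_C] at h1
    exact ⟨mem_K.2 ⟨h1.1, (h1.2 d (cls_X r.dd)).symm⟩, h1.2 x x_X⟩
  · rintro ⟨h1, h2⟩
    have hu := (mem_K.1 h1).1
    refine mem_C.2 ⟨hu, fun g hg => ?_⟩
    refine (commute_closure (S := Cls D d ∪ {x}) ?_ hg).symm
    rintro s (hs | hs)
    · exact conj_eq_iff.1 ((r.mem_K_iff hs hu).1 h1)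
    · rw [Set.mem_singleton_iff.1 hs]; exact h2.symm

theorem br_mem_C (r : RS D d x R) {a u : G} (ha : a ∈ Cls D d) (hu : u ∈ R)
    (h1 : br a u ∈ C D d x R) : u ∈ K d R :=
  (r.mem_K_iff ha hu).2 (r.eq_of_commute_x ha hu (mem_C.1 h1 |>.2 x x_X))

theorem C_le (_r : RS D d x R) : C D d x R ≤ K d R := by
  intro u hu
  rw [mem_C] at hu
  exact mem_K.2 ⟨hu.1, (hu.2 d (cls_X ⟨_r.hd, Eqv.refl _ _⟩)).symm⟩

theorem exists_ne (r : RS D d x R) (b : G) : ∃ a ∈ Cls D d, a ≠ b := by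
  obtain ⟨a, ha, had, hadD⟩ := r.h.line d r.hd
  obtain ⟨h1, -, h3⟩ := r.h.line_cls r.hd ha had hadD
  by_cases hab : a = b
  · exact ⟨d, r.dd, fun h4 => h3 (hab.trans h4.symm)⟩
  · exact ⟨a, h1, hab⟩

theorem exists_ne_ne (r : RS D d x R) {e : G} (he : e ∈ Cls D d) :
    ∃ a ∈ Cls D d, a ≠ e ∧ a * e ∈ Cls D d := by
  obtain ⟨a, ha, hae⟩ := r.exists_ne e
  exact ⟨a, ha, hae, r.mul a ha e he hae⟩

/-- **P-lemma.** If `[R, X]` consists of elements centralized by `X`, then `X` centralizes `R`. -/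
theorem cen_of [Finite G] (r : RS D d x R) (h1 : ∀ u ∈ R, ∀ g ∈ XX D d x, ∀ k ∈ XX D d x,
    Commute k (u⁻¹ * (g * u * g⁻¹))) : False := by
  apply r.ncen
  have hodd : ∀ g ∈ XX D d x, Odd (orderOf g) → ∀ u ∈ R, Commute g u := by
    intro g hg ho u hu
    set c : G := u⁻¹ * (g * u * g⁻¹) with hc
    have hcg : Commute g c := h1 u hu g hg g hg
    have hgu : g * u * g⁻¹ = u * c := by rw [hc]; group
    have hk : ∀ k : ℕ, g ^ k * u * (g ^ k)⁻¹ = u * c ^ k := by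
      intro k
      induction k with
      | zero => simp
      | succ k ih =>
        have h2 : g * c ^ k * g⁻¹ = c ^ k := by
          rw [(hcg.pow_right k).eq]; group
        calc g ^ (k + 1) * u * (g ^ (k + 1))⁻¹ = g * (g ^ k * u * (g ^ k)⁻¹) * g⁻¹ := by
              rw [pow_succ']; group
          _ = g * (u * c ^ k) * g⁻¹ := by rw [ih]
          _ = (g * u * g⁻¹) * (g * c ^ k * g⁻¹) := by group
          _ = u * c ^ (k + 1) := by rw [hgu, h2, pow_succ']; group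
    have h3 := hk (orderOf g)
    rw [pow_orderOf_eq_one] at h3
    have h4 : c ^ orderOf g = 1 := by
      calc c ^ orderOf g = u⁻¹ * (u * c ^ orderOf g) := by group
        _ = 1 := by rw [← h3]; group
    have h5 : Odd (orderOf c) := Odd.of_dvd_nat ho (orderOf_dvd_of_pow_eq_one h4)
    have hcR : c ∈ R := mul_mem (inv_mem hu) (r.nrm g hg u hu)
    have h6 : c = 1 := eq_one_of_odd_of_mem r.pg h5 (pow_mem hcR 2)
    rw [h6, mul_one] at hgu
    exact conj_eq_iff.1 hgu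
  have hax : ∀ a ∈ Cls D d, ∀ u ∈ R, Commute (a * x) u := by
    intro a ha u hu
    refine hodd _ (mul_mem (cls_X ha) x_X) ?_ u hu
    refine r.h.ot.odd_of ha.1 r.hx (fun h2 => r.nc ?_)
    exact ((ha.2 x r.hx).2 h2.symm).symm
  have he : ∀ e ∈ Cls D d, ∀ u ∈ R, Commute e u := by
    intro e he u hu
    obtain ⟨a, ha, hae, hae'⟩ := r.exists_ne_ne he
    have h2 := (hax a ha u hu).mul_left ((hax _ hae' u hu).inv_left)
    have e1 : a * x * (a * e * x)⁻¹ = e := by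
      rw [mul_inv_rev, mul_inv_rev, r.h.ot.inv he.1, r.h.ot.inv ha.1]
      calc a * x * (x⁻¹ * (e * a)) = a * (e * a) := by group
        _ = a * (a * e) := by rw [(r.h.cls_comm r.hd e he a ha).eq]
        _ = (a * a) * e := by group
        _ = e := by rw [r.h.ot.sq a ha.1, one_mul]
    rwa [e1] at h2
  intro g hg u hu
  refine (commute_closure (S := Cls D d ∪ {x}) ?_ hg).symm
  rintro s (hs | hs)
  · exact (he s hs u hu).symm
  · rw [Set.mem_singleton_iff.1 hs]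
    have h2 := (he d r.dd u hu).mul_left (hax d r.dd u hu)
    have e1 : d * (d * x) = x := by rw [← mul_assoc, r.h.ot.sq d r.hd, one_mul]
    rw [e1] at h2
    exact h2.symm

variable [Finite G]

/-- **R5.** Commutators of `R` lie in `C`. -/
theorem comm_mem (r : RS D d x R) {u v : G} (hu : u ∈ R) (hv : v ∈ R) :
    u * v * u⁻¹ * v⁻¹ ∈ C D d x R := by
  set S : Subgroup G := Subgroup.closure {g | ∃ u ∈ R, ∃ v ∈ R, u * v * u⁻¹ * v⁻¹ = g} with hS
  have hSR : S ≤ R := by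
    rw [hS, Subgroup.closure_le]
    rintro _ ⟨u, hu, v, hv, rfl⟩
    exact mul_mem (mul_mem (mul_mem hu hv) (inv_mem hu)) (inv_mem hv)
  have hSn : ∀ g ∈ XX D d x, ∀ u ∈ S, g * u * g⁻¹ ∈ S := by
    intro g hg u hu
    refine conj_mem_closure (T := {g | ∃ u ∈ R, ∃ v ∈ R, u * v * u⁻¹ * v⁻¹ = g}) ?_ hu
    rintro _ ⟨u, hu, v, hv, rfl⟩
    exact ⟨g * u * g⁻¹, r.nrm g hg u hu, g * v * g⁻¹, r.nrm g hg v hv, by group⟩
  have hSne : S ≠ R := by
    intro hSR'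
    have hfact : Fact (Nat.Prime 2) := ⟨Nat.prime_two⟩
    have hRne : R ≠ ⊥ := by
      rintro rfl
      apply r.ncen
      intro g _ u hu
      rw [Subgroup.mem_bot.1 hu]
      exact Commute.one_right _
    have hnt : Nontrivial ↥R := (Subgroup.nontrivial_iff_ne_bot R).2 hRne
    have hnil : Group.IsNilpotent ↥R := r.pg.isNilpotent
    have hsol : Group.IsSolvable ↥R := inferInstance
    have hlt := Group.IsSolvable.commutator_lt_top_of_nontrivial (G := ↥R)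
    apply hlt.ne
    rw [eq_top_iff]
    rintro ⟨w, hw⟩ -
    have hw' : w ∈ S := by rw [hSR']; exact hw
    refine (Subgroup.closure_le (commutator ↥R)).2 ?_ (mem_closure_sub (L := R)
      (T := {g : ↥R | ∃ u v : ↥R, u * v * u⁻¹ * v⁻¹ = g}) ?_ ?_ hw' hw)
    · rintro _ ⟨u, v, rfl⟩
      exact Subgroup.commutator_mem_commutator (Subgroup.mem_top u) (Subgroup.mem_top v)
    · rintro _ ⟨u, hu, v, hv, rfl⟩
      exact mul_mem (mul_mem (mul_mem hu hv) (inv_mem hu)) (inv_mem hv)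
    · rintro y ⟨u, hu, v, hv, hy⟩
      exact ⟨⟨u, hu⟩, ⟨v, hv⟩, Subtype.ext hy⟩
  have h1 : u * v * u⁻¹ * v⁻¹ ∈ S := Subgroup.subset_closure ⟨u, hu, v, hv, rfl⟩
  exact mem_C.2 ⟨hSR h1, fun g hg => r.min S hSR hSn hSne g hg _ h1⟩

/-- **R6.** `C` is central in `R`. -/
theorem central (r : RS D d x R) {c u : G} (hc : c ∈ C D d x R) (hu : u ∈ R) : Commute u c := by
  set S : Subgroup G := R ⊓ Subgroup.centralizer (C D d x R : Set G) with hS
  have hmem : ∀ w, w ∈ S ↔ w ∈ R ∧ ∀ c ∈ C D d x R, Commute w c := by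
    intro w
    rw [hS, Subgroup.mem_inf, Subgroup.mem_centralizer_iff]
    exact and_congr_right fun _ => forall₂_congr fun c _ => ⟨fun h => h.symm, fun h => h.symm⟩
  have hSn : ∀ g ∈ XX D d x, ∀ u ∈ S, g * u * g⁻¹ ∈ S := by
    intro g hg w hw
    rw [hmem] at hw ⊢
    refine ⟨r.nrm g hg w hw.1, fun c hc => ?_⟩
    have hgc : g * c = c * g := (mem_C.1 hc).2 g hg
    have h1 := (hw.2 c hc).eq
    have hgc' : g⁻¹ * c = c * g⁻¹ := by
      calc g⁻¹ * c = g⁻¹ * (c * g) * g⁻¹ := by group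
        _ = g⁻¹ * (g * c) * g⁻¹ := by rw [hgc]
        _ = c * g⁻¹ := by group
    show g * w * g⁻¹ * c = c * (g * w * g⁻¹)
    calc g * w * g⁻¹ * c = g * w * (g⁻¹ * c) := by group
      _ = g * (w * c) * g⁻¹ := by rw [hgc']; group
      _ = (g * c) * w * g⁻¹ := by rw [h1]; group
      _ = c * (g * w * g⁻¹) := by rw [hgc]; group
  by_cases hne : S = R
  · have h1 : u ∈ S := by rw [hne]; exact hu
    exact ((hmem u).1 h1).2 c hc
  · exfalso
    apply r.cen_of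
    intro w hw g hg k hk
    refine r.min S inf_le_left hSn hne k hk _ ?_
    rw [hmem]
    refine ⟨mul_mem (inv_mem hw) (r.nrm g hg w hw), fun c hc => ?_⟩
    -- `w c w⁻¹ ∈ C`
    have hgc : g * c = c * g := (mem_C.1 hc).2 g hg
    have hgc' : g⁻¹ * c * g = c := by
      calc g⁻¹ * c * g = g⁻¹ * (c * g) := by group
        _ = c := by rw [← hgc]; group
    have h2 : w * c * w⁻¹ ∈ C D d x R := by
      have h3 := mul_mem (r.comm_mem hw (mem_C.1 hc).1) hc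
      have e : w * c * w⁻¹ * c⁻¹ * c = w * c * w⁻¹ := by group
      rwa [e] at h3
    have h4 : g * (w * c * w⁻¹) * g⁻¹ = w * c * w⁻¹ := conj_eq_iff.2 ((mem_C.1 h2).2 g hg)
    show w⁻¹ * (g * w * g⁻¹) * c = c * (w⁻¹ * (g * w * g⁻¹))
    calc w⁻¹ * (g * w * g⁻¹) * c = w⁻¹ * (g * (w * (g⁻¹ * c * g) * w⁻¹) * g⁻¹) * (g * w * g⁻¹) := by
          group
      _ = w⁻¹ * (g * (w * c * w⁻¹) * g⁻¹) * (g * w * g⁻¹) := by rw [hgc']
      _ = w⁻¹ * (w * c * w⁻¹) * (g * w * g⁻¹) := by rw [h4]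
      _ = c * (w⁻¹ * (g * w * g⁻¹)) := by group

/-- `C_R(x)`. -/
theorem exists_g (r : RS D d x R) : ∃ g ∈ XX D d x, g * d * g⁻¹ = x := by
  obtain ⟨g, hg, h1⟩ := r.h.ot.exists_conj r.hd r.hx r.nc
  refine ⟨g, ?_, h1⟩
  refine (Subgroup.closure_le _).2 ?_ hg
  rintro s (rfl | hs)
  · exact cls_X r.dd
  · rw [Set.mem_singleton_iff.1 hs]; exact x_X

theorem C_conj (r : RS D d x R) {c g : G} (hc : c ∈ C D d x R) (hg : g ∈ XX D d x) :
    g * c * g⁻¹ = c := conj_eq_iff.2 ((mem_C.1 hc).2 g hg)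

/-- The counting argument: the three injections are bijections. -/
theorem count (r : RS D d x R) {a : G} (ha : a ∈ Cls D d) :
    (∀ k ∈ K d R, ∃ u ∈ R, (br a u)⁻¹ * k ∈ C D d x R) ∧
    ∀ u ∈ R, ∃ l ∈ K x R, l⁻¹ * u ∈ K d R := by
  classical
  obtain ⟨g, hg, hgd⟩ := r.exists_g
  have hgx : g⁻¹ * x * g = d := by rw [← hgd]; group
  -- membership in `K x R`
  have hKg : ∀ k ∈ K d R, g * k * g⁻¹ ∈ K x R := by
    intro k hk
    rw [mem_K] at hk ⊢
    refine ⟨r.nrm g hg k hk.1, ?_⟩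
    rw [← hgd]
    show g * k * g⁻¹ * (g * d * g⁻¹) = g * d * g⁻¹ * (g * k * g⁻¹)
    calc g * k * g⁻¹ * (g * d * g⁻¹) = g * (k * d) * g⁻¹ := by group
      _ = g * (d * k) * g⁻¹ := by rw [hk.2.eq]
      _ = _ := by group
  have hCx : C D d x R ≤ K x R := by
    intro c hc
    rw [mem_C] at hc
    exact mem_K.2 ⟨hc.1, (hc.2 x x_X).symm⟩
  have hCd := r.C_le
  have hKR : K d R ≤ R := inf_le_left
  have hKxR : K x R ≤ R := inf_le_left
  -- the three quotients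
  let α := ↥(K x R) ⧸ (C D d x R).subgroupOf (K x R)
  let β := ↥R ⧸ (K d R).subgroupOf R
  let γ := ↥(K d R) ⧸ (C D d x R).subgroupOf (K d R)
  have rel : ∀ {H L : Subgroup G} {p q : ↥L},
      (QuotientGroup.mk p : ↥L ⧸ H.subgroupOf L) = QuotientGroup.mk q ↔ (p : G)⁻¹ * q ∈ H := by
    intro H L p q
    rw [QuotientGroup.eq, Subgroup.mem_subgroupOf]
    exact Iff.rfl
  let f₁ : γ → α := Quotient.lift
    (fun k : ↥(K d R) => (QuotientGroup.mk ⟨g * k * g⁻¹, hKg k k.2⟩ : α)) (by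
      intro p q hpq
      have hpq' : (p : G)⁻¹ * q ∈ C D d x R := rel.1 (Quotient.sound hpq)
      refine rel.2 ?_
      show (g * (p : G) * g⁻¹)⁻¹ * (g * q * g⁻¹) ∈ C D d x R
      have e : (g * (p : G) * g⁻¹)⁻¹ * (g * q * g⁻¹) = g * ((p : G)⁻¹ * q) * g⁻¹ := by group
      rw [e, r.C_conj hpq' hg]; exact hpq')
  let f₂ : α → β := Quotient.lift
    (fun l : ↥(K x R) => (QuotientGroup.mk ⟨l, hKxR l.2⟩ : β)) (by
      intro p q hpq
      have hpq' : (p : G)⁻¹ * q ∈ C D d x R := rel.1 (Quotient.sound hpq)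
      exact rel.2 (hCd hpq'))
  let f₃ : β → γ := Quotient.lift
    (fun u : ↥R => (QuotientGroup.mk ⟨br a u, r.br_K ha u.2⟩ : γ)) (by
      intro p q hpq
      have hpq' : (p : G)⁻¹ * q ∈ K d R := rel.1 (Quotient.sound hpq)
      refine rel.2 ?_
      have h1 := (r.mem_K_iff ha (mul_mem (inv_mem p.2) q.2)).1 hpq'
      have h2 : br a (q : G) = br a (p : G) := by
        unfold br
        congr 1
        calc (q : G) * a * (q : G)⁻¹ = p * ((p : G)⁻¹ * q * a * ((p : G)⁻¹ * q)⁻¹) * (p : G)⁻¹ := by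
              group
          _ = _ := by rw [h1]
      show (br a (p : G))⁻¹ * br a (q : G) ∈ C D d x R
      rw [h2, inv_mul_cancel]
      exact one_mem _)
  have i₁ : Function.Injective f₁ := by
    intro p q
    obtain ⟨p, rfl⟩ := QuotientGroup.mk_surjective p
    obtain ⟨q, rfl⟩ := QuotientGroup.mk_surjective q
    intro h1
    have h1' : (QuotientGroup.mk ⟨g * p * g⁻¹, hKg p p.2⟩ : α) =
      QuotientGroup.mk ⟨g * q * g⁻¹, hKg q q.2⟩ := h1
    have h2 : (g * (p : G) * g⁻¹)⁻¹ * (g * q * g⁻¹) ∈ C D d x R := rel.1 h1'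
    refine rel.2 ?_
    have h3 := r.C_conj h2 (inv_mem hg)
    have e : g⁻¹ * ((g * (p : G) * g⁻¹)⁻¹ * (g * q * g⁻¹)) * g⁻¹⁻¹ = (p : G)⁻¹ * q := by group
    rw [e] at h3
    rw [h3]; exact h2
  have i₂ : Function.Injective f₂ := by
    intro p q
    obtain ⟨p, rfl⟩ := QuotientGroup.mk_surjective p
    obtain ⟨q, rfl⟩ := QuotientGroup.mk_surjective q
    intro h1
    have h1' : (QuotientGroup.mk ⟨p, hKxR p.2⟩ : β) = QuotientGroup.mk ⟨q, hKxR q.2⟩ := h1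
    have h2 : (p : G)⁻¹ * q ∈ K d R :=
      (rel (H := K d R) (L := R) (p := ⟨p, hKxR p.2⟩) (q := ⟨q, hKxR q.2⟩)).1 h1'
    refine rel.2 ?_
    rw [r.mem_C_iff]
    refine ⟨h2, ?_⟩
    exact (mem_K.1 (mul_mem (inv_mem p.2) q.2)).2.symm
  have i₃ : Function.Injective f₃ := by
    intro p q
    obtain ⟨p, rfl⟩ := QuotientGroup.mk_surjective p
    obtain ⟨q, rfl⟩ := QuotientGroup.mk_surjective q
    intro h1
    have h1' : (QuotientGroup.mk ⟨br a p, r.br_K ha p.2⟩ : γ) =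
      QuotientGroup.mk ⟨br a q, r.br_K ha q.2⟩ := h1
    have h2 : (br a (p : G))⁻¹ * br a (q : G) ∈ C D d x R := rel.1 h1'
    refine rel.2 ?_
    have hpq : (p : G)⁻¹ * q ∈ R := mul_mem (inv_mem p.2) q.2
    apply r.br_mem_C ha hpq
    -- conjugate by `p`
    have e : p * br a ((p : G)⁻¹ * q) * (p : G)⁻¹ = (br a (p : G))⁻¹ * br a (q : G) := by
      rw [inv_of_sq (r.br_sq ha p.2)]
      unfold br
      have h3 := (r.comm_conj_cls ha ha p.2).eq
      calc p * (a * ((p : G)⁻¹ * q * a * ((p : G)⁻¹ * q)⁻¹)) * (p : G)⁻¹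
          = (p * a * (p : G)⁻¹) * (q * a * (q : G)⁻¹) := by group
        _ = (p * a * (p : G)⁻¹) * (a * a) * (q * a * (q : G)⁻¹) := by
            rw [r.h.ot.sq a ha.1, mul_one]
        _ = ((p * a * (p : G)⁻¹) * a) * (a * (q * a * (q : G)⁻¹)) := by group
        _ = (a * (p * a * (p : G)⁻¹)) * (a * (q * a * (q : G)⁻¹)) := by rw [h3]
    have h4 : br a ((p : G)⁻¹ * q) = (br a (p : G))⁻¹ * br a (q : G) := by
      have h5 := (r.central h2 (inv_mem p.2)).eq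
      calc br a ((p : G)⁻¹ * q) = (p : G)⁻¹ * (p * br a ((p : G)⁻¹ * q) * (p : G)⁻¹) * p := by group
        _ = (p : G)⁻¹ * ((br a (p : G))⁻¹ * br a (q : G)) * p := by rw [e]
        _ = _ := by rw [h5]; group
    rw [h4]; exact h2
  have c₁ : Nat.card γ ≤ Nat.card α := Nat.card_le_card_of_injective f₁ i₁
  have c₂ : Nat.card α ≤ Nat.card β := Nat.card_le_card_of_injective f₂ i₂
  have c₃ : Nat.card β ≤ Nat.card γ := Nat.card_le_card_of_injective f₃ i₃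
  have b₂ : Function.Bijective f₂ := i₂.bijective_of_nat_card_le (by omega)
  have b₃ : Function.Bijective f₃ := i₃.bijective_of_nat_card_le (by omega)
  constructor
  · intro k hk
    obtain ⟨p, hp⟩ := b₃.2 (QuotientGroup.mk ⟨k, hk⟩)
    obtain ⟨p, rfl⟩ := QuotientGroup.mk_surjective p
    exact ⟨p, p.2, rel.1 hp⟩
  · intro u hu
    obtain ⟨p, hp⟩ := b₂.2 (QuotientGroup.mk ⟨u, hu⟩)
    obtain ⟨p, rfl⟩ := QuotientGroup.mk_surjective p
    exact ⟨p, p.2, rel.1 hp⟩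

theorem exists_br (r : RS D d x R) {a : G} (ha : a ∈ Cls D d) {k : G} (hk : k ∈ K d R) :
    ∃ u ∈ R, ∃ c ∈ C D d x R, k = br a u * c := by
  obtain ⟨u, hu, h1⟩ := (r.count ha).1 k hk
  exact ⟨u, hu, _, h1, by group⟩

theorem exists_decomp (r : RS D d x R) {u : G} (hu : u ∈ R) :
    ∃ l ∈ K x R, ∃ k ∈ K d R, u = l * k := by
  obtain ⟨l, hl, h1⟩ := (r.count r.dd).2 u hu
  exact ⟨l, hl, _, h1, by group⟩

/-- `K` is abelian. -/
theorem K_comm (r : RS D d x R) {k l : G} (hk : k ∈ K d R) (hl : l ∈ K d R) : Commute k l := by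
  obtain ⟨u, hu, c, hc, rfl⟩ := r.exists_br r.dd hk
  obtain ⟨v, hv, c', hc', rfl⟩ := r.exists_br r.dd hl
  have h1 := r.br_br r.dd r.dd hu hv
  have h2 := r.central hc (r.br_mem r.dd hv)
  have h3 := r.central hc' (r.br_mem r.dd hu)
  have h4 := r.central hc' (mem_C.1 hc).1
  exact (h1.mul_right h3).mul_left (h2.symm.mul_right h4)

theorem K_sq (r : RS D d x R) {k : G} (hk : k ∈ K d R) : k * k ∈ C D d x R := by
  obtain ⟨u, hu, c, hc, rfl⟩ := r.exists_br r.dd hk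
  have h2 := (r.central hc (r.br_mem r.dd hu)).eq
  have e : br d u * c * (br d u * c) = (br d u * br d u) * (c * c) := by
    calc br d u * c * (br d u * c) = br d u * (c * br d u) * c := by group
      _ = br d u * (br d u * c) * c := by rw [h2]
      _ = _ := by group
  rw [e, r.br_sq r.dd hu, one_mul]
  exact mul_mem hc hc

theorem Kx_sq (r : RS D d x R) {l : G} (hl : l ∈ K x R) : l * l ∈ C D d x R := by
  obtain ⟨g, hg, hgd⟩ := r.exists_g
  have hk : g⁻¹ * l * g ∈ K d R := by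
    rw [mem_K] at hl ⊢
    refine ⟨?_, ?_⟩
    · have := r.nrm g⁻¹ (inv_mem hg) l hl.1
      rwa [inv_inv] at this
    · have h1 := hl.2.eq
      rw [← hgd] at h1
      show g⁻¹ * l * g * d = d * (g⁻¹ * l * g)
      calc g⁻¹ * l * g * d = g⁻¹ * (l * (g * d * g⁻¹)) * g := by group
        _ = g⁻¹ * ((g * d * g⁻¹) * l) * g := by rw [h1]
        _ = _ := by group
  have h1 := r.K_sq hk
  have e : l * l = g * (g⁻¹ * l * g * (g⁻¹ * l * g)) * g⁻¹ := by group
  rw [e, r.C_conj h1 hg]; exact h1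

theorem Kx_comm (r : RS D d x R) {k l : G} (hk : k ∈ K x R) (hl : l ∈ K x R) : Commute k l := by
  obtain ⟨g, hg, hgd⟩ := r.exists_g
  have hcj : ∀ l ∈ K x R, g⁻¹ * l * g ∈ K d R := by
    intro l hl
    rw [mem_K] at hl ⊢
    refine ⟨?_, ?_⟩
    · have := r.nrm g⁻¹ (inv_mem hg) l hl.1
      rwa [inv_inv] at this
    · have h1 := hl.2.eq
      rw [← hgd] at h1
      show g⁻¹ * l * g * d = d * (g⁻¹ * l * g)
      calc g⁻¹ * l * g * d = g⁻¹ * (l * (g * d * g⁻¹)) * g := by group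
        _ = g⁻¹ * ((g * d * g⁻¹) * l) * g := by rw [h1]
        _ = _ := by group
  have h1 := (r.K_comm (hcj k hk) (hcj l hl)).eq
  show k * l = l * k
  calc k * l = g * (g⁻¹ * k * g * (g⁻¹ * l * g)) * g⁻¹ := by group
    _ = g * (g⁻¹ * l * g * (g⁻¹ * k * g)) * g⁻¹ := by rw [h1]
    _ = l * k := by group

/-- Squares of elements of `R` lie in `C`. -/
theorem sq_mem (r : RS D d x R) {u : G} (hu : u ∈ R) : u * u ∈ C D d x R := by
  obtain ⟨l, hl, k, hk, rfl⟩ := r.exists_decomp hu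
  have hlR := (mem_K.1 hl).1
  have hkR := (mem_K.1 hk).1
  have h1 := r.comm_mem (inv_mem hl |> fun h => (mem_K.1 h).1) hkR
  -- `l k l k = l² (l⁻¹ k l k⁻¹) k²`
  have e : l * k * (l * k) = (l * l) * (l⁻¹ * k * l⁻¹⁻¹ * k⁻¹) * (k * k) := by group
  rw [e]
  exact mul_mem (mul_mem (r.Kx_sq hl) h1) (r.K_sq hk)

end RS

/-- Existence of minimal groups. -/
theorem exists_RS [Finite G] (h : Hyp D) (hd : d ∈ D) (hx : x ∈ D) (hnc : ¬ Commute d x)
    (hmul : ∀ a ∈ Cls D d, ∀ b ∈ Cls D d, a ≠ b → a * b ∈ Cls D d) {Q : Subgroup G}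
    (hQ : IsPGroup 2 Q) (hn : ∀ g ∈ XX D d x, ∀ u ∈ Q, g * u * g⁻¹ ∈ Q)
    (hc : ¬ ∀ g ∈ XX D d x, ∀ u ∈ Q, Commute g u) : ∃ R ≤ Q, RS D d x R := by
  classical
  have key : ∀ n : ℕ, ∀ R : Subgroup G, Nat.card R = n → R ≤ Q →
      (∀ g ∈ XX D d x, ∀ u ∈ R, g * u * g⁻¹ ∈ R) → (¬ ∀ g ∈ XX D d x, ∀ u ∈ R, Commute g u) →
      ∃ R ≤ Q, RS D d x R := by
    intro n
    induction n using Nat.strong_induction_on with
    | _ n ih =>
    intro R hRn hRQ hRn' hRc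
    by_cases hmin : ∀ S : Subgroup G, S ≤ R → (∀ g ∈ XX D d x, ∀ u ∈ S, g * u * g⁻¹ ∈ S) → S ≠ R →
        ∀ g ∈ XX D d x, ∀ u ∈ S, Commute g u
    · exact ⟨R, hRQ, h, hd, hx, hnc, hmul, hQ.to_le hRQ, hRn', hRc, hmin⟩
    · push Not at hmin
      obtain ⟨S, hSR, hSn, hSne, g, hg, u, hu, hgu⟩ := hmin
      refine ih (Nat.card S) ?_ S rfl (hSR.trans hRQ) hSn (fun h1 => hgu (h1 g hg u hu))
      rw [← hRn]
      have h1 : Nat.card S ≤ Nat.card R := Nat.card_le_card_of_injective _ (Subgroup.inclusion_injective hSR)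
      rcases h1.lt_or_eq with h2 | h2
      · exact h2
      · exfalso
        apply hSne
        exact Subgroup.eq_of_le_of_card_ge hSR h2.ge
  exact key _ Q rfl le_rfl hn hc

end Cfsg.Agent.H738
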