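import Cfsg.Agent.H738.Pair
import Cfsg.Agent.S0206
import Cfsg.Prelude.Def_Sz
import Cfsg.Prelude.Def_CaseTheorems

/-!
# The groups `⟨E_d, x⟩` modulo `O₂` (modulo the rank one theorem)
-/

set_option autoImplicit false

universe u

namespace Cfsg.Agent.H738

open Cfsg.Agent.H737

/-- `K` is `L₂(q)` or `Sz(q)`, `q > 2` a power of 2. -/
def IsL2Sz (K : Type u) [Group K] : Prop :=
  (∃ (F : Type) (_ : Field F) (_ : Fintype F), CharP F 2 ∧ 4 ≤ Fintype.card F ∧
      Nonempty (K ≃* Matrix.ProjectiveSpecialLinearGroup (Fin 2) F)) ∨ Lie.IsoSuzuki K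

/-- The rank one theorem. -/
def RankOneThm : Prop :=
  ∀ (K : Type u) [Group K] [Finite K] (D : Set K) (d x a : K), Gen D d x → a ∈ Cls D d → a ≠ d →
    IsL2Sz K

theorem sameCommutingClass_eq {G : Type u} [Group G] {D : Set G} (d : G) :
    sameCommutingClass D d = Cls D d := by
  ext e
  constructor
  · rintro ⟨h1, h2⟩
    refine ⟨h1, fun y hy => ?_⟩
    have h3 := congrArg (fun s => y ∈ s) h2
    simp only [commutingMembers, eq_iff_iff] at h3
    constructor
    · intro h4
      exact (h3.1 ⟨hy, h4⟩).2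
    · intro h4
      exact (h3.2 ⟨hy, h4⟩).2
  · rintro ⟨h1, h2⟩
    refine ⟨h1, ?_⟩
    ext y
    constructor
    · rintro ⟨hy, h4⟩
      exact ⟨hy, (h2 y hy).1 h4⟩
    · rintro ⟨hy, h4⟩
      exact ⟨hy, (h2 y hy).2 h4⟩

theorem not_commute_of_oddPartner {G : Type u} [Group G] {D : Set G} (hD : OT D) {d x : G}
    (hd : d ∈ D) (hx : x ∈ oddPartners D d) : ¬ Commute x d := by
  intro h
  obtain ⟨hxD, hne, hodd⟩ := hx
  have h1 : d * x = 1 := by
    refine eq_one_of_odd_of_sq hodd ?_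
    calc d * x * (d * x) = d * (x * d) * x := by group
      _ = d * (d * x) * x := by rw [h.eq]
      _ = (d * d) * (x * x) := by group
      _ = 1 := by rw [hD.sq d hd, hD.sq x hxD, one_mul]
  apply hne
  calc x = (d * d) * x := by rw [hD.sq d hd, one_mul]
    _ = d * (d * x) := by group
    _ = d := by rw [h1, mul_one]

/-- The group in the situation of `Gen`: dihedral, `L₂(q)` or `Sz(q)`. -/
theorem gen_cases (hR : RankOneThm.{u}) {K : Type u} [Group K] [Finite K] {D : Set K} {d x : K}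
    (h : Gen D d x) : IsL2Sz K ∨ ∃ n : ℕ, Nonempty (K ≃* DihedralGroup n) := by
  by_cases h1 : ∃ a ∈ Cls D d, a ≠ d
  · obtain ⟨a, ha, had⟩ := h1
    exact Or.inl (hR K D d x a h ha had)
  · right
    push Not at h1
    have hset : Cls D d ∪ {x} = {d, x} := by
      ext y
      constructor
      · rintro (hy | hy)
        · exact Or.inl (h1 y hy)
        · exact Or.inr hy
      · rintro (hy | hy)
        · rw [hy]; exact Or.inl ⟨h.hd, Eqv.refl _ _⟩
        · exact Or.inr hy
    have hgen := h.gen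
    rw [hset] at hgen
    have ho : ∀ a ∈ D, orderOf a = 2 := fun a ha =>
      orderOf_eq_prime (by rw [pow_two]; exact h.ot.sq a ha) (h.ot.ne a ha)
    have hne : d ≠ x := by
      rintro rfl
      exact h.nc (Commute.refl _)
    obtain ⟨e⟩ := S0206.result d x (ho d h.hd) (ho x h.hx) hne
    refine ⟨orderOf (d * x), ⟨?_⟩⟩
    refine MulEquiv.trans ?_ e
    exact (Subgroup.topEquiv.symm).trans (MulEquiv.subgroupCongr hgen.symm)

/-- S5051 modulo the rank one theorem. -/
theorem s5051 (hR : RankOneThm.{u}) {G : Type u} [Group G] [Finite G] {D : Set G}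
    (hD : IsOddTranspositionSet D) {d x : G} (hd : d ∈ D) (hx : x ∈ oddPartners D d) :
    (∃ (F : Type) (_ : Field F) (_ : Fintype F), CharP F 2 ∧ 4 ≤ Fintype.card F ∧
      Nonempty ((↥(Subgroup.closure (Cfsg.sameCommutingClass D d ∪ {x})) ⧸
        Cfsg.pCore 2 ↥(Subgroup.closure (Cfsg.sameCommutingClass D d ∪ {x}))) ≃* Matrix.ProjectiveSpecialLinearGroup (Fin 2) F)) ∨
    Cfsg.Lie.IsoSuzuki ((↥(Subgroup.closure (Cfsg.sameCommutingClass D d ∪ {x})) ⧸
        Cfsg.pCore 2 ↥(Subgroup.closure (Cfsg.sameCommutingClass D d ∪ {x})))) ∨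
    (∃ n : ℕ, Nonempty ((↥(Subgroup.closure (Cfsg.sameCommutingClass D d ∪ {x})) ⧸
        Cfsg.pCore 2 ↥(Subgroup.closure (Cfsg.sameCommutingClass D d ∪ {x}))) ≃* DihedralGroup n)) := by
  have hOT := ot_of hD
  have hnc := not_commute_of_oddPartner hOT hd hx
  have hgen := gen_red hOT hd hx.1 hnc (Y := Subgroup.closure (sameCommutingClass D d ∪ {x}))
    (by rw [sameCommutingClass_eq])
    (by
      rw [sameCommutingClass_eq]
      exact Subgroup.subset_closure (Or.inl ⟨hd, Eqv.refl _ _⟩))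
    (Subgroup.subset_closure (Or.inr rfl))
  rcases gen_cases hR hgen with (h1 | h1) | h1
  · exact Or.inl h1
  · exact Or.inr (Or.inl h1)
  · exact Or.inr (Or.inr h1)

end Cfsg.Agent.H738
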