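import Cfsg.Agent.H738.Deep

/-!
# Odd transpositions: `E_d ∪ {1}` is a subgroup if `O₂(G) = 1`

* `mul_cls`: `ab ∈ E_d` for different `a, b ∈ E_d`, if `O₂(G) = 1`.
* `common_fibre`: for commuting `x, f ∈ D`, both not commuting with `d ∈ D`, there are
  `c ∈ E_x`, `e ∈ E_f` with `ce` in a 2-group normalized by `⟨E_x, E_f, d⟩`.
-/

set_option autoImplicit false

universe u

namespace Cfsg.Agent.H738

open Cfsg.Agent.H737

variable {G : Type u} [Group G] {D : Set G}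

/-- **`E_d ∪ {1}` is closed under multiplication.** -/
theorem mul_cls [Finite G] (h : Hyp D) (hO : pCore 2 G = ⊥) {d x : G} (hd : d ∈ D) (hx : x ∈ D)
    (hdx : ¬ Commute d x) {a b : G} (ha : a ∈ Cls D d) (hb : b ∈ Cls D d) (hab : a ≠ b) :
    a * b ∈ Cls D d := by
  have hcab : Commute a b := h.cls_comm hd a ha b hb
  by_cases hz : a * b ∈ D
  · exact ⟨hz, ha.2.trans (h.ot.line_eqv_mul ha.1 hb.1 hcab hz)⟩
  exfalso
  have hzz : a * b * (a * b) = 1 := by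
    calc a * b * (a * b) = a * (b * a) * b := by group
      _ = a * (a * b) * b := by rw [hcab.eq]
      _ = (a * a) * (b * b) := by group
      _ = 1 := by rw [h.ot.sq a ha.1, h.ot.sq b hb.1, one_mul]
  have hz1 : a * b ≠ 1 := by
    intro h1
    apply hab
    calc a = a * (b * b) := by rw [h.ot.sq b hb.1, mul_one]
      _ = (a * b) * b := by group
      _ = b := by rw [h1, one_mul]
  have hzcl : a * b ∈ Subgroup.closure (Cls D d) :=
    mul_mem (Subgroup.subset_closure ha) (Subgroup.subset_closure hb)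
  have hmain : ∀ y ∈ D, Commute y (a * b * y * (a * b)) := by
    intro y hy
    by_cases hyd : Commute y d
    · have h1 : Commute y (a * b) := h.commute_closure_cls hy hyd hzcl
      have : a * b * y * (a * b) = y := by rw [← h1.eq, mul_assoc, hzz, mul_one]
      rw [this]
    · rcases h.ot.tri hy hzz (h.conj' hy hzz) with h1 | h1 | ⟨c, hc, hcz, hcy, hjy, hccl, hnc⟩
      · exfalso
        have h2 := deep h hd hy (fun h3 => hyd h3.symm) hzcl h1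
        rw [hO, Subgroup.mem_bot] at h2
        exact hz1 h2
      · exact h1.2
      · exfalso
        have hca : Commute c a := h.ot.commute_of_commute_mul ha.1 hb.1 hcab hab hc hcz
        have hcd : Commute c d := (ha.2 c hc).2 hca
        have hyX : y ∈ Subgroup.closure (Cls D d ∪ {y}) := Subgroup.subset_closure (Or.inr rfl)
        have hzX : a * b ∈ Subgroup.closure (Cls D d ∪ {y}) :=
          Subgroup.closure_mono Set.subset_union_left hzcl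
        have hcX : c ∈ Subgroup.closure (Cls D d ∪ {y}) := by
          refine (Subgroup.closure_le _).2 ?_ hccl
          rintro s (rfl | hs)
          · exact hyX
          · rw [Set.mem_singleton_iff.1 hs]
            exact mul_mem (mul_mem hzX hyX) hzX
        have hyc : ¬ Commute y c := by
          intro h2
          have h3 : c * y * c = y := by rw [← h2.eq, mul_assoc, h.ot.sq c hc, mul_one]
          rw [hcy] at h3
          apply hnc
          rw [h3]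
        obtain ⟨a', ha', had', hadD'⟩ := h.line d hd
        have hcC : c ∈ Cls D d := mem_cls_of_commute h.ot (fun y hy g => h.conj hy g) hd hy hyd
          ha' had' hadD' (h.cls d hd c hc) hc hcX hcd ⟨y, hy, hyX, hyc⟩
        have hj : a * b * c ∈ Subgroup.closure (Cls D d) :=
          mul_mem hzcl (Subgroup.subset_closure hcC)
        have h2 := deep h hd hy (fun h3 => hyd h3.symm) hj hjy
        rw [hO, Subgroup.mem_bot] at h2
        apply hz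
        have h3 : a * b = c := by
          calc a * b = (a * b * c) * c := by rw [mul_assoc _ c c, h.ot.sq c hc, mul_one]
            _ = c := by rw [h2, one_mul]
        rw [h3]; exact hc
  have h1 := mem_pCore_of_main h hd hzcl hmain
  rw [hO, Subgroup.mem_bot] at h1
  exact hz1 h1

/-- Common elements of fibres. -/
theorem common_fibre [Finite G] (h : Hyp D) {d x f : G} (hd : d ∈ D) (hx : x ∈ D) (hf : f ∈ D)
    (hxd : ¬ Commute d x) (hfd : ¬ Commute d f) (hfx : Commute f x) :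
    ∃ Q : Subgroup G, IsPGroup 2 Q ∧
      (∀ g ∈ Subgroup.closure (Cls D x ∪ Cls D f ∪ {d}), ∀ q ∈ Q, g * q * g⁻¹ ∈ Q) ∧
      ∃ c ∈ Cls D x, ∃ e ∈ Cls D f, c * e ∈ Q := by
  have hD := h.ot
  have hR : RankOneR1.{u} := rankOneR1
  have hcl := h.cls
  have hline := h.line
  have hconj : ∀ y ∈ D, ∀ g : G, g * y * g⁻¹ ∈ D := fun y hy g => h.conj hy g
  obtain ⟨a, ha, hax, haxD⟩ := hline x hx
  obtain ⟨b, hb, hbf, hbfD⟩ := hline f hf
  -- `Y = ⟨E_x, E_f, d⟩`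
  set Y : Subgroup G := Subgroup.closure (Cls D x ∪ Cls D f ∪ {d}) with hY
  have hxY : x ∈ Y := Subgroup.subset_closure (Or.inl (Or.inl ⟨hx, Eqv.refl _ _⟩))
  have hfY : f ∈ Y := Subgroup.subset_closure (Or.inl (Or.inr ⟨hf, Eqv.refl _ _⟩))
  have hdY : d ∈ Y := Subgroup.subset_closure (Or.inr rfl)
  obtain ⟨hg, heqv, a', ha', hne⟩ := gen_red2 hD hx hf hfx.symm hd hxd hfd ha hax haxD hY.symm
    hxY hfY hdY
  have hK : R1 (↥Y ⧸ pCore 2 ↥Y) := hR _ _ _ _ _ hg ha' hne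
  have hS := sub_ot hD Y
  have hker := red_ker2 Y
  have hom := im_ot (red Y) hS
  -- the subgroups `⟨E_x, d⟩` and `⟨E_f, d⟩` of `Y / O₂(Y)`
  have main : ∀ (y : G) (hyY : y ∈ Y), y ∈ D → ¬ Commute d y → (∀ e ∈ Cls D y, e ∈ Y) →
      ∃ K₁ : Subgroup (↥Y ⧸ pCore 2 ↥Y), R1 ↥K₁ ∧ red Y ⟨d, hdY⟩ ∈ K₁ ∧ red Y ⟨y, hyY⟩ ∈ K₁ ∧
        ∀ i ∈ K₁, i * i = 1 → i ≠ 1 → Commute i (red Y ⟨y, hyY⟩) →
          ∃ c, ∃ hcY : c ∈ Y, c ∈ Cls D y ∧ red Y ⟨c, hcY⟩ = i := by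
    intro y hyY hy hyd hsub
    set X : Subgroup G := Subgroup.closure (Cls D y ∪ {d}) with hX
    have hXY : X ≤ Y := by
      rw [hX, Subgroup.closure_le]
      rintro z (hz | hz)
      · exact hsub z hz
      · rw [Set.mem_singleton_iff.1 hz]; exact hdY
    have hdX : d ∈ X := Subgroup.subset_closure (Or.inr rfl)
    have hyX : y ∈ X := Subgroup.subset_closure (Or.inl ⟨hy, Eqv.refl _ _⟩)
    -- the image of `X`
    set ι : ↥X →* (↥Y ⧸ pCore 2 ↥Y) := (red Y).comp (Subgroup.inclusion hXY) with hι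
    set f₁ : ↥X →* ↥ι.range := ι.rangeRestrict with hf₁
    have hf₁s : Function.Surjective f₁ := MonoidHom.rangeRestrict_surjective ι
    have hval : ∀ z : ↥X, ((f₁ z : ↥ι.range) : ↥Y ⧸ pCore 2 ↥Y) = red Y ⟨z, hXY z.2⟩ := fun z => rfl
    have hker₁ : Ker2 f₁ := by
      intro z hz
      have h1 : red Y ⟨z, hXY z.2⟩ = 1 := by rw [← hval, hz]; rfl
      obtain ⟨k, hk⟩ := hker _ h1
      refine ⟨k, Subtype.ext ?_⟩
      have := congrArg Subtype.val hk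
      simpa using this
    have hSX := sub_ot hD X
    have hncX : ¬ Commute (⟨d, hdX⟩ : ↥X) ⟨y, hyX⟩ := fun h => hyd (commute_coe.2 h)
    have hyK : ¬ Commute (red Y ⟨d, hdY⟩) (red Y ⟨y, hyY⟩) := by
      rw [hker.commute_iff hS hd hy]
      exact fun h => hyd (commute_coe.2 h)
    have hsqd : red Y ⟨d, hdY⟩ * red Y ⟨d, hdY⟩ = 1 := by
      rw [← map_mul, show (⟨d, hdY⟩ : ↥Y) * ⟨d, hdY⟩ = 1 from Subtype.ext (hD.sq d hd), map_one]
    have hsqy : red Y ⟨y, hyY⟩ * red Y ⟨y, hyY⟩ = 1 := by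
      rw [← map_mul, show (⟨y, hyY⟩ : ↥Y) * ⟨y, hyY⟩ = 1 from Subtype.ext (hD.sq y hy), map_one]
    have hgen₁ : Gen (Im f₁ (Sub D X)) (f₁ ⟨y, hyX⟩) (f₁ ⟨d, hdX⟩) := by
      refine ⟨im_ot _ hSX, hker₁.map_mem hSX hy hd hncX,
        hker₁.map_mem hSX hd hy (fun h => hncX h.symm), ?_, ?_, ?_⟩
      · rw [hker₁.commute_iff hSX hd hy]; exact hncX
      · refine closure_image hf₁s
          (closure_sub (T := Cls (Sub D X) ⟨y, hyX⟩ ∪ {⟨d, hdX⟩}) hX.symm ?_) ?_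
        · rintro ⟨z, hzX⟩ (hz | hz)
          · exact Or.inl (cls_sub_of hz)
          · right
            rw [Set.mem_singleton_iff] at hz ⊢
            exact Subtype.ext hz
        · rintro z (hz | hz)
          · exact Or.inl (hker₁.cls_map hSX hy hz hd hncX)
          · right
            rw [Set.mem_singleton_iff] at hz ⊢
            rw [hz]
      · intro N hN hP
        exact hK.o2 hsqy hsqd (hval ⟨y, hyX⟩ ▸ (f₁ ⟨y, hyX⟩).2) (hval ⟨d, hdX⟩ ▸ (f₁ ⟨d, hdX⟩).2)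
          hyK N hN hP
    -- a second member of the class of `y`
    obtain ⟨a, ha, hay, hayD⟩ := hline y hy
    have haC : a ∈ Cls D y := ⟨ha, hD.line_eqv hy ha hay.symm (by rw [← hay.eq]; exact hayD)⟩
    have haX : a ∈ X := Subgroup.subset_closure (Or.inl haC)
    have haC' : (⟨a, haX⟩ : ↥X) ∈ Cls (Sub D X) ⟨y, hyX⟩ := cls_sub_of haC
    have hayne : f₁ ⟨a, haX⟩ ≠ f₁ ⟨y, hyX⟩ := by
      intro h1
      have h2 : f₁ (⟨a, haX⟩ * ⟨y, hyX⟩) = 1 := by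
        rw [map_mul, h1, ← map_mul, show (⟨y, hyX⟩ : ↥X) * ⟨y, hyX⟩ = 1 from
          Subtype.ext (hD.sq y hy), map_one]
      have h3 : ¬ Commute (⟨d, hdX⟩ : ↥X) (⟨a, haX⟩ * ⟨y, hyX⟩) := by
        intro h4
        apply hyd
        exact ((haC.2.trans (hD.line_eqv_mul ha hy hay hayD)) d hd).2 (commute_coe.2 h4)
      exact (hker₁.map_mem hSX (show (⟨a, haX⟩ : ↥X) * ⟨y, hyX⟩ ∈ Sub D X from hayD)
        (show (⟨d, hdX⟩ : ↥X) ∈ Sub D X from hd) h3).1 h2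
    have hR₁ : R1 ↥ι.range := hR _ _ _ _ _ hgen₁ (hker₁.cls_map hSX hy haC' hd hncX) hayne
    refine ⟨ι.range, hR₁, (f₁ ⟨d, hdX⟩).2, (f₁ ⟨y, hyX⟩).2, ?_⟩
    intro i hi hii hi1 hiy
    -- `i` is conjugate to the image of `y`
    have hsq₁ : f₁ ⟨y, hyX⟩ * f₁ ⟨y, hyX⟩ = 1 := Subtype.ext hsqy
    obtain ⟨g, hg⟩ := hR₁.conj (f₁ ⟨y, hyX⟩) ⟨i, hi⟩ hsq₁ (hgen₁.ot.ne _ hgen₁.hd)
      (Subtype.ext hii) (fun h => hi1 (congrArg Subtype.val h))
    have hiD : (⟨i, hi⟩ : ↥ι.range) ∈ Im f₁ (Sub D X) := by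
      rw [← hg]; exact hgen₁.conj_mem hgen₁.hd g
    have hzD : g * f₁ ⟨d, hdX⟩ * g⁻¹ ∈ Im f₁ (Sub D X) := hgen₁.conj_mem hgen₁.hx g
    obtain ⟨-, c, hc, hci⟩ := hiD
    obtain ⟨-, z, hz, hzi⟩ := hzD
    have hcy : Commute (c : G) y := by
      have h1 : Commute (f₁ c) (f₁ ⟨y, hyX⟩) := by
        rw [hci]; exact Subtype.ext hiy
      exact commute_coe.2 ((hker₁.commute_iff hSX hc hy).1 h1)
    have hzc : ¬ Commute (z : G) c := by
      intro h1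
      have h2 : Commute (f₁ z) (f₁ c) := (commute_coe.1 h1).map f₁
      rw [hzi, hci, ← hg] at h2
      apply hgen₁.nc
      have h3 : (g * f₁ ⟨d, hdX⟩ * g⁻¹) * (g * f₁ ⟨y, hyX⟩ * g⁻¹) =
        (g * f₁ ⟨y, hyX⟩ * g⁻¹) * (g * f₁ ⟨d, hdX⟩ * g⁻¹) := h2
      show f₁ ⟨d, hdX⟩ * f₁ ⟨y, hyX⟩ = f₁ ⟨y, hyX⟩ * f₁ ⟨d, hdX⟩
      calc f₁ ⟨d, hdX⟩ * f₁ ⟨y, hyX⟩ =
            g⁻¹ * ((g * f₁ ⟨d, hdX⟩ * g⁻¹) * (g * f₁ ⟨y, hyX⟩ * g⁻¹)) * g := by group
        _ = g⁻¹ * ((g * f₁ ⟨y, hyX⟩ * g⁻¹) * (g * f₁ ⟨d, hdX⟩ * g⁻¹)) * g := by rw [h3]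
        _ = _ := by group
    refine ⟨c, hXY c.2, ?_, ?_⟩
    · refine mem_cls_of_commute hD hconj hy hd hyd ha hay hayD ?_ hc c.2 hcy ⟨z, hz, z.2, hzc⟩
      exact hcl y hy c hc
    · have := congrArg Subtype.val hci
      exact this
  obtain ⟨K₁, hR₁, hd₁, hx₁, hm₁⟩ := main x hxY hx hxd
    (fun e he => Subgroup.subset_closure (Or.inl (Or.inl he)))
  obtain ⟨K₂, hR₂, hd₂, hf₂, hm₂⟩ := main f hfY hf hfd
    (fun e he => Subgroup.subset_closure (Or.inl (Or.inr he)))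
  have hsq : ∀ y (hyY : y ∈ Y), y ∈ D → red Y ⟨y, hyY⟩ * red Y ⟨y, hyY⟩ = 1 := by
    intro y hyY hy
    rw [← map_mul, show (⟨y, hyY⟩ : ↥Y) * ⟨y, hyY⟩ = 1 from Subtype.ext (hD.sq y hy), map_one]
  have hnc : ∀ y (hyY : y ∈ Y), y ∈ D → ¬ Commute d y →
      ¬ Commute (red Y ⟨d, hdY⟩) (red Y ⟨y, hyY⟩) := by
    intro y hyY hy h
    rw [hker.commute_iff hS hd hy]
    exact fun h' => h (commute_coe.2 h')
  have hne1 : ∀ y (hyY : y ∈ Y), y ∈ D → ¬ Commute d y → red Y ⟨y, hyY⟩ ≠ 1 := by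
    intro y hyY hy h h1
    apply hnc y hyY hy h
    rw [h1]; exact Commute.one_right _
  have hd1 : red Y ⟨d, hdY⟩ ≠ 1 := by
    intro h1
    apply hnc x hxY hx hxd
    rw [h1]; exact Commute.one_left _
  obtain ⟨i, hi₁, hi₂, hii, hi1, hix, hif⟩ := hK.common_involution hR₁ hR₂ (hsq d hdY hd) hd1
    (hsq x hxY hx) (hne1 x hxY hx hxd) (hsq f hfY hf) (hne1 f hfY hf hfd)
    ((commute_coe.1 hfx.symm : Commute (⟨x, hxY⟩ : ↥Y) ⟨f, hfY⟩).map _)
    (hnc x hxY hx hxd) (hnc f hfY hf hfd) hd₁ hd₂ hx₁ hf₂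
  obtain ⟨c, hcY, hc, hci⟩ := hm₁ i hi₁ hii hi1 hix
  obtain ⟨e, heY, he, hei⟩ := hm₂ i hi₂ hii hi1 hif
  have hn2 : (pCore 2 ↥Y).Normal := Lib.Cores.pCore_normal 2
  refine ⟨(pCore 2 ↥Y).map Y.subtype, (Lib.Cores.pCore_isPGroup 2).map _, ?_, c, hc, e, he, ?_⟩
  · rintro g hg _ ⟨q, hq, rfl⟩
    exact ⟨⟨g, hg⟩ * q * ⟨g, hg⟩⁻¹, hn2.conj_mem q hq _, rfl⟩
  · refine ⟨⟨c, hcY⟩ * ⟨e, heY⟩, ?_, rfl⟩
    have h1 : red Y (⟨c, hcY⟩ * ⟨e, heY⟩) = 1 := by
      rw [map_mul, hei, hci, hii]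
    exact (QuotientGroup.eq_one_iff _).1 h1

end Cfsg.Agent.H738
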