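import Cfsg.Agent.H738.KRoot
import Cfsg.Agent.H736.HoleEnd
import Cfsg.Agent.H731.PrimeD
import Cfsg.Agent.S0206
import Cfsg.Agent.S5044
import Cfsg.Agent.LieClassical.SLTwoTwo

/-!
# Glue for the Root Involution Theorem

* `four_pair`: for `x ∈ V_d` and `z = (dx)²` commutation with a fixed `a ∈ E(d)#` maps `E(x)` onto
  `E(z)`.
* `kroot_nondegenerate`: the class of `E(d)` is a class of `F`-root subgroups, if `⟨E(d), E(x)⟩` is
  `L₂(q)` for all opposite `d, x`.
* `kroot_prime`: all this for `|E(d)| = 2` and all odd orders equal to 3.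
* `disconnected`: the disconnected case.
-/

set_option autoImplicit false

universe u

namespace Cfsg.Agent.H738

open Cfsg.Agent.H731 Cfsg.Agent.H737 Cfsg.Agent.H736.Hole

namespace Glue

variable {G : Type u} [Group G] [Finite G] {D : Set G}

/-- Non-degenerate classes of root involutions. -/
structure Nd (D : Set G) : Prop where
  h : IsRootInvolutionSet D
  hc : IsConnectedSet (OddAdj D) D
  cls : ∀ a ∈ D, ∀ b ∈ D, ∃ g : G, b = g * a * g⁻¹
  mem : ∀ d ∈ D, ∀ x : G, x ∈ EG D d ↔ x = 1 ∨ x ∈ EC D d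

theorem nd_of (hD : IsNondegenerateRootInvolutionSet D) (hcl : IsRootInvolutionClass D)
    (hO : pCore 2 G = ⊥) (hZ : Subgroup.center G = ⊥) : Nd D where
  h := hD.1
  hc := by
    obtain ⟨p, hp, q, hq, hpq, hpqo⟩ := hD.2.2.1
    exact Cfsg.Agent.H733.odd_connected hcl ⟨p, hp, q, hq, hpq, hpqo⟩
  cls := hcl.2.2
  mem := fun _ hd _ => mem_EG_iff hD hcl hO hZ hd

namespace Nd

variable (n : Nd D)
include n

theorem conj {d : G} (hd : d ∈ D) (g : G) : g * d * g⁻¹ ∈ D := n.h.conj_mem d hd g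

theorem EG_conjBy (d g : G) : conjBy (EG D d) g = EG D (g * d * g⁻¹) := by
  apply le_antisymm
  · rintro _ ⟨a, ha, rfl⟩
    exact EG_conj n.h ha g
  · intro y hy
    have h1 := EG_conj n.h hy g⁻¹
    have e1 : g⁻¹ * (g * d * g⁻¹) * g⁻¹⁻¹ = d := by group
    rw [e1] at h1
    refine ⟨g⁻¹ * y * g⁻¹⁻¹, h1, ?_⟩
    show g * (g⁻¹ * y * g⁻¹⁻¹) * g⁻¹ = y
    group

theorem card_eq {d e : G} (hd : d ∈ D) (he : e ∈ D) : Nat.card (EG D e) = Nat.card (EG D d) := by
  obtain ⟨g, rfl⟩ := n.cls d hd e he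
  rw [← n.EG_conjBy]
  exact Subgroup.card_map_of_injective (MulAut.conj g).injective

/-- A member commuting with one member of `E_d` commutes with all. -/
theorem comm_iff {d a y : G} (hd : d ∈ D) (ha : a ∈ EC D d) (hy : y ∈ D) :
    Commute y a ↔ Commute y d := sim_comm_iff n.h n.hc ha.1 hd ha.2 hy

theorem comm_iff₂ {d x a b : G} (hd : d ∈ D) (hx : x ∈ D) (ha : a ∈ EC D d) (hb : b ∈ EC D x) :
    Commute a b ↔ Commute d x := by
  rw [n.comm_iff hx hb ha.1]
  constructor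
  · intro h1; exact ((n.comm_iff hd ha hx).1 h1.symm).symm
  · intro h1; exact ((n.comm_iff hd ha hx).2 h1.symm).symm

theorem comm_EG₂ {d x a b : G} (hd : d ∈ D) (hx : x ∈ D) (hdx : Commute d x) (ha : a ∈ EG D d)
    (hb : b ∈ EG D x) : Commute a b := by
  rcases (n.mem d hd a).1 ha with h1 | h1
  · rw [h1]; exact Commute.one_left b
  · rcases (n.mem x hx b).1 hb with h2 | h2
    · rw [h2]; exact Commute.one_right a
    · exact (n.comm_iff₂ hd hx h1 h2).2 hdx

/-- The commutator of `a ∈ E_d` and `b ∈ E_x`, for `dx` of order 4. -/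
theorem four_pair {d x : G} (hd : d ∈ D) (hx : x ∈ D) (h4 : orderOf (d * x) = 4) :
    ∃ z ∈ D, d ∈ WSet D z ∧ x ∈ WSet D z ∧
      (∀ a ∈ EC D d, ∀ b ∈ EC D x, a * b * a⁻¹ * b⁻¹ ∈ EC D z) ∧
      (∀ a ∈ EC D d, ∀ z' ∈ EG D z, ∃ b ∈ EG D x, a * b * a⁻¹ * b⁻¹ = z') ∧
      (∀ b ∈ EC D x, ∀ z' ∈ EG D z, ∃ a ∈ EG D d, a * b * a⁻¹ * b⁻¹ = z') := by
  have hdd := sq_of_mem n.h hd
  have hxx := sq_of_mem n.h hx
  have hnc : ¬ Commute d x := not_commute_of_order_four n.h hd hx h4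
  set z : G := d * (x * d * x) with hz
  have hzD : z ∈ D := mem_of_order_four n.h hd hx h4
  have hcd : Commute d (x * d * x) := commute_of_order_four hdd hxx h4
  have hcz : Commute d z := (Commute.refl d).mul_right hcd
  have hzs : z = x * (d * x * d) := comm_symm hdd hxx h4
  have h4' : orderOf (x * d) = 4 := by rw [orderOf_mul_comm' hxx hdd]; exact h4
  have hcxz : Commute x z := by
    rw [hzs]; exact (Commute.refl x).mul_right (commute_of_order_four hxx hdd h4')
  have hdW : d ∈ WSet D z := by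
    refine partner_mem_WSet n.h hzD hd hcz ?_
    rw [hz, ← mul_assoc, hdd, one_mul]
    exact conj_mem' n.h hd hx
  have hxW : x ∈ WSet D z := by
    refine partner_mem_WSet n.h hzD hx hcxz ?_
    rw [hzs, ← mul_assoc, hxx, one_mul]
    exact conj_mem' n.h hx hd
  -- classes inside `W_z`
  have hW : ∀ y ∈ WSet D z, ∀ a ∈ EC D y, a ∈ WSet D z := by
    intro y hy a ha
    refine ⟨ha.1, ?_, ?_⟩
    · exact ((n.comm_iff hy.1 ha hzD).2 hy.2.1.symm).symm
    · intro c hcD hcz' ho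
      exact hy.2.2 c hcD hcz' ((ha.2 c hcD).1 ho)
  have hcent : ∀ w ∈ WSet D z, ∀ t ∈ EG D z, Commute w t := fun w hw t ht =>
    comm_EG n.h n.hc hzD hw.1 hw.2.1 ht
  have hab : ∀ a ∈ EC D d, ∀ b ∈ EC D x, a * b * a⁻¹ * b⁻¹ ∈ EC D z := by
    intro a ha b hb
    have haW := hW d hdW a ha
    have hbW := hW x hxW b hb
    have hn : ¬ Commute a b := fun h1 => hnc ((n.comm_iff₂ hd hx ha hb).1 h1)
    have h1 := all_deep n.h n.hc hzD b hbW a haW (fun h => hn h.symm)
    have e1 : a * b * a⁻¹ * b⁻¹ = a * (b * a * b) := by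
      rw [inv_of_mem n.h haW.1, inv_of_mem n.h hbW.1, mul_assoc, mul_assoc, mul_assoc]
    rw [e1]
    exact ⟨(WSet_comm n.h haW hbW hn).1, h1⟩
  have hcardx : Nat.card (EG D x) = Nat.card (EG D z) := n.card_eq hzD hx
  have hcardd : Nat.card (EG D d) = Nat.card (EG D z) := n.card_eq hzD hd
  refine ⟨z, hzD, hdW, hxW, hab, ?_, ?_⟩
  · intro a ha
    have haW := hW d hdW a ha
    have hmem : ∀ b : EG D x, a * (b : G) * a⁻¹ * (b : G)⁻¹ ∈ EG D z := by
      rintro ⟨b, hb⟩
      rcases (n.mem x hx b).1 hb with h1 | h1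
      · show a * b * a⁻¹ * b⁻¹ ∈ EG D z
        rw [h1]; simp
      · exact Subgroup.subset_closure (hab a ha b h1)
    let F : EG D x → EG D z := fun b => ⟨a * (b : G) * a⁻¹ * (b : G)⁻¹, hmem b⟩
    have hinj : Function.Injective F := by
      rintro ⟨b, hb⟩ ⟨c, hc⟩ hbc
      have h1 : a * b * a⁻¹ * b⁻¹ = a * c * a⁻¹ * c⁻¹ := congrArg Subtype.val hbc
      -- `b⁻¹ c` commutes with `a`
      have hbc' : b⁻¹ * c ∈ EG D x := mul_mem (inv_mem hb) hc
      rcases (n.mem x hx _).1 hbc' with h2 | h2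
      · exact Subtype.ext (inv_mul_eq_one.1 h2)
      · exfalso
        have hkz : Commute c (a * c * a⁻¹ * c⁻¹) := by
          rcases (n.mem x hx c).1 hc with h3 | h3
          · rw [h3]; exact Commute.one_left _
          · exact hcent c (hW x hxW c h3) _ (hmem ⟨c, hc⟩)
        have h3 : Commute a (b⁻¹ * c) := by
          have h4 : a * b * a⁻¹ = (a * c * a⁻¹ * c⁻¹) * b := by rw [← h1]; group
          have h5 : a * c * a⁻¹ = (a * c * a⁻¹ * c⁻¹) * c := by group
          show a * (b⁻¹ * c) = b⁻¹ * c * a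
          have h6 : a * (b⁻¹ * c) * a⁻¹ = b⁻¹ * c := by
            calc a * (b⁻¹ * c) * a⁻¹ = (a * b * a⁻¹)⁻¹ * (a * c * a⁻¹) := by group
              _ = ((a * c * a⁻¹ * c⁻¹) * b)⁻¹ * ((a * c * a⁻¹ * c⁻¹) * c) := by rw [h4, ← h5]
              _ = b⁻¹ * c := by group
          calc a * (b⁻¹ * c) = (a * (b⁻¹ * c) * a⁻¹) * a := by group
            _ = b⁻¹ * c * a := by rw [h6]
        exact hnc ((n.comm_iff₂ hd hx ha h2).1 h3)
    have hsur : Function.Surjective F :=
      (Nat.bijective_iff_injective_and_card F |>.2 ⟨hinj, hcardx⟩).2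
    intro z' hz'
    obtain ⟨b, hb⟩ := hsur ⟨z', hz'⟩
    exact ⟨b, b.2, congrArg Subtype.val hb⟩
  · intro b hb
    have hbW := hW x hxW b hb
    have hmem : ∀ a : EG D d, (a : G) * b * (a : G)⁻¹ * b⁻¹ ∈ EG D z := by
      rintro ⟨a, ha⟩
      rcases (n.mem d hd a).1 ha with h1 | h1
      · show a * b * a⁻¹ * b⁻¹ ∈ EG D z
        rw [h1]; simp
      · exact Subgroup.subset_closure (hab a h1 b hb)
    let F : EG D d → EG D z := fun a => ⟨(a : G) * b * (a : G)⁻¹ * b⁻¹, hmem a⟩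
    have hinj : Function.Injective F := by
      rintro ⟨a, ha⟩ ⟨c, hc⟩ hac
      have h1 : a * b * a⁻¹ * b⁻¹ = c * b * c⁻¹ * b⁻¹ := congrArg Subtype.val hac
      have hac' : c⁻¹ * a ∈ EG D d := mul_mem (inv_mem hc) ha
      rcases (n.mem d hd _).1 hac' with h2 | h2
      · exact Subtype.ext (inv_mul_eq_one.1 h2).symm
      · exfalso
        have h3 : Commute (c⁻¹ * a) b := by
          have h4 : a * b * a⁻¹ = c * b * c⁻¹ := mul_right_cancel h1
          show c⁻¹ * a * b = b * (c⁻¹ * a)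
          calc c⁻¹ * a * b = c⁻¹ * (a * b * a⁻¹) * a := by group
            _ = c⁻¹ * (c * b * c⁻¹) * a := by rw [h4]
            _ = b * (c⁻¹ * a) := by group
        exact hnc ((n.comm_iff₂ hd hx h2 hb).1 h3)
    have hsur : Function.Surjective F :=
      (Nat.bijective_iff_injective_and_card F |>.2 ⟨hinj, hcardd⟩).2
    intro z' hz'
    obtain ⟨a, ha⟩ := hsur ⟨z', hz'⟩
    exact ⟨a, a.2, congrArg Subtype.val ha⟩

/-- The commutator case. -/
theorem four_case {d x : G} (hd : d ∈ D) (hx : x ∈ D) (h4 : orderOf (d * x) = 4) :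
    ¬ IsRankOnePair (EG D d) (EG D x) ∧
      RootCommutatorCase {B : Subgroup G | ∃ g : G, B = conjBy (EG D d) g} (EG D d) (EG D x) := by
  obtain ⟨z, hz, hdW, hxW, p1, p2, p3⟩ := n.four_pair hd hx h4
  have hnc : ¬ Commute d x := not_commute_of_order_four n.h hd hx h4
  have hdE : d ∈ EC D d := mem_EC_self hd
  have hxE : x ∈ EC D x := mem_EC_self hx
  have hW : ∀ y ∈ WSet D z, ∀ a ∈ EC D y, Commute z a := by
    intro y hy a ha
    exact (n.comm_iff hy.1 ha hz).2 hy.2.1.symm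
  have hWE : ∀ y ∈ WSet D z, ∀ a ∈ EG D y, ∀ t ∈ EG D z, Commute t a := by
    intro y hy a ha t ht
    rcases (n.mem y hy.1 a).1 ha with h1 | h1
    · rw [h1]; exact Commute.one_right t
    · exact (comm_EG n.h n.hc hz h1.1 (hW y hy a h1).symm ht).symm
  have hcomm : ∀ a ∈ EG D d, ∀ b ∈ EG D x, a * b * a⁻¹ * b⁻¹ ∈ EG D z := by
    intro a ha b hb
    rcases (n.mem d hd a).1 ha with h1 | h1
    · rw [h1]; simp
    · rcases (n.mem x hx b).1 hb with h2 | h2
      · rw [h2]; simp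
      · exact Subgroup.subset_closure (p1 a h1 b h2)
  have hle : ⁅EG D d, EG D x⁆ ≤ EG D z := by
    rw [Subgroup.commutator_le]
    intro a ha b hb
    exact hcomm a ha b hb
  have hge : EG D z ≤ ⁅EG D d, EG D x⁆ := by
    intro t ht
    obtain ⟨b, hb, rfl⟩ := p2 d hdE t ht
    exact Subgroup.commutator_mem_commutator (Subgroup.subset_closure hdE) hb
  have heq : ⁅EG D d, EG D x⁆ = EG D z := le_antisymm hle hge
  constructor
  · intro hR
    obtain ⟨b, hb, hb1, hbc⟩ := hR.cond_left d (Subgroup.subset_closure hdE) (ne_one_of_mem n.h hd)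
    -- `b⁻¹ d b` lies in `d⁻¹ E(x) d`
    have h1 : b⁻¹ * d * b ∈ conjBy (EG D d) b⁻¹ := ⟨d, Subgroup.subset_closure hdE, by
      show b⁻¹ * d * b⁻¹⁻¹ = _; rw [inv_inv]⟩
    rw [hbc] at h1
    obtain ⟨y, hy, hyd⟩ := h1
    have h2 : d⁻¹ * y * d = b⁻¹ * d * b := by
      rw [← hyd]; show _ = d⁻¹ * y * d⁻¹⁻¹; rw [inv_inv]
    -- `d` commutes with `y⁻¹ b` modulo `E(z)`
    have hyb : b⁻¹ * y * b = y := by
      have := (EG_comm n.h n.hc hx hb hy).eq
      calc b⁻¹ * y * b = b⁻¹ * (y * b) := by group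
        _ = b⁻¹ * (b * y) := by rw [this]
        _ = y := by group
    -- d⁻¹ y d = y t, b⁻¹ d b = d s
    set t : G := y⁻¹ * (d⁻¹ * y * d) with ht
    have htE : t ∈ EG D z := by
      have h3 := hcomm d⁻¹ (inv_mem (Subgroup.subset_closure hdE)) y hy
      have h4 : t = (d⁻¹ * y * d⁻¹⁻¹ * y⁻¹) := by
        have h5 := (hWE x hxW y hy _ h3).eq
        rw [ht]
        calc y⁻¹ * (d⁻¹ * y * d) = y⁻¹ * ((d⁻¹ * y * d⁻¹⁻¹ * y⁻¹) * y) := by group
          _ = y⁻¹ * (y * (d⁻¹ * y * d⁻¹⁻¹ * y⁻¹)) := by rw [h5]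
          _ = _ := by group
      rw [h4]; exact h3
    set s : G := d⁻¹ * (b⁻¹ * d * b) with hs
    have hsE : s ∈ EG D z := by
      have h3 := hcomm d⁻¹ (inv_mem (Subgroup.subset_closure hdE)) b⁻¹ (inv_mem hb)
      have h4 : s = d⁻¹ * b⁻¹ * d⁻¹⁻¹ * b⁻¹⁻¹ := by rw [hs]; group
      rw [h4]; exact h3
    have h3 : y * t = d * s := by
      rw [ht, hs]
      calc y * (y⁻¹ * (d⁻¹ * y * d)) = d⁻¹ * y * d := by group
        _ = b⁻¹ * d * b := h2
        _ = d * (d⁻¹ * (b⁻¹ * d * b)) := by group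
    -- so `d = y t s⁻¹` commutes with `x`
    apply hnc
    have h4 : d = y * (t * s⁻¹) := by
      rw [← mul_assoc, h3]; group
    have h5 : Commute y x := EG_comm n.h n.hc hx hy (Subgroup.subset_closure hxE)
    have h6 : Commute (t * s⁻¹) x :=
      hWE x hxW x (Subgroup.subset_closure hxE) _ (mul_mem htE (inv_mem hsE))
    rw [h4]
    exact h5.mul_left h6
  · have hclos : ∀ S : Set G, S = (EG D z : Set G) → Subgroup.closure S = ⁅EG D d, EG D x⁆ := by
      rintro S rfl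
      rw [heq]; exact Subgroup.closure_eq _
    refine ⟨?_, ?_, ?_, ?_⟩
    · rw [heq]
      obtain ⟨g, hg⟩ := n.cls d hd z hz
      exact ⟨g, by rw [n.EG_conjBy, ← hg]⟩
    · rw [heq]
      intro c hc y hy
      have h1 : EG D d ⊔ EG D x ≤ Subgroup.centralizer {c} := by
        refine sup_le ?_ ?_
        · intro a ha
          rw [Subgroup.mem_centralizer_singleton_iff]
          exact (hWE d hdW a ha c hc).symm.eq
        · intro a ha
          rw [Subgroup.mem_centralizer_singleton_iff]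
          exact (hWE x hxW a ha c hc).symm.eq
      have h2 := h1 hy
      rw [Subgroup.mem_centralizer_singleton_iff] at h2
      exact h2.symm
    · intro a ha ha1
      have haE := ((n.mem d hd a).1 ha).resolve_left ha1
      apply hclos
      ext t
      constructor
      · rintro ⟨b, hb, rfl⟩
        exact hcomm a ha b hb
      · intro ht
        obtain ⟨b, hb, e⟩ := p2 a haE t ht
        exact ⟨b, hb, e⟩
    · intro b hb hb1
      have hbE := ((n.mem x hx b).1 hb).resolve_left hb1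
      apply hclos
      ext t
      constructor
      · rintro ⟨a, ha, rfl⟩
        exact hcomm a ha b hb
      · intro ht
        obtain ⟨a, ha, e⟩ := p3 b hbE t ht
        exact ⟨a, ha, e⟩

/-- **Glue for the nondegenerate case.** -/
theorem kroot (F : Type) [Field F] [Fintype F] {d : G} (hd : d ∈ D)
    (hF : Fintype.card F = Nat.card (EG D d))
    (hopp : ∀ x ∈ D, Opp d x → ∃ (F' : Type) (_ : Field F') (_ : Fintype F'), CharP F' 2 ∧
      Fintype.card F' = Nat.card (EG D d) ∧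
      Nonempty (↥(EG D d ⊔ EG D x) ≃* Matrix.ProjectiveSpecialLinearGroup (Fin 2) F')) :
    IsKRootSubgroupSet F {A : Subgroup G | ∃ g : G, A = conjBy (EG D d) g} ∧
      IsConjClassOfSubgroups {A : Subgroup G | ∃ g : G, A = conjBy (EG D d) g} := by
  have hdE : d ∈ EC D d := mem_EC_self hd
  refine kroot_of hF.symm ?_ ?_ ?_
  · refine ⟨⟨?_⟩⟩
    rintro ⟨a, ha⟩ ⟨b, hb⟩
    exact Subtype.ext (EG_comm n.h n.hc hd ha hb)
  · rw [eq_top_iff, ← n.h.generates, Subgroup.closure_le]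
    intro y hy
    obtain ⟨g, rfl⟩ := n.cls d hd y hy
    have h1 : conjBy (EG D d) g ≤
        ⨆ B ∈ {B : Subgroup G | ∃ g : G, B = conjBy (EG D d) g}, B :=
      le_iSup₂_of_le (conjBy (EG D d) g) ⟨g, rfl⟩ le_rfl
    exact h1 (conj_mem_conjBy (Subgroup.subset_closure hdE) g)
  · intro g
    set x : G := g * d * g⁻¹ with hx
    have hxD : x ∈ D := n.conj hd g
    have hxE : x ∈ EC D x := mem_EC_self hxD
    rw [n.EG_conjBy d g, ← hx]
    rcases opp_trichotomy n.h hd hxD with h1 | h1 | h1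
    · left
      rw [commutator_eq_bot_iff_forall]
      intro a ha b hb
      exact n.comm_EG₂ hd hxD h1 ha hb
    · right; left
      refine ⟨?_, ?_⟩
      · intro heq
        have h2 : x ∈ EG D d := by rw [heq]; exact Subgroup.subset_closure hxE
        exact Opp.ncomm n.h hd hxD h1
          (EG_comm n.h n.hc hd (Subgroup.subset_closure hdE) h2)
      · obtain ⟨F', i1, i2, h2, h3, h4⟩ := hopp x hxD h1
        exact ⟨F', i1, i2, h2, h3.trans hF.symm, h4⟩
    · right; right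
      exact n.four_case hd hxD h1.1

end Nd

/-! ### `SL₂(2)` -/

/-- The matrices `u = [1, 1; 0, 1]`, `l = [1, 0; 1, 1]`. -/
def u2 : Matrix.SpecialLinearGroup (Fin 2) (ZMod 2) := ⟨!![1, 1; 0, 1], by decide⟩

@[inherit_doc u2]
def l2 : Matrix.SpecialLinearGroup (Fin 2) (ZMod 2) := ⟨!![1, 0; 1, 1], by decide⟩

theorem nonempty_psl_two :
    Nonempty (DihedralGroup 3 ≃* Matrix.ProjectiveSpecialLinearGroup (Fin 2) (ZMod 2)) := by
  have h2 : Fact (Nat.Prime 2) := ⟨Nat.prime_two⟩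
  have h3 : Fact (Nat.Prime 3) := ⟨Nat.prime_three⟩
  have hu : orderOf u2 = 2 := orderOf_eq_prime (by decide) (by decide)
  have hl : orderOf l2 = 2 := orderOf_eq_prime (by decide) (by decide)
  have hul : orderOf (u2 * l2) = 3 := orderOf_eq_prime (by decide) (by decide)
  have hne : u2 ≠ l2 := by decide
  obtain ⟨e⟩ := Cfsg.Agent.S0206.result u2 l2 hu hl hne
  rw [hul] at e
  have hcard : Nat.card (Subgroup.closure {u2, l2}) = 6 := by
    rw [Nat.card_congr e.toEquiv, Nat.card_eq_fintype_card, DihedralGroup.card]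
  have htop : Subgroup.closure {u2, l2} = ⊤ := by
    apply Subgroup.eq_top_of_card_eq
    rw [hcard, Nat.card_eq_fintype_card, LieClassical.SLTwoTwo.card_sl]
  obtain ⟨f⟩ := H803.RankOneFacts.nonempty_psl_equiv (F := ZMod 2)
  exact ⟨(e.symm.trans ((MulEquiv.subgroupCongr htop).trans Subgroup.topEquiv)).trans f⟩

theorem psl_two_of {a b : G} (ha : orderOf a = 2) (hb : orderOf b = 2) (hab : orderOf (a * b) = 3) :
    Nonempty (↥(Subgroup.closure {a, b}) ≃*
      Matrix.ProjectiveSpecialLinearGroup (Fin 2) (ZMod 2)) := by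
  have hne : a ≠ b := by
    rintro rfl
    have h1 : a * a = 1 := by rw [← pow_two, ← ha]; exact pow_orderOf_eq_one a
    rw [h1, orderOf_one] at hab
    omega
  obtain ⟨e⟩ := Cfsg.Agent.S0206.result a b ha hb hne
  rw [hab] at e
  obtain ⟨f⟩ := nonempty_psl_two
  exact ⟨e.trans f⟩

/-! ### The case `|E(d)| = 2` -/

namespace Nd

theorem EG_of_singleton (n : Nd D) {d : G} (hd : d ∈ D) (h1 : EC D d = {d}) :
    EG D d = Subgroup.zpowers d := by
  unfold EG; rw [h1, Subgroup.zpowers_eq_closure]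

/-- **The prime case with all odd orders 3.** -/
theorem kroot_prime (n : Nd D) (hE : ∀ d ∈ D, EC D d = {d})
    (h3 : ∀ a ∈ D, ∀ b ∈ D, Opp a b → (a * b) ^ 3 = 1) {d : G} (hd : d ∈ D) :
    Nat.card (EG D d) = 2 ∧
    IsKRootSubgroupSet (ZMod 2) {A : Subgroup G | ∃ g : G, A = conjBy (EG D d) g} ∧
      IsConjClassOfSubgroups {A : Subgroup G | ∃ g : G, A = conjBy (EG D d) g} := by
  have hcard : Nat.card (EG D d) = 2 := by
    rw [n.EG_of_singleton hd (hE d hd), Nat.card_zpowers, n.h.orderOf_eq d hd]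
  refine ⟨hcard, n.kroot (ZMod 2) hd ?_ ?_⟩
  · rw [hcard, ZMod.card]
  · intro x hx hdx
    refine ⟨ZMod 2, inferInstance, inferInstance, inferInstance, by rw [hcard, ZMod.card], ?_⟩
    have hsup : EG D d ⊔ EG D x = Subgroup.closure {d, x} := by
      rw [n.EG_of_singleton hd (hE d hd), n.EG_of_singleton hx (hE x hx),
        Subgroup.zpowers_eq_closure, Subgroup.zpowers_eq_closure, ← Subgroup.closure_union]
      rfl
    rw [hsup]
    apply psl_two_of (n.h.orderOf_eq d hd) (n.h.orderOf_eq x hx)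
    have hf3 : Fact (Nat.Prime 3) := ⟨Nat.prime_three⟩
    refine orderOf_eq_prime (h3 d hd x hx hdx) ?_
    intro h1
    apply hdx.1
    calc d = d * (x * x) := by rw [sq_of_mem n.h hx, mul_one]
      _ = (d * x) * x := by group
      _ = x := by rw [h1, one_mul]

end Nd

end Glue

end Cfsg.Agent.H738
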