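import Cfsg.Agent.H738.KRoot
import Cfsg.Agent.WeakTI.BenderModel

/-!
# Identification of groups generated by two full shear groups

A finite group `X` acting on a finite set `Ω`, generated by two conjugates of an elementary abelian
2-subgroup `A`, which fixes a point `p`, is regular on the other points and normal in the stabiliser
of `p`, such that the products of nontrivial elements of two different conjugates have odd order, is
isomorphic to `L₂(q)` with `q = |A|`, if `O₂(X) = 1` and 3 divides `|X|`.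
-/

set_option autoImplicit false

universe u

namespace Cfsg.Agent.H738.Shear

open Cfsg.Agent.LieClassical.SLTwoUnipotent Cfsg.Agent.LieClassical.FieldTransfer

structure Setup {X : Type*} {Ω : Type*} [Group X] [MulAction X Ω] (A : Subgroup X) (p : Ω) :
    Prop where
  card : 4 ≤ Nat.card A
  sq : ∀ a ∈ A, a * a = 1
  fix : ∀ a ∈ A, a • p = p
  trans : ∀ r r' : Ω, r ≠ p → r' ≠ p → ∃ a ∈ A, a • r = r'
  free : ∀ a ∈ A, ∀ r : Ω, r ≠ p → a • r = r → a = 1
  stab : ∀ g : X, g • p = p → ∀ a ∈ A, g * a * g⁻¹ ∈ A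
  odd : ∀ a ∈ A, a ≠ 1 → ∀ b ∈ A, b ≠ 1 → ∀ g : X, g • p ≠ p →
    Odd (orderOf (a * (g * b * g⁻¹)))
  gen : ∃ g : X, g • p ≠ p ∧ A ⊔ conjBy A g = ⊤
  three : 3 ∣ Nat.card X

/-- The conjugates of the nontrivial elements of `A`. -/
def DD {X : Type*} [Group X] (A : Subgroup X) : Set X :=
  {y | ∃ g a, a ∈ A ∧ a ≠ 1 ∧ y = g * a * g⁻¹}

namespace Setup

variable {X : Type*} {Ω : Type*} [Group X] [Finite X] [MulAction X Ω] {A : Subgroup X} {p : Ω}
variable (s : Setup A p)
include s

omit [Finite X] in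
theorem inv {a : X} (ha : a ∈ A) : a⁻¹ = a := inv_eq_of_mul_eq_one_left (s.sq a ha)

omit [Finite X] in
theorem comm {a b : X} (ha : a ∈ A) (hb : b ∈ A) : Commute a b := by
  have h1 := s.sq (a * b) (mul_mem ha hb)
  show a * b = b * a
  calc a * b = a * b * (a * b) * (b⁻¹ * a⁻¹) := by group
    _ = b * a := by rw [h1, s.inv ha, s.inv hb, one_mul]

omit [Finite X] in
theorem conj_mem_iff {g h : X} (hgh : g • p = h • p) {a : X} (ha : a ∈ A) :
    h⁻¹ * (g * a * g⁻¹) * h ∈ A := by
  have h1 : (h⁻¹ * g) • p = p := by rw [mul_smul, hgh, inv_smul_smul]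
  have h2 := s.stab _ h1 a ha
  have e : h⁻¹ * g * a * (h⁻¹ * g)⁻¹ = h⁻¹ * (g * a * g⁻¹) * h := by group
  rwa [e] at h2

omit [Finite X] in
/-- The unique fixed point. -/
theorem fix_iff {g a : X} (ha : a ∈ A) (ha1 : a ≠ 1) (r : Ω) :
    (g * a * g⁻¹) • r = r ↔ r = g • p := by
  constructor
  · intro h1
    by_contra hne
    have h2 : g⁻¹ • r ≠ p := by
      intro h3; apply hne; rw [← h3, smul_inv_smul]
    apply ha1
    refine s.free a ha _ h2 ?_
    rw [mul_smul, mul_smul] at h1
    rw [eq_inv_smul_iff, h1]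
  · rintro rfl
    rw [mul_smul, mul_smul, inv_smul_smul, s.fix a ha]

omit [Finite X] in
theorem comm_of_eq {g h a b : X} (hgh : g • p = h • p) (ha : a ∈ A) (hb : b ∈ A) :
    Commute (g * a * g⁻¹) (h * b * h⁻¹) := by
  have h1 := s.conj_mem_iff hgh ha
  have h2 := (s.comm h1 hb).eq
  show g * a * g⁻¹ * (h * b * h⁻¹) = h * b * h⁻¹ * (g * a * g⁻¹)
  calc g * a * g⁻¹ * (h * b * h⁻¹) = h * (h⁻¹ * (g * a * g⁻¹) * h * b) * h⁻¹ := by group
    _ = h * (b * (h⁻¹ * (g * a * g⁻¹) * h)) * h⁻¹ := by rw [h2]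
    _ = _ := by group

omit [Finite X] in
theorem odd_of_ne {g h a b : X} (hgh : g • p ≠ h • p) (ha : a ∈ A) (ha1 : a ≠ 1) (hb : b ∈ A)
    (hb1 : b ≠ 1) : Odd (orderOf (g * a * g⁻¹ * (h * b * h⁻¹))) := by
  have h1 : (g⁻¹ * h) • p ≠ p := by
    intro h2; apply hgh; rw [mul_smul, inv_smul_eq_iff] at h2; exact h2.symm
  have h2 := s.odd a ha ha1 b hb hb1 _ h1
  have e : g * a * g⁻¹ * (h * b * h⁻¹) = g * (a * (g⁻¹ * h * b * (g⁻¹ * h)⁻¹)) * g⁻¹ := by group
  rw [e, ← MulAut.conj_apply, MulEquiv.orderOf_eq]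
  exact h2

omit [Finite X] in
theorem comm_iff {g h a b : X} (ha : a ∈ A) (ha1 : a ≠ 1) (hb : b ∈ A) (hb1 : b ≠ 1) :
    Commute (g * a * g⁻¹) (h * b * h⁻¹) ↔ g • p = h • p := by
  constructor
  · intro hc
    by_contra hne
    -- the fixed point of the first is fixed by the second
    have h1 : (h * b * h⁻¹) • (g • p) = g • p := by
      rw [← s.fix_iff ha ha1, ← mul_smul, hc.eq, mul_smul, (s.fix_iff ha ha1 _).2 rfl]
    rw [s.fix_iff hb hb1] at h1
    exact hne h1
  · intro h1; exact s.comm_of_eq h1 ha hb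

omit [Finite X] in
theorem order_two {a : X} (ha : a ∈ A) (ha1 : a ≠ 1) (g : X) : orderOf (g * a * g⁻¹) = 2 := by
  rw [← MulAut.conj_apply, MulEquiv.orderOf_eq]
  have hf : Fact (Nat.Prime 2) := ⟨Nat.prime_two⟩
  exact orderOf_eq_prime (by rw [pow_two]; exact s.sq a ha) ha1

theorem odd_transpositions : IsOddTranspositionSet (DD A) := by
  refine ⟨⟨?_, ?_, ?_, ?_⟩, ?_⟩
  · rintro _ ⟨g, a, ha, ha1, rfl⟩
    exact s.order_two ha ha1 g
  · obtain ⟨g, -, hg⟩ := s.gen
    rw [eq_top_iff, ← hg]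
    refine sup_le ?_ ?_
    · intro a ha
      by_cases h1 : a = 1
      · rw [h1]; exact one_mem _
      · exact Subgroup.subset_closure ⟨1, a, ha, h1, by group⟩
    · rintro _ ⟨a, ha, rfl⟩
      by_cases h1 : a = 1
      · rw [h1, map_one]; exact one_mem _
      · exact Subgroup.subset_closure ⟨g, a, ha, h1, rfl⟩
  · rintro _ ⟨g, a, ha, ha1, rfl⟩ h
    exact ⟨h * g, a, ha, ha1, by group⟩
  · rintro _ ⟨g, a, ha, ha1, rfl⟩ _ ⟨h, b, hb, hb1, rfl⟩
    by_cases hgh : g • p = h • p
    · exact Or.inl (s.comm_of_eq hgh ha hb).eq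
    · exact Or.inr (Or.inl (s.odd_of_ne hgh ha ha1 hb hb1))
  · rintro _ ⟨g, a, ha, ha1, rfl⟩ _ ⟨h, b, hb, hb1, rfl⟩ h4
    by_cases hgh : g • p = h • p
    · have h1 := s.comm_of_eq hgh ha hb
      have h2 : (g * a * g⁻¹ * (h * b * h⁻¹)) ^ 2 = 1 := by
        rw [h1.mul_pow]
        have e1 : (g * a * g⁻¹) ^ 2 = 1 := by rw [← s.order_two ha ha1 g]; exact pow_orderOf_eq_one _
        have e2 : (h * b * h⁻¹) ^ 2 = 1 := by rw [← s.order_two hb hb1 h]; exact pow_orderOf_eq_one _
        rw [e1, e2, mul_one]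
      have h3 := orderOf_dvd_of_pow_eq_one h2
      rw [h4] at h3
      omega
    · have h1 := s.odd_of_ne hgh ha ha1 hb hb1
      rw [h4] at h1
      exact absurd h1 (by decide)

omit [Finite X] in
theorem exists_ne_one : ∃ a ∈ A, a ≠ 1 := by
  by_contra hcon
  push Not at hcon
  have h1 : A = ⊥ := (Subgroup.eq_bot_iff_forall A).2 hcon
  have h2 := s.card
  rw [h1, Subgroup.card_bot] at h2
  omega

/-- **Identification.** -/
theorem ident (hO2 : pCore 2 X = ⊥) : ∃ (F : Type) (_ : Field F) (_ : Fintype F), CharP F 2 ∧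
    Fintype.card F = Nat.card A ∧
    Nonempty (X ≃* Matrix.ProjectiveSpecialLinearGroup (Fin 2) F) := by
  classical
  have hf2 : Fact (Nat.Prime 2) := ⟨Nat.prime_two⟩
  obtain ⟨a₀, ha₀, ha₀1⟩ := s.exists_ne_one
  obtain ⟨g₀, hg₀, hgen⟩ := s.gen
  set x : X := g₀ * a₀ * g₀⁻¹ with hx
  have hxD : x ∈ DD A := ⟨g₀, a₀, ha₀, ha₀1, rfl⟩
  have hAD : ∀ a ∈ A, a ≠ 1 → a ∈ DD A := fun a ha ha1 => ⟨1, a, ha, ha1, by group⟩
  have hxp : x • p ≠ p := by
    intro h1
    exact hg₀ ((s.fix_iff ha₀ ha₀1 p).1 h1).symm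
  have hX : A ⊔ Subgroup.zpowers x = ⊤ := by
    obtain ⟨a, ha, hax⟩ := s.trans _ _ hxp hg₀
    set h : X := a * x with hh
    have hhH : h ∈ A ⊔ Subgroup.zpowers x :=
      mul_mem (Subgroup.mem_sup_left ha) (Subgroup.mem_sup_right (Subgroup.mem_zpowers x))
    have hhp : h • p = g₀ • p := by rw [hh, mul_smul, hax]
    rw [eq_top_iff, ← hgen]
    refine sup_le le_sup_left ?_
    rintro _ ⟨b, hb, rfl⟩
    have h1 := s.conj_mem_iff hhp.symm hb
    have h2 : h * (h⁻¹ * (g₀ * b * g₀⁻¹) * h) * h⁻¹ ∈ A ⊔ Subgroup.zpowers x :=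
      mul_mem (mul_mem hhH (Subgroup.mem_sup_left h1)) (inv_mem hhH)
    have e : h * (h⁻¹ * (g₀ * b * g₀⁻¹) * h) * h⁻¹ = g₀ * b * g₀⁻¹ := by group
    rw [e] at h2
    exact h2
  have hncomm : ¬ Commute x a₀ := by
    intro h1
    have e : a₀ = (1 : X) * a₀ * (1 : X)⁻¹ := by group
    rw [e, hx, s.comm_iff ha₀ ha₀1 ha₀ ha₀1, one_smul] at h1
    exact hg₀ h1
  have hTI : ∀ a ∈ DD A, ∀ b ∈ DD A, ∀ c ∈ DD A, a * b = b * a → b * c = c * b →
      a * c = c * a := by
    rintro _ ⟨g, a, ha, ha1, rfl⟩ _ ⟨h, b, hb, hb1, rfl⟩ _ ⟨k, c, hc, hc1, rfl⟩ h1 h2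
    have h3 := (s.comm_iff ha ha1 hb hb1).1 h1
    have h4 := (s.comm_iff hb hb1 hc hc1).1 h2
    exact (s.comm_iff ha ha1 hc hc1).2 (h3.trans h4)
  rcases H803.RankOne.rank_one s.odd_transpositions A s.card (hAD a₀ ha₀ ha₀1) hxD ha₀ hAD hTI hX
    (fun h => hncomm h) hO2 with ⟨F, iF, iF', hF2, hF4, ⟨e⟩⟩ | hSz
  · refine ⟨F, iF, iF', hF2, ?_, ⟨e⟩⟩
    -- a Sylow 2-subgroup containing `A`
    have hPA : IsPGroup 2 A := by
      rintro ⟨a, ha⟩
      exact ⟨1, Subtype.ext (by show a ^ 2 ^ 1 = 1; rw [pow_one, pow_two]; exact s.sq a ha)⟩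
    obtain ⟨S, hS⟩ := hPA.exists_le_sylow
    obtain ⟨f⟩ := H803.RankOneFacts.nonempty_psl_equiv (F := F)
    let ψ : Matrix.SpecialLinearGroup (Fin 2) F ≃* X := f.trans e.symm
    have hcS : Nat.card S = Fintype.card F := by
      have h1 : Nat.card S = Nat.card (upperUnipSylowSL F 2) := by
        rw [Sylow.card_eq_multiplicity, Sylow.card_eq_multiplicity, Nat.card_congr ψ.toEquiv]
      have h2 : Nat.card (upperUnipSylowSL F 2) = Nat.card (upperUnipSL F) := rfl
      rw [h1, h2, card_upperUnipSL, Nat.card_eq_fintype_card]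
    have hcT : Nat.card ((S : Subgroup X).comap ψ.toMonoidHom) = Fintype.card F := by
      rw [← hcS]
      exact Nat.card_congr (ψ.toEquiv.subtypeEquiv (fun _ => Iff.rfl))
    obtain ⟨k, hk⟩ := exists_conj_upper hcT
    have hSsq : ∀ y ∈ S, y * y = 1 := by
      intro y hy
      have h1 : ψ.symm y ∈ (S : Subgroup X).comap ψ.toMonoidHom := by
        show ψ (ψ.symm y) ∈ (S : Subgroup X)
        rw [MulEquiv.apply_symm_apply]; exact hy
      rw [hk] at h1
      obtain ⟨w, hw, hwy⟩ := h1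
      have hww : w * w = 1 := by
        have hw' : w ∈ upperUnipotentSL2 F := hw
        rw [H731.mem_upper_iff] at hw'
        obtain ⟨c, rfl⟩ := hw'
        have h2 : c + c = 0 := by
          rw [← two_mul]
          have : (2 : F) = 0 := by exact_mod_cast CharP.cast_eq_zero F 2
          rw [this, zero_mul]
        rw [← H731.up_add, h2, H731.up_zero]
      have h3 : ψ.symm y * ψ.symm y = 1 := by
        rw [← hwy]
        show (k * w * k⁻¹) * (k * w * k⁻¹) = 1
        calc (k * w * k⁻¹) * (k * w * k⁻¹) = k * (w * w) * k⁻¹ := by group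
          _ = 1 := by rw [hww]; group
      have h4 := congrArg ψ h3
      rwa [map_mul, MulEquiv.apply_symm_apply, map_one] at h4
    have hScomm : ∀ a ∈ S, ∀ b ∈ S, Commute a b := by
      intro a ha b hb
      have h1 := hSsq (a * b) (mul_mem ha hb)
      have ia : a⁻¹ = a := inv_eq_of_mul_eq_one_left (hSsq a ha)
      have ib : b⁻¹ = b := inv_eq_of_mul_eq_one_left (hSsq b hb)
      show a * b = b * a
      calc a * b = a * b * (a * b) * (b⁻¹ * a⁻¹) := by group
        _ = b * a := by rw [h1, ia, ib, one_mul]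
    -- `S = A`
    have hSA : (S : Subgroup X) = A := by
      apply le_antisymm _ hS
      intro y hy
      have hyp : y • p = p := by
        have h1 := s.fix_iff (g := 1) ha₀ ha₀1 (y • p)
        have h2 := (hScomm a₀ (hS ha₀) y hy).eq
        rw [one_mul, inv_one, mul_one, one_smul] at h1
        rw [← h1, ← mul_smul, h2, mul_smul, s.fix a₀ ha₀]
      have hyr : y • (g₀ • p) ≠ p := by
        intro h1
        apply hg₀
        apply MulAction.injective y
        show y • (g₀ • p) = y • p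
        rw [h1, hyp]
      obtain ⟨a, ha, hay⟩ := s.trans _ _ hg₀ hyr
      -- `z = a⁻¹ y` acts trivially
      set z : X := a⁻¹ * y with hz
      have hzS : z ∈ S := mul_mem (inv_mem (hS ha)) hy
      have hzr : z • (g₀ • p) = g₀ • p := by rw [hz, mul_smul, ← hay, inv_smul_smul]
      have hzp : z • p = p := by
        rw [hz, mul_smul, hyp]
        exact s.fix _ (inv_mem ha)
      have hztriv : ∀ r : Ω, z • r = r := by
        intro r
        by_cases hr : r = p
        · rw [hr, hzp]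
        · obtain ⟨b, hb, rfl⟩ := s.trans _ _ hg₀ hr
          rw [← mul_smul, (hScomm z hzS b (hS hb)).eq, mul_smul, hzr]
      -- so `z` is central
      have hzcomm : ∀ g : X, ∀ b ∈ A, Commute z (g * b * g⁻¹) := by
        intro g b hb
        by_cases hb1 : b = 1
        · rw [hb1]
          have : g * 1 * g⁻¹ = 1 := by group
          rw [this]; exact Commute.one_right z
        -- `z (g b g⁻¹) z⁻¹ (g b g⁻¹)⁻¹` lies in `g A g⁻¹` and acts trivially
        set c : X := g⁻¹ * z * g with hc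
        have hcp : c • p = p := by rw [hc, mul_smul, mul_smul, hztriv, inv_smul_smul]
        have h1 := s.stab c hcp b hb
        have h2 : c * b * c⁻¹ * b⁻¹ ∈ A := mul_mem h1 (inv_mem hb)
        have hct : ∀ r : Ω, c • r = r := by
          intro r; rw [hc, mul_smul, mul_smul, hztriv, inv_smul_smul]
        have hct' : ∀ r : Ω, c⁻¹ • r = r := by
          intro r; rw [inv_smul_eq_iff, hct]
        have h3 : c * b * c⁻¹ * b⁻¹ = 1 := by
          refine s.free _ h2 _ hg₀ ?_
          rw [mul_smul, mul_smul, mul_smul, hct', smul_inv_smul, hct]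
        have h4 : c * b = b * c := by
          calc c * b = (c * b * c⁻¹ * b⁻¹) * (b * c) := by group
            _ = b * c := by rw [h3, one_mul]
        show z * (g * b * g⁻¹) = g * b * g⁻¹ * z
        calc z * (g * b * g⁻¹) = g * (c * b) * g⁻¹ := by rw [hc]; group
          _ = g * (b * c) * g⁻¹ := by rw [h4]
          _ = _ := by rw [hc]; group
      have hzcen : ∀ g : X, Commute z g := by
        intro g
        have hg : g ∈ A ⊔ conjBy A g₀ := by rw [hgen]; exact Subgroup.mem_top g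
        have hle : A ⊔ conjBy A g₀ ≤ Subgroup.centralizer {z} := by
          refine sup_le ?_ ?_
          · intro b hb
            rw [Subgroup.mem_centralizer_singleton_iff]
            have := hzcomm 1 b hb
            rw [one_mul, inv_one, mul_one] at this
            exact this.symm.eq
          · rintro _ ⟨b, hb, rfl⟩
            rw [Subgroup.mem_centralizer_singleton_iff]
            exact (hzcomm g₀ b hb).symm.eq
        have := hle hg
        rw [Subgroup.mem_centralizer_singleton_iff] at this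
        exact this.symm
      have hz1 : z = 1 := by
        have hn : (Subgroup.zpowers z).Normal := by
          refine ⟨fun w hw g => ?_⟩
          obtain ⟨m, rfl⟩ := Subgroup.mem_zpowers_iff.1 hw
          have : g * z ^ m * g⁻¹ = z ^ m := by
            rw [((hzcen g).zpow_left m).symm.eq, mul_inv_cancel_right]
          rw [this]; exact hw
        have hp : IsPGroup 2 (Subgroup.zpowers z) :=
          S.isPGroup'.to_le (by rw [Subgroup.zpowers_le]; exact hzS)
        have hle : Subgroup.zpowers z ≤ pCore 2 X := le_sSup ⟨hn, hp⟩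
        rw [hO2, le_bot_iff, Subgroup.zpowers_eq_bot] at hle
        exact hle
      have : y = a := by
        have : a * z = y := by rw [hz]; group
        rw [← this, hz1, mul_one]
      rw [this]; exact ha
    rw [← hcS, ← hSA]
  · exfalso
    obtain ⟨F, iF, iF', m, hm, hF, ⟨e⟩⟩ := hSz
    have h3 := s.three
    rw [Nat.card_congr e.toEquiv] at h3
    exact Cfsg.Agent.WeakTI.BenderModel.not_three_dvd hm hF h3

end Setup

end Cfsg.Agent.H738.Shear
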