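import Cfsg.Agent.H738.LineLem

/-!
# Odd transpositions: `⟨E_d, x⟩` does not involve `Sz(q)`

`RS.sz_false`: in the situation of `RS` there is no `s ∈ X` commuting with `E_d` such that `s²` acts
as a member `b` of `E_d` on `R / C`.

The forms `th a u v = [br a u, v]` are symmetric, alternating and `s`-invariant; with
`N = s - 1` the form `G_a(u, v) = th a u (N v)` is symmetric, `G_b(u, u) = 1`, and an adjoint
permutation `φ` of `R / ker` (`br b (φ u) ≡ br a u`) has a nontrivial fixed point of odd power.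
-/

set_option autoImplicit false

universe u

namespace Cfsg.Agent.H738

open Cfsg.Agent.H737

/-! ### Two abstract lemmas -/

/-- A permutation of a set of even size with a fixed point has an odd power with another fixed
point. -/
theorem exists_odd_fixed {T : Type*} [Finite T] (h2 : 2 ∣ Nat.card T) (φ : Equiv.Perm T) {e : T}
    (he : φ e = e) : ∃ t, t ≠ e ∧ ∃ m : ℕ, (φ ^ (2 * m + 1)) t = t := by
  classical
  have hfact : Fact (Nat.Prime 2) := ⟨Nat.prime_two⟩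
  have hpos : orderOf φ ≠ 0 := (isOfFinOrder_of_finite φ).orderOf_pos.ne'
  obtain ⟨k, N, hN, hkN⟩ := Nat.exists_eq_two_pow_mul_odd hpos
  obtain ⟨m, hm⟩ := hN
  set ψ : Equiv.Perm T := φ ^ N with hψ
  have hψ2 : ψ ^ 2 ^ k = 1 := by
    rw [hψ, ← pow_mul, mul_comm, ← hkN, pow_orderOf_eq_one]
  have hP : IsPGroup 2 (Subgroup.zpowers ψ) := by
    rintro ⟨g, n, hg⟩
    refine ⟨k, Subtype.ext ?_⟩
    show g ^ 2 ^ k = 1
    rw [← hg]
    show (ψ ^ n) ^ 2 ^ k = 1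
    rw [← zpow_natCast, ← zpow_mul, mul_comm, zpow_mul, zpow_natCast, hψ2, one_zpow]
  have hfe : ∀ n : ℕ, (φ ^ n) e = e := by
    intro n
    induction n with
    | zero => rfl
    | succ n ih =>
      rw [pow_succ]
      show (φ ^ n) (φ e) = e
      rw [he, ih]
  have hψe : ψ e = e := hfe N
  have hfix : e ∈ MulAction.fixedPoints (Subgroup.zpowers ψ) T := by
    rintro ⟨g, n, hg⟩
    show g • e = e
    rw [← hg]
    show (ψ ^ n) e = e
    have h1 : ψ ∈ MulAction.stabilizer (Equiv.Perm T) e := hψe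
    exact (MulAction.stabilizer (Equiv.Perm T) e).zpow_mem h1 n
  obtain ⟨t, ht, hne⟩ := hP.exists_fixed_point_of_prime_dvd_card_of_fixed_point T h2 hfix
  refine ⟨t, hne.symm, m, ?_⟩
  have h1 := ht ⟨ψ, Subgroup.mem_zpowers ψ⟩
  have h3 : ψ t = t := h1
  rw [hψ, hm] at h3
  exact h3

/-- A symmetric-like form with `f u u = c` takes the value `c` on some `(φ t, t)`. -/
theorem adj_fixed {T Y : Type*} (f : T → T → Y) (φ : Equiv.Perm T) (c : Y)
    (hadj : ∀ u v, f (φ u) v = f u (φ v)) (hself : ∀ u, f u u = c) {t : T} {m : ℕ}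
    (ht : (φ ^ (2 * m + 1)) t = t) : f (φ t) t = c := by
  have h1 : ∀ (i : ℕ) (u v : T), f ((φ ^ i) u) v = f u ((φ ^ i) v) := by
    intro i
    induction i with
    | zero => intro u v; rfl
    | succ i ih =>
      intro u v
      have e1 : (φ ^ (i + 1)) u = (φ ^ i) (φ u) := by rw [pow_succ]; rfl
      have e2 : (φ ^ (i + 1)) v = φ ((φ ^ i) v) := by rw [pow_succ']; rfl
      rw [e1, e2, ih, hadj]
  have h2 : (φ ^ m) (φ t) = (φ ^ (m + 1)) t := by rw [pow_succ]; rfl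
  have h3 : (φ ^ (2 * m + 1)) t = (φ ^ m) ((φ ^ (m + 1)) t) := by
    have e : 2 * m + 1 = m + (m + 1) := by ring
    rw [e, pow_add]; rfl
  calc f (φ t) t = f (φ t) ((φ ^ m) ((φ ^ (m + 1)) t)) := by rw [← h3, ht]
    _ = f ((φ ^ m) (φ t)) ((φ ^ (m + 1)) t) := (h1 m _ _).symm
    _ = c := by rw [h2]; exact hself _

variable {G : Type u} [Group G] {D : Set G} {d x : G} {R : Subgroup G}

namespace RS

variable [Finite G]

/-- Commutators. -/
def be (u v : G) : G := u * v * u⁻¹ * v⁻¹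

theorem be_one_iff {u v : G} : be u v = 1 ↔ Commute u v := by
  unfold be
  rw [mul_inv_eq_one, mul_inv_eq_iff_eq_mul]
  exact Iff.rfl

section Form

variable (r : RS D d x R) {a b u v w c k g : G}

include r

theorem C_R (hc : c ∈ C D d x R) : c ∈ R := (mem_C.1 hc).1

theorem K_R (hk : k ∈ K d R) : k ∈ R := (mem_K.1 hk).1

theorem be_mem (hu : u ∈ R) (hv : v ∈ R) : be u v ∈ C D d x R := r.comm_mem hu hv

theorem be_inv : be v u = (be u v)⁻¹ := by unfold be; group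

theorem be_mul_left (hu : u ∈ R) (hv : v ∈ R) (hw : w ∈ R) :
    be (u * v) w = be u w * be v w := by
  have h1 := (r.central (r.be_mem hv hw) hu).eq
  have h2 := (r.central (r.be_mem hv hw) (mul_mem (mul_mem hw (inv_mem hu)) (inv_mem hw))).eq
  calc be (u * v) w = u * be v w * (w * u⁻¹ * w⁻¹) := by unfold be; group
    _ = u * (be v w * (w * u⁻¹ * w⁻¹)) := by group
    _ = u * ((w * u⁻¹ * w⁻¹) * be v w) := by rw [h2]
    _ = be u w * be v w := by unfold be; group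

theorem be_C_left (hc : c ∈ C D d x R) (hv : v ∈ R) : be c v = 1 :=
  be_one_iff.2 (r.central hc hv).symm

theorem be_C_right (hc : c ∈ C D d x R) (hv : v ∈ R) : be v c = 1 :=
  be_one_iff.2 (r.central hc hv)

theorem be_sq (hu : u ∈ R) (hv : v ∈ R) : be u v * be u v = 1 := by
  rw [← r.be_mul_left hu hu hv]
  exact r.be_C_left (r.sq_mem hu) hv

theorem be_symm (hu : u ∈ R) (hv : v ∈ R) : be u v = be v u := by
  rw [be_inv (u := u) (v := v) r, inv_of_sq (r.be_sq hu hv)]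

theorem be_mul_right (hu : u ∈ R) (hv : v ∈ R) (hw : w ∈ R) :
    be u (v * w) = be u v * be u w := by
  rw [r.be_symm hu (mul_mem hv hw), r.be_mul_left hv hw hu, r.be_symm hv hu, r.be_symm hw hu]

theorem be_inv_left (hu : u ∈ R) (hv : v ∈ R) : be u⁻¹ v = be u v := by
  have h1 := r.be_mul_left (inv_mem hu) hu hv
  rw [inv_mul_cancel, r.be_C_left (one_mem _) hv] at h1
  calc be u⁻¹ v = be u⁻¹ v * (be u v * be u v) := by rw [r.be_sq hu hv, mul_one]
    _ = (be u⁻¹ v * be u v) * be u v := by group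
    _ = be u v := by rw [← h1, one_mul]

theorem be_conj (hg : g ∈ XX D d x) (hu : u ∈ R) (hv : v ∈ R) :
    be (g * u * g⁻¹) (g * v * g⁻¹) = be u v := by
  have h1 := r.C_conj (r.be_mem hu hv) hg
  rw [← h1]
  conv_rhs => rw [h1]
  unfold be at h1 ⊢
  rw [← h1]; group

theorem be_K (hu : u ∈ K d R) (hv : v ∈ K d R) : be u v = 1 := be_one_iff.2 (r.K_comm hu hv)

theorem conjR (ha : a ∈ Cls D d) (hu : u ∈ R) : a * u * a⁻¹ ∈ R := r.nrm a (cls_X ha) u hu

theorem br_eq (ha : a ∈ Cls D d) : br a u = (a * u * a⁻¹) * u⁻¹ := by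
  unfold br
  rw [r.h.ot.inv ha.1]; group

/-- `[br a u, v]`. -/
theorem th_eq (ha : a ∈ Cls D d) (hu : u ∈ R) (hv : v ∈ R) :
    be (br a u) v = be (a * u * a⁻¹) v * be u v := by
  rw [r.br_eq ha, r.be_mul_left (r.conjR ha hu) (inv_mem hu) hv, r.be_inv_left hu hv]

theorem th_symm (ha : a ∈ Cls D d) (hu : u ∈ R) (hv : v ∈ R) :
    be (br a u) v = be (br a v) u := by
  rw [r.th_eq ha hu hv, r.th_eq ha hv hu, r.be_symm hv hu]
  congr 1
  rw [← r.be_conj (cls_X ha) (r.conjR ha hu) hv]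
  have e : a * (a * u * a⁻¹) * a⁻¹ = u := by
    calc a * (a * u * a⁻¹) * a⁻¹ = (a * a) * u * (a * a)⁻¹ := by group
      _ = u := by rw [r.h.ot.sq a ha.1]; group
  rw [e, r.be_symm hu (r.conjR ha hv)]

theorem th_self (ha : a ∈ Cls D d) (hu : u ∈ R) : be (br a u) u = 1 := by
  rw [be_one_iff]
  have h1 := (mem_C.1 (r.sq_mem hu)).2 a (cls_X ha)
  have h2 := (r.comm_conj_cls ha ha hu).eq
  have h3 : u * (u * a * u⁻¹) * u⁻¹ = a := by
    calc u * (u * a * u⁻¹) * u⁻¹ = (u * u * a) * (u * u)⁻¹ := by group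
      _ = (a * (u * u)) * (u * u)⁻¹ := by rw [h1.eq]
      _ = a := by group
  refine Commute.symm ?_
  rw [← conj_eq_iff]
  unfold br
  calc u * (a * (u * a * u⁻¹)) * u⁻¹ = (u * a * u⁻¹) * (u * (u * a * u⁻¹) * u⁻¹) := by group
    _ = (u * a * u⁻¹) * a := by rw [h3]
    _ = a * (u * a * u⁻¹) := h2

theorem th_K_right (ha : a ∈ Cls D d) (hu : u ∈ R) (hk : k ∈ K d R) : be (br a u) k = 1 :=
  r.be_K (r.br_K ha hu) hk

theorem th_K_left (ha : a ∈ Cls D d) (hk : k ∈ K d R) (hv : v ∈ R) : be (br a k) v = 1 := by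
  rw [r.th_symm ha (r.K_R hk) hv]
  exact r.th_K_right ha hv hk

theorem th_mul_right (ha : a ∈ Cls D d) (hu : u ∈ R) (hv : v ∈ R) (hw : w ∈ R) :
    be (br a u) (v * w) = be (br a u) v * be (br a u) w :=
  r.be_mul_right (r.br_mem ha hu) hv hw

theorem th_mul_left (ha : a ∈ Cls D d) (hu : u ∈ R) (hv : v ∈ R) (hw : w ∈ R) :
    be (br a (u * v)) w = be (br a u) w * be (br a v) w := by
  rw [r.th_symm ha (mul_mem hu hv) hw, r.th_mul_right ha hw hu hv, r.th_symm ha hw hu,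
    r.th_symm ha hw hv]

end Form

/-- `u⁻¹ (s u s⁻¹)`. -/
def sg (s u : G) : G := u⁻¹ * (s * u * s⁻¹)

/-- The situation to be excluded. -/
structure SzHyp (D : Set G) (d x : G) (R : Subgroup G) (s b : G) : Prop where
  r : RS D d x R
  sX : s ∈ XX D d x
  sc : ∀ a ∈ Cls D d, Commute s a
  hb : b ∈ Cls D d
  s2 : ∀ u ∈ R, (s * s * u * (s * s)⁻¹)⁻¹ * (b * u * b⁻¹) ∈ C D d x R

section Sz

variable {s a b u v w c k : G} (q : SzHyp D d x R s b)

include q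

theorem SzHyp.sR (hu : u ∈ R) : s * u * s⁻¹ ∈ R := q.r.nrm s q.sX u hu

theorem SzHyp.sgR (hu : u ∈ R) : sg s u ∈ R := mul_mem (inv_mem hu) (q.sR hu)

theorem SzHyp.br_s (ha : a ∈ Cls D d) : br a (s * u * s⁻¹) = s * br a u * s⁻¹ := by
  have h1 := (q.sc a ha).eq
  have h2 : s⁻¹ * a = a * s⁻¹ := by
    calc s⁻¹ * a = s⁻¹ * (a * s) * s⁻¹ := by group
      _ = s⁻¹ * (s * a) * s⁻¹ := by rw [h1]
      _ = a * s⁻¹ := by group
  unfold br
  calc a * (s * u * s⁻¹ * a * (s * u * s⁻¹)⁻¹) = a * (s * u * (s⁻¹ * a) * s * u⁻¹ * s⁻¹) := by group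
    _ = a * s * (u * a * u⁻¹) * s⁻¹ := by rw [h2]; group
    _ = s * a * (u * a * u⁻¹) * s⁻¹ := by rw [h1]
    _ = _ := by group

theorem SzHyp.sK (hk : k ∈ K d R) : s * k * s⁻¹ ∈ K d R := by
  rw [mem_K]
  refine ⟨q.sR (mem_K.1 hk).1, ?_⟩
  have h1 := (q.sc d q.r.dd).eq
  have h2 := (mem_K.1 hk).2.eq
  have h3 : s⁻¹ * d = d * s⁻¹ := by
    calc s⁻¹ * d = s⁻¹ * (d * s) * s⁻¹ := by group
      _ = s⁻¹ * (s * d) * s⁻¹ := by rw [h1]
      _ = d * s⁻¹ := by group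
  show s * k * s⁻¹ * d = d * (s * k * s⁻¹)
  calc s * k * s⁻¹ * d = s * k * (s⁻¹ * d) := by group
    _ = s * (k * d) * s⁻¹ := by rw [h3]; group
    _ = (s * d) * k * s⁻¹ := by rw [h2]; group
    _ = d * (s * k * s⁻¹) := by rw [h1]; group

theorem SzHyp.sgK (hk : k ∈ K d R) : sg s k ∈ K d R := mul_mem (inv_mem hk) (q.sK hk)

/-- `s²` acts trivially modulo `K`. -/
theorem SzHyp.s2K (hu : u ∈ R) : u⁻¹ * (s * (s * u * s⁻¹) * s⁻¹) ∈ K d R := by
  have h1 := q.s2 u hu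
  have h2 : u⁻¹ * (b * u * b⁻¹) ∈ K d R := by
    have h3 := q.r.be_mem (inv_mem hu) (q.r.br_mem q.hb hu)
    have h4 := mul_mem (q.r.C_le h3) (q.r.br_K q.hb hu)
    have e : be u⁻¹ (br b u) * br b u = u⁻¹ * (b * u * b⁻¹) := by
      rw [q.r.br_eq q.hb]; unfold be; group
    rwa [e] at h4
  have h5 := mul_mem h2 (inv_mem (q.r.C_le h1))
  have e : u⁻¹ * (b * u * b⁻¹) * ((s * s * u * (s * s)⁻¹)⁻¹ * (b * u * b⁻¹))⁻¹ =
      u⁻¹ * (s * (s * u * s⁻¹) * s⁻¹) := by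
    simp only [mul_inv_rev, inv_inv, mul_assoc, mul_inv_cancel_left, inv_mul_cancel_left]
  rwa [e] at h5

theorem SzHyp.th_s (ha : a ∈ Cls D d) (hu : u ∈ R) (hv : v ∈ R) :
    be (br a (s * u * s⁻¹)) (s * v * s⁻¹) = be (br a u) v := by
  rw [q.br_s ha, q.r.be_conj q.sX (q.r.br_mem ha hu) hv]

theorem SzHyp.th_shift (ha : a ∈ Cls D d) (hu : u ∈ R) (hv : v ∈ R) :
    be (br a (s * u * s⁻¹)) v = be (br a u) (s * v * s⁻¹) := by
  rw [← q.th_s ha (q.sR hu) hv]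
  have e : s * (s * u * s⁻¹) * s⁻¹ = u * (u⁻¹ * (s * (s * u * s⁻¹) * s⁻¹)) := by group
  rw [e, q.r.th_mul_left ha hu (q.r.K_R (q.s2K hu)) (q.sR hv), q.r.th_K_left ha (q.s2K hu) (q.sR hv),
    mul_one]

/-- The form `G_a`. -/
theorem SzHyp.G_eq (ha : a ∈ Cls D d) (hu : u ∈ R) (hv : v ∈ R) :
    be (br a u) (sg s v) = be (br a u) v * be (br a u) (s * v * s⁻¹) := by
  unfold sg
  rw [q.r.th_mul_right ha hu (inv_mem hv) (q.sR hv),
    q.r.be_symm (q.r.br_mem ha hu) (inv_mem hv), q.r.be_inv_left hv (q.r.br_mem ha hu),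
    q.r.be_symm hv (q.r.br_mem ha hu)]

theorem SzHyp.G_symm (ha : a ∈ Cls D d) (hu : u ∈ R) (hv : v ∈ R) :
    be (br a u) (sg s v) = be (br a v) (sg s u) := by
  rw [q.G_eq ha hu hv, q.G_eq ha hv hu, q.r.th_symm ha hu hv, q.r.th_symm ha hu (q.sR hv),
    q.th_shift ha hv hu]

theorem SzHyp.G_self (hu : u ∈ R) : be (br b u) (sg s u) = 1 := by
  have hb := q.hb
  have hsu := q.sR hu
  have hssu := q.sR hsu
  rw [q.G_eq hb hu hu, q.r.th_self hb hu, one_mul]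
  set c : G := (s * s * u * (s * s)⁻¹)⁻¹ * (b * u * b⁻¹) with hc
  have hcC : c ∈ C D d x R := q.s2 u hu
  have e : br b u = s * (s * u * s⁻¹) * s⁻¹ * c * u⁻¹ := by
    rw [q.r.br_eq hb, hc]; group
  rw [e, q.r.be_mul_left (mul_mem hssu (q.r.C_R hcC)) (inv_mem hu) hsu,
    q.r.be_mul_left hssu (q.r.C_R hcC) hsu, q.r.be_C_left hcC hsu, mul_one,
    q.r.be_conj q.sX hsu hu, q.r.be_inv_left hu hsu, q.r.be_symm hu hsu, q.r.be_sq hsu hu]

/-- The radical. -/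
theorem SzHyp.G_mul_right (ha : a ∈ Cls D d) (hu : u ∈ R) (hv : v ∈ R) (hw : w ∈ R)
    (h : sg s w ∈ K d R) : be (br a u) (sg s (v * w)) = be (br a u) (sg s v) := by
  have hm : s * (v * w) * s⁻¹ = (s * v * s⁻¹) * (s * w * s⁻¹) := by group
  rw [q.G_eq ha hu (mul_mem hv hw), q.G_eq ha hu hv, hm, q.r.th_mul_right ha hu hv hw,
    q.r.th_mul_right ha hu (q.sR hv) (q.sR hw)]
  have h1 := q.G_eq ha hu hw
  rw [q.r.th_K_right ha hu h] at h1
  have hbu := q.r.br_mem ha hu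
  have h2 := (q.r.central (q.r.be_mem hbu (q.sR hv)) (q.r.C_R (q.r.be_mem hbu hw))).eq
  calc be (br a u) v * be (br a u) w * (be (br a u) (s * v * s⁻¹) * be (br a u) (s * w * s⁻¹))
      = be (br a u) v * (be (br a u) w * be (br a u) (s * v * s⁻¹)) *
          be (br a u) (s * w * s⁻¹) := by group
    _ = be (br a u) v * (be (br a u) (s * v * s⁻¹) * be (br a u) w) *
          be (br a u) (s * w * s⁻¹) := by rw [h2]
    _ = be (br a u) v * be (br a u) (s * v * s⁻¹) *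
          (be (br a u) w * be (br a u) (s * w * s⁻¹)) := by group
    _ = _ := by rw [← h1, mul_one]

theorem SzHyp.sg_K_mul (hk : k ∈ K d R) {l : G} (hl : l ∈ K d R) :
    sg s (k * l) = sg s k * sg s l := by
  have h1 := (q.r.K_comm (q.sgK hk) hl).eq
  calc sg s (k * l) = l⁻¹ * (sg s k * l) * sg s l := by unfold sg; group
    _ = l⁻¹ * (l * sg s k) * sg s l := by rw [h1]
    _ = _ := by group

theorem SzHyp.sg_C (hc : c ∈ C D d x R) : sg s c = 1 := by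
  unfold sg
  rw [q.r.C_conj hc q.sX, inv_mul_cancel]

theorem SzHyp.sg_K_C (hk : k ∈ K d R) (hc : c ∈ C D d x R) : sg s (k * c) = sg s k := by
  rw [q.sg_K_mul hk (q.r.C_le hc), q.sg_C hc, mul_one]

theorem SzHyp.sg_inv (hk : k ∈ K d R) : sg s k⁻¹ = (sg s k)⁻¹ := by
  have h1 := q.sg_K_mul (inv_mem hk) hk
  rw [inv_mul_cancel, q.sg_C (one_mem _)] at h1
  exact eq_inv_of_mul_eq_one_left h1.symm

/-- `br a (u⁻¹ v)`. -/
theorem _root_.Cfsg.Agent.H738.RS.br_inv_mul (r : RS D d x R) (ha : a ∈ Cls D d) (hu : u ∈ R) :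
    u * br a (u⁻¹ * v) * u⁻¹ = (br a u)⁻¹ * br a v := by
  rw [inv_of_sq (r.br_sq ha hu)]
  unfold br
  have h3 := (r.comm_conj_cls ha ha hu).eq
  calc u * (a * (u⁻¹ * v * a * (u⁻¹ * v)⁻¹)) * u⁻¹ = (u * a * u⁻¹) * (v * a * v⁻¹) := by group
    _ = (u * a * u⁻¹) * (a * a) * (v * a * v⁻¹) := by rw [r.h.ot.sq a ha.1, mul_one]
    _ = ((u * a * u⁻¹) * a) * (a * (v * a * v⁻¹)) := by group
    _ = _ := by rw [h3]

/-- `sg (br a z) = z (br a (sg z)) z⁻¹`. -/
theorem SzHyp.sg_br (ha : a ∈ Cls D d) (hu : u ∈ R) :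
    sg s (br a u) = u * br a (sg s u) * u⁻¹ := by
  have h1 := q.r.br_inv_mul (v := s * u * s⁻¹) q ha hu
  rw [sg, ← q.br_s ha, ← h1]
  rfl

theorem SzHyp.sg_br_mem_iff (ha : a ∈ Cls D d) (hu : u ∈ R) :
    sg s (br a u) ∈ C D d x R ↔ sg s u ∈ K d R := by
  rw [q.sg_br ha hu]
  constructor
  · intro h1
    apply q.r.br_mem_C ha (q.sgR hu)
    have h2 := (q.r.central h1 (inv_mem hu)).eq
    have e : br a (sg s u) = u⁻¹ * (u * br a (sg s u) * u⁻¹) * u := by group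
    rw [e, h2]
    have e2 : u * br a (sg s u) * u⁻¹ * u⁻¹ * u = u * br a (sg s u) * u⁻¹ := by group
    rw [e2]; exact h1
  · intro h1
    have h2 : br a (sg s u) = 1 :=
      br_eq_one ((q.r.mem_K_iff ha (q.sgR hu)).1 h1) (q.r.h.ot.sq a ha.1)
    rw [h2]
    have e : u * 1 * u⁻¹ = 1 := by group
    rw [e]; exact one_mem _

theorem SzHyp.sg_br_inv_mul (ha : a ∈ Cls D d) (hu : u ∈ R) (hv : v ∈ R) :
    (sg s (br a u))⁻¹ * sg s (br a v) ∈ C D d x R ↔ sg s (u⁻¹ * v) ∈ K d R := by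
  have hz : u⁻¹ * v ∈ R := mul_mem (inv_mem hu) hv
  rw [← q.sg_br_mem_iff ha hz]
  have hbz := q.r.br_K ha hz
  have h1 := q.r.br_inv_mul (v := v) q ha hu
  -- `br a z = (br a u)⁻¹ (br a v) c`
  have h2 : be u (br a (u⁻¹ * v)) ∈ C D d x R := q.r.be_mem hu (q.r.K_R hbz)
  have h3 : (br a u)⁻¹ * br a v = br a (u⁻¹ * v) * be u (br a (u⁻¹ * v)) := by
    rw [(q.r.central h2 (q.r.K_R hbz)).eq, ← h1]
    unfold be; group
  have h4 : sg s ((br a u)⁻¹ * br a v) = sg s (br a (u⁻¹ * v)) := by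
    rw [h3, q.sg_K_C hbz h2]
  rw [← h4, q.sg_K_mul (inv_mem (q.r.br_K ha hu)) (q.r.br_K ha hv), q.sg_inv (q.r.br_K ha hu)]

theorem SzHyp.exists_not : ∃ u ∈ R, sg s u ∉ K d R := by
  by_contra hcon
  push Not at hcon
  apply q.r.not_le_K
  intro u hu
  -- `s` centralizes `br b u`
  have h1 : ∀ v ∈ R, Commute s (br b v) := by
    intro v hv
    have h2 := q.sg_br q.hb hv
    have h3 : br b (sg s v) = 1 :=
      br_eq_one ((q.r.mem_K_iff q.hb (q.sgR hv)).1 (hcon v hv)) (q.r.h.ot.sq b q.hb.1)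
    rw [h3, mul_one, mul_inv_cancel] at h2
    unfold sg at h2
    exact conj_eq_iff.1 (inv_mul_eq_one.1 h2).symm
  have h2 : ∀ k ∈ K d R, Commute s k := by
    intro k hk
    obtain ⟨v, hv, c, hc, rfl⟩ := q.r.exists_br q.hb hk
    exact (h1 v hv).mul_right ((mem_C.1 hc).2 s q.sX)
  have h3 := h2 _ (hcon u hu)
  have h4 : s * sg s u * s⁻¹ = sg s u := conj_eq_iff.2 h3
  -- `s² u s⁻² = (sus⁻¹) (sg u)`
  have h5 : s * (s * u * s⁻¹) * s⁻¹ = (s * u * s⁻¹) * sg s u := by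
    have e : s * (s * u * s⁻¹) * s⁻¹ = (s * u * s⁻¹) * (s * sg s u * s⁻¹) := by unfold sg; group
    rw [e, h4]
  have h6 : s * (s * u * s⁻¹) * s⁻¹ = u * (sg s u * sg s u) := by
    rw [h5]; unfold sg; group
  have h7 := q.r.sq_mem (q.sgR hu)
  apply q.r.br_mem_C q.hb hu
  have h8 := q.s2 u hu
  have e : br b u = u * ((sg s u * sg s u) * ((s * s * u * (s * s)⁻¹)⁻¹ * (b * u * b⁻¹))) * u⁻¹ := by
    rw [q.r.br_eq q.hb]
    have e1 : u * (sg s u * sg s u * ((s * s * u * (s * s)⁻¹)⁻¹ * (b * u * b⁻¹))) * u⁻¹ =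
        (u * (sg s u * sg s u)) * ((s * (s * u * s⁻¹) * s⁻¹)⁻¹ * (b * u * b⁻¹)) * u⁻¹ := by group
    rw [e1, ← h6]; group
  rw [e]
  have h9 := mul_mem h7 h8
  rw [conj_eq_iff.2 (q.r.central h9 hu)]
  exact h9

theorem _root_.Cfsg.Agent.H738.RS.K_conj (r : RS D d x R) (hk : k ∈ K d R) (hu : u ∈ R) :
    u * k * u⁻¹ ∈ K d R := by
  have h1 := mul_mem (r.C_le (r.be_mem hu (r.K_R hk))) hk
  have e : be u k * k = u * k * u⁻¹ := by unfold be; group
  rwa [e] at h1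

/-- **Exclusion.** -/
theorem SzHyp.false : False := by
  classical
  have r := q.r
  have hb := q.hb
  obtain ⟨a, ha, hab⟩ := r.exists_ne b
  let Ks : Subgroup ↥R :=
    { carrier := {u | sg s (u : G) ∈ K d R}
      one_mem' := by
        show sg s 1 ∈ K d R
        rw [q.sg_C (one_mem _)]; exact one_mem _
      mul_mem' := by
        intro u v hu hv
        have h1 := mul_mem (r.K_conj q hu (inv_mem v.2)) hv
        have e : (v : G)⁻¹ * sg s u * (v : G)⁻¹⁻¹ * sg s v = sg s (u * v) := by unfold sg; group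
        rw [e] at h1
        exact h1
      inv_mem' := by
        intro u hu
        have h1 := r.K_conj q (inv_mem hu) u.2
        have e : (u : G) * (sg s u)⁻¹ * (u : G)⁻¹ = sg s (u : G)⁻¹ := by unfold sg; group
        rw [e] at h1
        exact h1 }
  have hKs : ∀ u : ↥R, u ∈ Ks ↔ sg s (u : G) ∈ K d R := fun u => Iff.rfl
  have rel : ∀ u v : ↥R, (QuotientGroup.mk u : ↥R ⧸ Ks) = QuotientGroup.mk v ↔
      sg s ((u : G)⁻¹ * v) ∈ K d R := by
    intro u v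
    rw [QuotientGroup.eq, hKs]
    exact Iff.rfl
  have hex : ∀ u : ↥R, ∃ v : ↥R, ∃ c ∈ C D d x R, br a (u : G) = br b (v : G) * c := by
    intro u
    obtain ⟨v, hv, c, hc, h1⟩ := r.exists_br hb (r.br_K ha u.2)
    exact ⟨⟨v, hv⟩, c, hc, h1⟩
  choose p pc hpc hp using hex
  have hsp : ∀ u : ↥R, sg s (br a (u : G)) = sg s (br b (p u : G)) := by
    intro u
    rw [hp u, q.sg_K_C (r.br_K hb (p u).2) (hpc u)]
  have key : ∀ u v : ↥R, (QuotientGroup.mk (p u) : ↥R ⧸ Ks) = QuotientGroup.mk (p v) ↔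
      (QuotientGroup.mk u : ↥R ⧸ Ks) = QuotientGroup.mk v := by
    intro u v
    rw [rel, rel, ← q.sg_br_inv_mul hb (p u).2 (p v).2, ← q.sg_br_inv_mul ha u.2 v.2, hsp, hsp]
  let f0 : (↥R ⧸ Ks) → (↥R ⧸ Ks) := fun t => QuotientGroup.mk (p t.out)
  have hf0 : ∀ u : ↥R, f0 (QuotientGroup.mk u) = QuotientGroup.mk (p u) := by
    intro u
    show QuotientGroup.mk (p (QuotientGroup.mk u : ↥R ⧸ Ks).out) = _
    rw [key]
    exact QuotientGroup.out_eq' _
  have hinj : Function.Injective f0 := by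
    intro t t' h1
    have h2 := (key _ _).1 h1
    rwa [QuotientGroup.out_eq', QuotientGroup.out_eq'] at h2
  let φ : Equiv.Perm (↥R ⧸ Ks) := Equiv.ofBijective f0 (Finite.injective_iff_bijective.1 hinj)
  have hφ : ∀ t, φ t = QuotientGroup.mk (p t.out) := fun t => rfl
  have he : φ (QuotientGroup.mk 1) = QuotientGroup.mk 1 := by
    show f0 _ = _
    rw [hf0, rel]
    have h1 := hp 1
    have h2 : br a ((1 : ↥R) : G) = 1 := by
      show br a (1 : G) = 1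
      unfold br
      rw [one_mul, inv_one, mul_one, r.h.ot.sq a ha.1]
    rw [h2] at h1
    have h3 : br b (p 1 : G) ∈ C D d x R := by
      have : br b (p 1 : G) = (pc 1)⁻¹ := eq_inv_of_mul_eq_one_left h1.symm
      rw [this]; exact inv_mem (hpc 1)
    have h4 := r.br_mem_C hb (p 1).2 h3
    have e : ((p 1 : ↥R) : G)⁻¹ * ((1 : ↥R) : G) = ((p 1 : ↥R) : G)⁻¹ := mul_one _
    rw [e]
    exact q.sgK (inv_mem h4)
  have h2 : 2 ∣ Nat.card (↥R ⧸ Ks) := by
    have hfact : Fact (Nat.Prime 2) := ⟨Nat.prime_two⟩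
    obtain ⟨n, hn⟩ := r.pg.index Ks
    rw [Subgroup.index] at hn
    rw [hn]
    rcases Nat.eq_zero_or_pos n with h1 | h1
    · exfalso
      rw [h1, pow_zero] at hn
      have h2 : Ks = ⊤ := Subgroup.index_eq_one.1 hn
      obtain ⟨u, hu, hus⟩ := q.exists_not
      apply hus
      have h3 : (⟨u, hu⟩ : ↥R) ∈ Ks := by rw [h2]; exact Subgroup.mem_top _
      exact h3
    · exact dvd_pow_self 2 h1.ne'
  obtain ⟨t, hte, m, ht⟩ := exists_odd_fixed h2 φ he
  let f : (↥R ⧸ Ks) → (↥R ⧸ Ks) → G := fun t t' => be (br b (t.out : G)) (sg s (t'.out : G))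
  have hinv : ∀ (e : G), e ∈ Cls D d → ∀ u v v' : ↥R,
      (QuotientGroup.mk v : ↥R ⧸ Ks) = QuotientGroup.mk v' →
      be (br e (u : G)) (sg s (v' : G)) = be (br e (u : G)) (sg s (v : G)) := by
    intro e he u v v' h1
    rw [rel] at h1
    have h3 := q.G_mul_right he u.2 v.2 (mul_mem (inv_mem v.2) v'.2) h1
    have e1 : (v : G) * ((v : G)⁻¹ * v') = v' := by group
    rwa [e1] at h3
  have L1 : ∀ t t', f (φ t) t' = be (br a (t.out : G)) (sg s (t'.out : G)) := by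
    intro t t'
    show be (br b ((φ t).out : G)) (sg s (t'.out : G)) = _
    rw [q.G_symm hb (φ t).out.2 t'.out.2]
    have h3 : (QuotientGroup.mk (p t.out) : ↥R ⧸ Ks) = QuotientGroup.mk (φ t).out := by
      rw [QuotientGroup.out_eq', hφ]
    rw [hinv b hb t'.out _ _ h3, q.G_symm hb t'.out.2 (p t.out).2]
    have h4 := hp t.out
    have h5 : br b (p t.out : G) = br a (t.out : G) * (pc t.out)⁻¹ := by rw [h4]; group
    rw [h5, r.be_mul_left (r.br_mem ha t.out.2) (r.C_R (inv_mem (hpc _))) (q.sgR t'.out.2),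
      r.be_C_left (inv_mem (hpc _)) (q.sgR t'.out.2), mul_one]
  have hadj : ∀ u v, f (φ u) v = f u (φ v) := by
    intro u v
    have h3 : f u (φ v) = f (φ v) u := q.G_symm hb u.out.2 (φ v).out.2
    rw [h3, L1, L1]
    exact q.G_symm ha u.out.2 v.out.2
  have hself : ∀ u, f u u = 1 := fun u => q.G_self u.out.2
  have h3 := adj_fixed f φ 1 hadj hself ht
  rw [L1] at h3
  -- the contradiction
  set u₀ : G := (t.out : G) with hu₀
  set v₀ : G := (p t.out : G) with hv₀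
  have hu₀R : u₀ ∈ R := t.out.2
  have hv₀R : v₀ ∈ R := (p t.out).2
  have hwR := q.sgR hu₀R
  have hwR' := q.sgR hv₀R
  rw [r.th_symm ha hu₀R hwR, be_one_iff] at h3
  have h4 := q.G_self hv₀R
  rw [r.th_symm hb hv₀R hwR', be_one_iff] at h4
  have h5 : br a (sg s u₀) = br b (sg s v₀) := by
    have e1 := q.sg_br ha hu₀R
    have e2 := q.sg_br hb hv₀R
    rw [conj_eq_iff.2 h3.symm] at e1
    rw [conj_eq_iff.2 h4.symm] at e2
    rw [← e1, ← e2]
    exact hsp t.out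
  have hbaC := r.mul b hb a ha (fun h => hab h.symm)
  have hwD := r.conjD ha (sg s u₀)
  have h6 : b * a * (sg s u₀ * a * (sg s u₀)⁻¹) = sg s v₀ * b * (sg s v₀)⁻¹ := by
    have h7 : a * (sg s u₀ * a * (sg s u₀)⁻¹) = b * (sg s v₀ * b * (sg s v₀)⁻¹) := h5
    rw [mul_assoc, h7, ← mul_assoc, r.h.ot.sq b hb.1, one_mul]
  have hcomm : Commute (b * a) (sg s u₀ * a * (sg s u₀)⁻¹) :=
    ((r.comm_conj_cls ha hb hwR).symm).mul_left (r.comm_conj_cls ha ha hwR).symm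
  have h7 := r.h.ot.line_eqv hbaC.1 hwD hcomm (by rw [h6]; exact r.conjD hb _)
  have h8 : sg s u₀ * a * (sg s u₀)⁻¹ ∈ Cls D d := ⟨hwD, hbaC.2.trans h7⟩
  have h9 := (r.mem_K_iff ha hwR).2 (r.conj_cls_self ha h8 hwR)
  apply hte
  have h10 : (QuotientGroup.mk 1 : ↥R ⧸ Ks) = QuotientGroup.mk t.out := by
    rw [rel]
    have e : ((1 : ↥R) : G)⁻¹ * (t.out : G) = u₀ := by
      rw [Subgroup.coe_one, inv_one, one_mul]
    rw [e]; exact h9
  rw [QuotientGroup.out_eq'] at h10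
  exact h10.symm

end Sz

end RS

end Cfsg.Agent.H738
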